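import Mathlib
import Cfsg.Agent.H8.PrimeOrder

/-!
Semisimple matrices of small order: eigenvalues in the algebraic closure and characteristic
polynomials.
-/

set_option autoImplicit false

namespace Cfsg.Agent.H2.Cls

open Matrix Polynomial

variable {n : Type} [Fintype n] [DecidableEq n]

theorem aeval_diagonal {K : Type*} [Field K] (d : n → K) (q : K[X]) :
    aeval (diagonal d) q = diagonal fun i => q.eval (d i) := by
  induction q using Polynomial.induction_on' with
  | add a b ha hb => simp [ha, hb, diagonal_add]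
  | monomial k a =>
    simp only [aeval_monomial, diagonal_pow, eval_monomial, Algebra.algebraMap_eq_smul_one,
      smul_mul_assoc, one_mul]
    ext i j
    by_cases h : i = j <;> simp [diagonal_apply, h]

theorem conj_of_charpoly {F : Type*} [Field F] {x y : Matrix n n F} {p : F[X]} (hp : Squarefree p)
    (hx : aeval x p = 0) (hy : aeval y p = 0) (h : x.charpoly = y.charpoly) :
    ∃ P : GL n F, ((P⁻¹ : GL n F) : Matrix n n F) * x * P = y := by
  rw [← H8.sim_toLin'_iff]
  refine H8.sim_of_charpoly_eq hp hp ?_ ?_ ?_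
  · rw [← H8.toLin'_aeval, hx, map_zero]
  · rw [← H8.toLin'_aeval, hy, map_zero]
  · rw [charpoly_toLin', charpoly_toLin', h]

theorem exists_diag {K : Type*} [Field K] [IsAlgClosed K] {M : Matrix n n K} {p : K[X]}
    (hp : Squarefree p) (hM : aeval M p = 0) :
    ∃ (P : GL n K) (d : n → K), ((P⁻¹ : GL n K) : Matrix n n K) * M * P = diagonal d := by
  obtain ⟨N, g, h1, h2, h3, h4⟩ := H8.exists_hasType_of_squarefree (Matrix.toLin' M) hp
    (by rw [← H8.toLin'_aeval, hM, map_zero])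
  have h5 : ∀ j, (g j).natDegree = 1 := fun j =>
    natDegree_eq_of_degree_eq_some (IsAlgClosed.degree_eq_one_of_irreducible K (h1 j))
  have h6 : ∀ j, g j = X - C (-(g j).coeff 0) := fun j => by
    rw [C_neg, sub_neg_eq_add]; exact (h2 j).eq_X_add_C (h5 j)
  have h7 := h4.finrank_eq fun j => (h1 j).ne_zero
  simp only [h5, Finset.sum_const, Finset.card_univ, Fintype.card_fin, smul_eq_mul, mul_one,
    Module.finrank_fintype_fun_eq_card] at h7
  let e := Fintype.equivFinOfCardEq h7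
  obtain ⟨P, hP⟩ := conj_of_charpoly (x := M) (y := diagonal fun i => -(g (e i)).coeff 0) hp hM (by
    rw [aeval_diagonal]
    ext i j
    by_cases h : i = j
    · subst h
      have := h3 (e i)
      rw [h6, dvd_iff_isRoot] at this
      simpa using this
    · simp [h]) (by
    rw [← charpoly_toLin', h4.charpoly_eq h2, charpoly_diagonal, ← e.prod_comp]
    exact Finset.prod_congr rfl fun i _ => h6 _)
  exact ⟨P, _, hP⟩

variable {F : Type*} [Field F]

/-- The algebraic closure. -/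
abbrev K (F : Type*) [Field F] := AlgebraicClosure F

/-- The eigenvalue data of a semisimple matrix. -/
structure Spec (x : Matrix n n F) {N : ℕ} (d : Fin N → K F) : Prop where
  chi : ∀ k : ℕ, (x ^ k).charpoly.map (algebraMap F (K F)) = ∏ i, (X - C (d i ^ k))
  tr : ∀ k : ℕ, algebraMap F (K F) (x ^ k).trace = ∑ i, d i ^ k
  det : algebraMap F (K F) x.det = ∏ i, d i
  zero : ∀ q : F[X], aeval x q = 0 ↔ ∀ i, aeval (d i) q = 0
  comm : Function.Injective d → ∀ a b : Matrix n n F, a * x = x * a → b * x = x * b → a * b = b * a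

theorem exists_spec {x : Matrix n n F} {p : F[X]} (hp : p.Separable) (hx : aeval x p = 0) {N : ℕ}
    (hn : Fintype.card n = N) : ∃ d : Fin N → K F, Spec x d := by
  let φ : Matrix n n F →ₐ[F] Matrix n n (K F) := (Algebra.ofId F (K F)).mapMatrix
  have hφ : ∀ M, φ M = M.map (algebraMap F (K F)) := fun _ => rfl
  have hinj : Function.Injective φ := fun a b h =>
    Matrix.map_injective (algebraMap F (K F)).injective h
  obtain ⟨P, d, hP⟩ := exists_diag (M := φ x) (hp.map (f := algebraMap F (K F))).squarefree (by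
    rw [aeval_map_algebraMap, aeval_algHom_apply, hx, map_zero])
  let ψ : Matrix n n F →ₐ[F] Matrix n n (K F) :=
    { toFun := fun M => ((P⁻¹ : GL n (K F)) : Matrix n n (K F)) * φ M * P
      map_one' := by simp
      map_mul' := fun a b => by simp [mul_assoc]
      map_zero' := by simp
      map_add' := fun a b => by simp [mul_add, add_mul]
      commutes' := fun c => by simp [Algebra.algebraMap_eq_smul_one] }
  have hψ : ∀ M, ψ M = ((P⁻¹ : GL n (K F)) : Matrix n n (K F)) * φ M * P := fun _ => rfl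
  have hψx : ψ x = diagonal d := hP
  have hinj' : Function.Injective ψ := fun a b h => hinj (by
    rw [hψ, hψ] at h
    exact (Units.mul_right_inj _).mp ((Units.mul_left_inj _).mp h))
  have hk : ∀ k : ℕ, ψ (x ^ k) = diagonal fun i => d i ^ k := fun k => by
    rw [map_pow, hψx, diagonal_pow]; rfl
  let e := (Fintype.equivFinOfCardEq hn).symm
  refine ⟨d ∘ e, fun k => ?_, fun k => ?_, ?_, fun q => ?_, fun hd a b ha hb => ?_⟩
  · rw [← Matrix.charpoly_map, ← hφ, ← Matrix.charpoly_units_conj' P, ← Matrix.coe_units_inv,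
      ← hψ, hk, charpoly_diagonal,
      ← e.prod_comp]
    rfl
  · have := congrArg Matrix.trace (hk k)
    rw [hψ, trace_mul_cycle, Units.mul_inv, one_mul, trace_diagonal, ← e.sum_comp, hφ] at this
    rw [AddMonoidHom.map_trace (algebraMap F (K F))]
    exact this
  · have := congrArg Matrix.det hψx
    rw [hψ, det_units_conj', det_diagonal, ← e.prod_comp, hφ] at this
    rw [RingHom.map_det]
    exact this
  · rw [← hinj'.eq_iff, ← aeval_algHom_apply, hψx, map_zero, ← aeval_map_algebraMap (K F),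
      aeval_diagonal, ← diagonal_zero, diagonal_eq_diagonal_iff]
    simp only [eval_map_algebraMap]
    exact ⟨fun h i => h _, fun h i => by simpa using h (e.symm i)⟩
  · have hd' : Function.Injective d := (Function.Injective.of_comp_iff' d e.bijective).mp hd
    have key : ∀ a : Matrix n n F, a * x = x * a → ψ a = diagonal (ψ a).diag := by
      intro a ha
      have := congrArg ψ ha
      rw [map_mul, map_mul, hψx] at this
      ext i j
      by_cases h : i = j
      · simp [h]
      · have h1 := congrFun (congrFun this i) j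
        rw [mul_diagonal, diagonal_mul] at h1
        have h2 : ψ a i j * (d j - d i) = 0 := by linear_combination h1
        rw [diagonal_apply_ne _ h]
        exact (mul_eq_zero.mp h2).resolve_right (sub_ne_zero.mpr fun e => h (hd' e).symm)
    apply hinj'
    rw [map_mul, map_mul, key a ha, key b hb, diagonal_mul_diagonal, diagonal_mul_diagonal]
    congr 1; funext i; exact mul_comm _ _

theorem exists_spec_pow {x : Matrix n n F} {r : ℕ} (hr : (r : F) ≠ 0) {z : F} (hz : z ≠ 0)
    (hx : x ^ r = z • 1) {N : ℕ} (hn : Fintype.card n = N) :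
    ∃ d : Fin N → K F, Spec x d ∧ ∀ i, d i ^ r = algebraMap F (K F) z := by
  have h1 := (H8.aeval_X_pow_sub_C_eq_zero_iff x r z).mpr hx
  obtain ⟨d, hd⟩ := exists_spec (separable_X_pow_sub_C z hr hz) h1 hn
  refine ⟨d, hd, fun i => ?_⟩
  have := (hd.zero _).mp h1 i
  simpa [sub_eq_zero] using this

namespace Spec

variable {x : Matrix n n F} {N : ℕ} {d : Fin N → K F} (h : Spec x d)
include h

theorem chi1 : x.charpoly.map (algebraMap F (K F)) = ∏ i, (X - C (d i)) := by
  simpa using h.chi 1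

theorem tr1 : algebraMap F (K F) x.trace = ∑ i, d i := by simpa using h.tr 1

theorem scalar {c : F} (hc : ∀ i, d i = algebraMap F (K F) c) : x = c • 1 := by
  have := (h.zero (X - C c)).mpr fun i => by simp [hc i]
  simpa [sub_eq_zero, Algebra.algebraMap_eq_smul_one] using this

theorem trace_pow (p : ℕ) [Fact p.Prime] [CharP F p] : x.trace ^ p = (x ^ p).trace := by
  apply (algebraMap F (K F)).injective
  rw [map_pow, h.tr1, h.tr, sum_pow_char]

theorem root_frob (p : ℕ) [Fact p.Prime] [CharP F p] {k : ℕ}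
    (hk : x.charpoly.map (frobenius F p) = (x ^ k).charpoly) (i : Fin N) :
    ∃ j, d i ^ p = d j ^ k := by
  have h1 : x.charpoly.eval₂ (algebraMap F (K F)) (d i) = 0 := by
    rw [← eval_map, h.chi1, eval_prod]
    exact Finset.prod_eq_zero (Finset.mem_univ i) (by simp)
  have h2 := congrArg (frobenius (K F) p) h1
  rw [hom_eval₂, map_zero, show (frobenius (K F) p).comp (algebraMap F (K F)) =
    (algebraMap F (K F)).comp (frobenius F p) from by ext a; simp [frobenius_def],
    ← eval₂_map, hk, ← eval_map, h.chi, eval_prod, Finset.prod_eq_zero_iff] at h2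
  obtain ⟨j, -, hj⟩ := h2
  exact ⟨j, by simpa [sub_eq_zero, frobenius_def] using hj⟩

end Spec

theorem class_two (h2 : (2 : F) ≠ 0) (hn : Fintype.card n = 4) {x : Matrix n n F} {z : F}
    (hz : z ≠ 0) (hx : x ^ 2 = z • 1) (hns : ∀ c : F, x ≠ c • 1) :
    (x.trace = 0 ∧ x.det = z ^ 2 ∧ x.charpoly = (X ^ 2 - C z) ^ 2) ∨
      (x.trace ≠ 0 ∧ (x.trace / 2) ^ 2 = z ∧
        x.charpoly = (X - C (x.trace / 2)) ^ 3 * (X + C (x.trace / 2))) := by
  obtain ⟨d, hd, h1⟩ := exists_spec_pow (r := 2) (by exact_mod_cast h2) hz hx hn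
  set φ := algebraMap F (K F) with hφ
  have h2' : (2 : K F) ≠ 0 := by
    rw [← map_ofNat φ]; exact (map_ne_zero φ).mpr h2
  have h3 : ∀ i, d i = d 0 ∨ d i = -d 0 := fun i => sq_eq_sq_iff_eq_or_eq_neg.mp (by rw [h1, h1])
  have h4 := hd.tr1
  have h5 := hd.det
  have h6 := hd.chi1
  have h7 : d 0 ≠ 0 := fun e => by
    have := h1 0
    rw [e] at this
    exact (map_ne_zero φ).mpr hz (by rw [← this]; simp)
  rw [Fin.sum_univ_four] at h4
  rw [Fin.prod_univ_four] at h5 h6
  have hi := φ.injective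
  have hp := Polynomial.map_injective φ hi
  have k0 : φ x.trace = 0 → d 0 * d 1 * d 2 * d 3 = d 0 ^ 4 →
      (X - C (d 0)) * (X - C (d 1)) * (X - C (d 2)) * (X - C (d 3)) = (X ^ 2 - C (d 0) ^ 2) ^ 2 →
      x.trace = 0 ∧ x.det = z ^ 2 ∧ x.charpoly = (X ^ 2 - C z) ^ 2 := fun a b c =>
    ⟨hi (by rw [a, map_zero]), hi (by rw [h5, b, map_pow, ← h1 0]; ring), hp (by
      rw [h6, c]; simp [← h1 0])⟩
  have k1 : ∀ s : K F, s ^ 2 = d 0 ^ 2 → φ x.trace = 2 * s →
      (X - C (d 0)) * (X - C (d 1)) * (X - C (d 2)) * (X - C (d 3)) = (X - C s) ^ 3 * (X + C s) →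
      x.trace ≠ 0 ∧ (x.trace / 2) ^ 2 = z ∧
        x.charpoly = (X - C (x.trace / 2)) ^ 3 * (X + C (x.trace / 2)) := fun s a b c => by
    have e : φ (x.trace / 2) = s := by rw [map_div₀, b, map_ofNat]; field_simp
    refine ⟨fun e0 => ?_, hi (by rw [map_pow, e, a, h1]), hp (by rw [h6, c, ← e]; simp)⟩
    rw [e0, zero_div, map_zero] at e
    rw [← e] at a
    exact h7 (pow_eq_zero_iff two_ne_zero |>.mp (by rw [← a]; simp))
  rcases h3 1 with e1 | e1 <;> rcases h3 2 with e2 | e2 <;> rcases h3 3 with e3 | e3 <;>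
    rw [e1, e2, e3] at h4 k0 k1
  · exfalso
    have e : φ (x.trace / 4) = d 0 := by
      have : (4 : K F) ≠ 0 := by rw [show (4 : K F) = 2 * 2 by norm_num]; exact mul_ne_zero h2' h2'
      rw [map_div₀, h4, map_ofNat]; field_simp; ring
    refine hns _ (hd.scalar (c := x.trace / 4) fun i => ?_)
    rw [e]
    fin_cases i
    exacts [rfl, e1, e2, e3]
  all_goals first
    | exact Or.inl (k0 (by rw [h4]; ring1) (by ring1) (by simp only [C_neg]; ring1))
    | exact Or.inr (k1 (d 0) rfl (by rw [h4]; ring1) (by simp only [C_neg]; ring1))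
    | exact Or.inr (k1 (-d 0) (by ring1) (by rw [h4]; ring1) (by simp only [C_neg]; ring1))

theorem class_three (h2 : (2 : F) ≠ 0) (h3 : (3 : F) ≠ 0) (hn : Fintype.card n = 4)
    {x : Matrix n n F} (hx : x ^ 3 = 1) (hns : x ≠ 1) (ht : x.trace = (x ^ 2).trace) :
    (x.trace = 1 ∧ x.charpoly = (X - 1) ^ 2 * (X ^ 2 + X + 1)) ∨
      (x.trace = -2 ∧ x.charpoly = (X ^ 2 + X + 1) ^ 2) := by
  obtain ⟨d, hd, h1⟩ := exists_spec_pow (x := x) (r := 3) (z := (1 : F)) (by exact_mod_cast h3) one_ne_zero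
    (by rw [hx, one_smul]) hn
  set φ := algebraMap F (K F) with hφ
  have h2' : (2 : K F) ≠ 0 := by
    rw [← map_ofNat φ]; exact (map_ne_zero φ).mpr h2
  have h3' : (3 : K F) ≠ 0 := by
    rw [← map_ofNat φ]; exact (map_ne_zero φ).mpr h3
  obtain ⟨w, hw⟩ := IsAlgClosed.exists_root (X ^ 2 + X + 1 : (K F)[X]) (by
    rw [show (X ^ 2 + X + 1 : (K F)[X]).degree = 2 by compute_degree!]; norm_num)
  have hw1 : w ^ 2 + w + 1 = 0 := by simpa using hw
  obtain ⟨v, hv⟩ : ∃ v, v = -w - 1 := ⟨_, rfl⟩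
  have h4 : ∀ i, (d i = 1 ∧ d i ^ 2 = 1) ∨ (d i = w ∧ d i ^ 2 = v) ∨ (d i = v ∧ d i ^ 2 = w) := by
    intro i
    have := h1 i
    rw [map_one] at this
    have h5 : (d i - 1) * ((d i - w) * (d i - v)) = 0 := by
      rw [hv]; linear_combination this - (d i - 1) * hw1
    rcases mul_eq_zero.mp h5 with e | e
    · rw [sub_eq_zero.mp e]; simp
    · rcases mul_eq_zero.mp e with e | e
      · rw [sub_eq_zero.mp e]; exact Or.inr (Or.inl ⟨rfl, by rw [hv]; linear_combination hw1⟩)
      · rw [sub_eq_zero.mp e]; exact Or.inr (Or.inr ⟨rfl, by rw [hv]; linear_combination hw1⟩)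
  have hwv : w - v ≠ 0 := fun e => h3' (by rw [hv] at e; linear_combination 4 * hw1 - (2 * w + 1) * e)
  have h5 := hd.tr1
  have h6 := hd.chi1
  have h7 := hd.tr 2
  rw [← ht, h5] at h7
  rw [Fin.sum_univ_four] at h5
  rw [Fin.sum_univ_four, Fin.sum_univ_four] at h7
  rw [Fin.prod_univ_four] at h6
  have hi := φ.injective
  have hp := Polynomial.map_injective φ hi
  have hq : (X - C w) * (X - C v) = X ^ 2 + X + 1 := by
    have a : C w + C v = -1 := by rw [← C_add, hv]; simp; ring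
    have b : C w * C v = 1 := by rw [← C_mul, ← C_1]; congr 1; rw [hv]; linear_combination -hw1
    linear_combination -X * a + b
  have k0 : d 0 = 1 → d 1 = 1 → d 2 = 1 → d 3 = 1 → False := fun a b c e =>
    hns ((hd.scalar (c := 1) fun i => by
      rw [map_one]; fin_cases i; exacts [a, b, c, e]).trans (one_smul _ _))
  have k1 : d 0 + d 1 + d 2 + d 3 = 2 + w + v →
      (X - C (d 0)) * (X - C (d 1)) * (X - C (d 2)) * (X - C (d 3)) =
        (X - C 1) ^ 2 * ((X - C w) * (X - C v)) →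
      x.trace = 1 ∧ x.charpoly = (X - 1) ^ 2 * (X ^ 2 + X + 1) := fun a b =>
    ⟨hi (by rw [h5, a, hv, map_one]; ring), hp (by rw [h6, b, hq]; simp)⟩
  have k2 : d 0 + d 1 + d 2 + d 3 = 2 * w + 2 * v →
      (X - C (d 0)) * (X - C (d 1)) * (X - C (d 2)) * (X - C (d 3)) =
        ((X - C w) * (X - C v)) ^ 2 →
      x.trace = -2 ∧ x.charpoly = (X ^ 2 + X + 1) ^ 2 := fun a b =>
    ⟨hi (by rw [h5, a, hv, map_neg, map_ofNat]; ring), hp (by rw [h6, b, hq]; simp)⟩
  have k3 : ∀ c : K F, c ≠ 0 →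
      d 0 + d 1 + d 2 + d 3 - (d 0 ^ 2 + d 1 ^ 2 + d 2 ^ 2 + d 3 ^ 2) = c * (w - v) → False :=
    fun c hc e => mul_ne_zero hc hwv (by rw [← e, h7, sub_self])
  have h4' : (2 * 2 : K F) ≠ 0 := mul_ne_zero h2' h2'
  rcases h4 0 with ⟨a0, b0⟩ | ⟨a0, b0⟩ | ⟨a0, b0⟩ <;>
    rcases h4 1 with ⟨a1, b1⟩ | ⟨a1, b1⟩ | ⟨a1, b1⟩ <;>
    rcases h4 2 with ⟨a2, b2⟩ | ⟨a2, b2⟩ | ⟨a2, b2⟩ <;>
    rcases h4 3 with ⟨a3, b3⟩ | ⟨a3, b3⟩ | ⟨a3, b3⟩ <;>
    rw [b0, b1, b2, b3] at k3 <;> rw [a0, a1, a2, a3] at k0 k1 k2 k3 <;>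
    first
    | exact (k0 rfl rfl rfl rfl).elim
    | exact Or.inl (k1 (by ring1) (by ring1))
    | exact Or.inr (k2 (by ring1) (by ring1))
    | exact (k3 _ one_ne_zero (by ring1)).elim
    | exact (k3 _ h2' (by ring1)).elim
    | exact (k3 _ h3' (by ring1)).elim
    | exact (k3 _ h4' (by ring1)).elim
    | exact (k3 _ (neg_ne_zero.mpr one_ne_zero) (by ring1)).elim
    | exact (k3 _ (neg_ne_zero.mpr h2') (by ring1)).elim
    | exact (k3 _ (neg_ne_zero.mpr h3') (by ring1)).elim
    | exact (k3 _ (neg_ne_zero.mpr h4') (by ring1)).elim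

theorem class_five (p : ℕ) [Fact p.Prime] [CharP F p] (hp : p % 5 = 2 ∨ p % 5 = 3)
    (hn : Fintype.card n = 4) {x : Matrix n n F} (hx : x ^ 5 = 1) (hns : x ≠ 1) {k : ℕ}
    (hk : k = 1 ∨ k = 4) (hc : x.charpoly.map (frobenius F p) = (x ^ k).charpoly) :
    x.charpoly = X ^ 4 + X ^ 3 + X ^ 2 + X + 1 ∧
      ∀ a b : Matrix n n F, a * x = x * a → b * x = x * b → a * b = b * a := by
  have h5 : ((5 : ℕ) : F) ≠ 0 := by
    rw [Ne, CharP.cast_eq_zero_iff F p, Nat.prime_dvd_prime_iff_eq Fact.out (by norm_num)]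
    omega
  obtain ⟨d, hd, h1⟩ := exists_spec_pow (x := x) (r := 5) (z := (1 : F)) h5 one_ne_zero
    (by rw [hx, one_smul]) hn
  simp only [map_one] at h1
  have h2 : ∀ i, ∃ j, d j = d i ^ 2 := by
    have h3 : ∀ i, ∃ j, d j = d i ^ (p * k % 5) := fun i => by
      obtain ⟨j, hj⟩ := hd.root_frob p hc i
      refine ⟨j, ?_⟩
      rw [← pow_eq_pow_mod _ (h1 i), pow_mul, hj, ← pow_mul, pow_eq_pow_mod _ (h1 j)]
      rcases hk with rfl | rfl <;> simp
    have h4 : p * k % 5 = 2 ∨ p * k % 5 = 3 := by rcases hk with rfl | rfl <;> omega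
    rcases h4 with e | e <;> rw [e] at h3
    · exact h3
    · intro i
      obtain ⟨j, hj⟩ := h3 i
      obtain ⟨l, hl⟩ := h3 j
      obtain ⟨m, hm⟩ := h3 l
      exact ⟨m, by rw [hm, hl, hj, ← pow_mul, ← pow_mul, pow_eq_pow_mod _ (h1 i)]⟩
  obtain ⟨i, hi⟩ : ∃ i, d i ≠ 1 := by
    by_contra hn
    push Not at hn
    exact hns ((hd.scalar (c := 1) fun i => by rw [hn, map_one]).trans (one_smul _ _))
  haveI : Fact (Nat.Prime 5) := ⟨by norm_num⟩
  have hη := H8.isPrimitiveRoot_of_pow_eq_one (h1 i) hi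
  have h3 : ∀ t : Fin 4, ∃ j, d j = d i ^ (t.1 + 1) := by
    obtain ⟨j, hj⟩ := h2 i
    obtain ⟨l, hl⟩ := h2 j
    obtain ⟨m, hm⟩ := h2 l
    intro t
    fin_cases t
    · exact ⟨i, by simp⟩
    · exact ⟨j, hj⟩
    · exact ⟨m, by rw [hm, hl, hj, ← pow_mul, ← pow_mul, pow_eq_pow_mod _ (h1 i)]⟩
    · exact ⟨l, by rw [hl, hj, ← pow_mul]⟩
  choose f hf using h3
  have h4 : Function.Injective (d ∘ f) := fun s t e => by
    simp only [Function.comp, hf] at e
    have := hη.pow_inj (by omega) (by omega) e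
    exact Fin.ext (by omega)
  have h6 : Function.Bijective f := Finite.injective_iff_bijective.mp h4.of_comp
  refine ⟨Polynomial.map_injective _ (algebraMap F (K F)).injective ?_,
    hd.comm ((Function.Injective.of_comp_iff' d h6).mp h4)⟩
  rw [hd.chi1, ← (Equiv.ofBijective f h6).prod_comp]
  simp only [Equiv.ofBijective_apply, hf, Fin.prod_univ_four]
  have h7 : C (d i) ^ 4 + C (d i) ^ 3 + C (d i) ^ 2 + C (d i) + 1 = 0 := by
    have := hη.geom_sum_eq_zero (by norm_num)
    simp only [Finset.sum_range_succ, Finset.range_zero, Finset.sum_empty] at this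
    have e := congrArg C this
    simp only [C_add, C_pow, C_0] at e
    linear_combination e
  simp only [Polynomial.map_add, Polynomial.map_pow, map_X, Polynomial.map_one, C_pow]
  norm_num
  grind

end Cfsg.Agent.H2.Cls
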