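import Mathlib
import Cfsg.Prelude.Def_GeometricClasses
import Cfsg.Agent.H2.PGroup

/-!
Absolutely irreducible `2`-groups of symplectic type and exponent four: squares and commutators
are `±1`; elements of odd order in the normaliser.
-/

set_option autoImplicit false

namespace Cfsg.Agent.H2.SympType

open Matrix

theorem sq_mem_center {R : Type*} [Group R] [Finite R] (hP : IsPGroup 2 R)
    (hc : ∀ A : Subgroup R, A.Characteristic → IsMulCommutative A → IsCyclic A)
    (h4 : ∀ g : R, g ^ 4 = 1) (g : R) : g ^ 2 ∈ Subgroup.center R := by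
  let S : Subgroup R := Subgroup.closure (Set.range fun g : R => g ^ 2)
  haveI hS : S.Characteristic := by
    rw [Subgroup.characteristic_iff_map_le]
    intro φ
    rw [MonoidHom.map_closure, Subgroup.closure_le]
    rintro _ ⟨_, ⟨g, rfl⟩, rfl⟩
    exact Subgroup.subset_closure ⟨φ g, by simp⟩
  let D : Subgroup R := S ⊓ Subgroup.centralizer (S : Set R)
  haveI hD : D.Characteristic := by
    rw [Subgroup.characteristic_iff_comap_eq]
    intro φ
    rw [Subgroup.comap_inf, hS.fixed,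
      (inferInstance : (Subgroup.centralizer (S : Set R)).Characteristic).fixed]
  have hDc : ∀ a ∈ D, ∀ b ∈ S, b * a = a * b := fun a ha b hb => ha.2 b hb
  obtain ⟨c, hc⟩ := (hc D hD ⟨⟨fun a b => Subtype.ext (hDc b.1 b.2 a.1 a.2.1)⟩⟩).exists_generator
  have hgen : ∀ d ∈ D, ∃ k : ℕ, k < 4 ∧ d = c.1 ^ k := fun d hd => by
    obtain ⟨k, hk⟩ := (mem_powers_iff_mem_zpowers.mpr (hc ⟨d, hd⟩))
    refine ⟨k % 4, Nat.mod_lt _ (by norm_num), ?_⟩
    rw [← pow_eq_pow_mod k (h4 c.1)]
    exact (congrArg Subtype.val hk).symm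
  have hSD : S ≤ D := by
    by_contra hn
    have hne : S.map (QuotientGroup.mk' D) ≠ ⊥ := by
      rw [Ne, Subgroup.map_eq_bot_iff, QuotientGroup.ker_mk']
      exact hn
    haveI : (S.map (QuotientGroup.mk' D)).Normal :=
      Subgroup.Normal.map inferInstance _ (QuotientGroup.mk'_surjective D)
    obtain ⟨_, ⟨m, hm, rfl⟩, h1, h2⟩ :=
      PGroup.exists_center_mem_normal (hP.to_quotient D) _ hne
    have h3 : m ∉ D := fun e => by
      rw [QuotientGroup.mk'_apply, (QuotientGroup.eq_one_iff m).mpr e, orderOf_one] at h2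
      norm_num at h2
    have h5 : m ^ 2 ∈ D := by
      rw [← QuotientGroup.eq_one_iff, QuotientGroup.mk_pow, ← QuotientGroup.mk'_apply, ← h2,
        pow_orderOf_eq_one]
    refine h3 ⟨hm, ?_⟩
    have key : ∀ g : R, g ^ 2 * m = m * g ^ 2 := by
      intro g
      have h6 : m⁻¹ * (g * m * g⁻¹) ∈ D := by
        rw [← QuotientGroup.eq, QuotientGroup.mk_mul, QuotientGroup.mk_mul]
        have := Subgroup.mem_center_iff.mp h1 (g : R ⧸ D)
        rw [QuotientGroup.mk'_apply] at this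
        rw [this]; simp
      set d := m⁻¹ * (g * m * g⁻¹) with hd
      have h7 : g * m * g⁻¹ = m * d := by rw [hd]; group
      have h8 : d * (g * d * g⁻¹) = 1 := by
        obtain ⟨k, hk, hk'⟩ := hgen _ ((inferInstance : D.Normal).conj_mem _ c.2 g)
        obtain ⟨j, -, hj⟩ := hgen _ h6
        have hcg : ∀ i : ℕ, g * c.1 ^ i * g⁻¹ = (c.1 ^ k) ^ i := fun i => by
          rw [← hk', conj_pow]
        by_cases h9 : g * c.1 * g⁻¹ = c.1
        · obtain ⟨i, -, hi⟩ := hgen _ h5
          have e1 : g * m ^ 2 * g⁻¹ = m ^ 2 := by rw [hi, ← conj_pow, h9]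
          have e2 : g * d * g⁻¹ = d := by rw [hj, ← conj_pow, h9]
          rw [← conj_pow, h7, pow_two, pow_two, mul_assoc, ← mul_assoc d, ← hDc d h6 m hm] at e1
          rw [e2]
          have e3 : m * m * (d * d) = m * m * 1 := by
            rw [mul_one]; conv_rhs => rw [← e1]
            group
          exact mul_left_cancel e3
        · have h10 : c.1 * c.1 ^ k = 1 := by
            interval_cases k
            · exfalso
              rw [pow_zero, conj_eq_one_iff] at hk'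
              apply h9; rw [hk']; simp
            · exact absurd (by simpa using hk') h9
            · exfalso
              have e := hcg 2
              rw [← pow_mul, h4, conj_eq_one_iff] at e
              rw [e, conj_eq_one_iff] at hk'
              apply h9; rw [hk']; simp
            · rw [← pow_succ', h4]
          rw [hj, hcg, ← Commute.mul_pow (Commute.self_pow _ _), h10, one_pow]
      calc g ^ 2 * m = g * (g * m * g⁻¹) * g⁻¹ * g ^ 2 := by rw [pow_two]; group
        _ = (g * m * g⁻¹) * (g * d * g⁻¹) * g ^ 2 := by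
          conv_lhs => rw [h7]
          group
        _ = m * g ^ 2 := by rw [h7, mul_assoc m d, h8, mul_one]
    intro s hs
    induction hs using Subgroup.closure_induction with
    | mem s hs => obtain ⟨g, rfl⟩ := hs; exact key g
    | one => simp
    | mul a b _ _ ha hb => rw [mul_assoc, hb, ← mul_assoc, ha, mul_assoc]
    | inv a _ ha => exact (Commute.inv_left ha : _)
  have hS2 : ∀ s ∈ S, s * s = 1 := by
    intro s hs
    induction hs using Subgroup.closure_induction with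
    | mem s hs => obtain ⟨g, rfl⟩ := hs; rw [← pow_add]; exact h4 g
    | one => simp
    | mul a b ha' hb' ha hb =>
      rw [mul_assoc, ← mul_assoc b, hDc a (hSD ha') b hb', mul_assoc, hb, mul_one, ha]
    | inv a _ ha => rw [← _root_.mul_inv_rev, ha, inv_one]
  have hc2 := hS2 c.1 c.2.1
  have hgen2 : ∀ d ∈ D, d = 1 ∨ d = c.1 := fun d hd => by
    obtain ⟨k, hk, rfl⟩ := hgen d hd
    interval_cases k
    · simp
    · simp
    · left; rw [pow_two, hc2]
    · right; rw [pow_succ, pow_two, hc2, one_mul]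
  have hg : g ^ 2 ∈ D := hSD (Subgroup.subset_closure ⟨g, rfl⟩)
  rw [Subgroup.mem_center_iff]
  intro h
  rcases hgen2 _ hg with e | e
  · rw [e]; simp
  · rcases hgen2 _ ((inferInstance : D.Normal).conj_mem _ hg h) with e' | e'
    · rw [conj_eq_one_iff] at e'
      rw [e']; simp
    · rw [← mul_inv_eq_iff_eq_mul, e', e]

variable {F : Type*} [Field F] {n : Type} [Fintype n] [DecidableEq n]

/-- Scalar matrices. -/
def Sc (a : GL n F) : Prop := ∃ c : F, (a : Matrix n n F) = c • 1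

theorem Sc.comm {a : GL n F} (h : Sc a) (b : GL n F) : a * b = b * a := by
  obtain ⟨c, hc⟩ := h
  exact Units.ext (by simp [hc])

theorem Sc.mul {a b : GL n F} (h : Sc a) (h' : Sc b) : Sc (a * b) := by
  obtain ⟨c, hc⟩ := h
  obtain ⟨d, hd⟩ := h'
  exact ⟨c * d, by simp [hc, hd, smul_smul, mul_comm]⟩

theorem Sc.neg {a : GL n F} (h : Sc a) : Sc (-a) := by
  obtain ⟨c, hc⟩ := h
  exact ⟨-c, by simp [hc]⟩

theorem sc_one : Sc (1 : GL n F) := ⟨1, by simp⟩

theorem Sc.conj {a : GL n F} (h : Sc a) (g : GL n F) : Sc (g⁻¹ * a * g) := by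
  rwa [← h.comm, inv_mul_cancel_right]

theorem Sc.inv {a : GL n F} (h : Sc a) : Sc a⁻¹ := by
  obtain ⟨c, hc⟩ := h
  by_cases h0 : c = 0
  · refine ⟨0, ?_⟩
    have := a.inv_mul
    rw [hc, h0, zero_smul, mul_zero] at this
    rw [← mul_one (a⁻¹).val, ← this, mul_zero, smul_zero]
  · refine ⟨c⁻¹, Units.inv_eq_of_mul_eq_one_right ?_⟩
    simp [hc, smul_smul, h0]

theorem ne_neg [Nonempty n] (h2 : (2 : F) ≠ 0) (a : GL n F) : a ≠ -a := fun e => by
  have h1 : (2 : F) • (a : Matrix n n F) = 0 := by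
    rw [two_smul]
    nth_rewrite 1 [e]
    simp
  rw [smul_eq_zero] at h1
  exact a.ne_zero (h1.resolve_left h2)

theorem sc_sq [Nonempty n] {a : GL n F} (h : Sc a) (h1 : a * a = 1) : a = 1 ∨ a = -1 := by
  obtain ⟨c, hc⟩ := h
  have h2 := congrArg Units.val h1
  rw [Units.val_mul, hc, smul_mul_smul_comm, one_mul, Units.val_one] at h2
  have h3 : c * c = 1 := by
    obtain ⟨i⟩ := ‹Nonempty n›
    simpa using congrFun (congrFun h2 i) i
  rcases mul_self_eq_one_iff.mp h3 with e | e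
  · left; exact Units.ext (by simp [hc, e])
  · right; exact Units.ext (by simp [hc, e])

theorem trace_eq_zero (h2 : (2 : F) ≠ 0) {M : Matrix n n F} {b : GL n F}
    (h : b * M = -(M * b)) : M.trace = 0 := by
  have h1 : M = -((b⁻¹ : GL n F) * M * b) := by
    rw [mul_assoc, ← mul_neg, ← h, ← mul_assoc, Units.inv_mul, one_mul]
  have h3 := congrArg Matrix.trace h1
  rw [trace_neg, trace_mul_cycle, Units.mul_inv, one_mul] at h3
  have : (2 : F) * M.trace = 0 := by linear_combination h3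
  exact (mul_eq_zero.mp this).resolve_left h2

theorem ncard_modEq {G : Type*} [Group G] {T : Set G} (hT : T.Finite) {y : G} {r : ℕ}
    [Fact r.Prime] (hy : ∀ a ∈ T, y * a * y⁻¹ ∈ T) (hr : ∀ a ∈ T, y ^ r * a = a * y ^ r) :
    T.ncard ≡ {a ∈ T | y * a = a * y}.ncard [MOD r] := by
  classical
  haveI := hT.fintype
  let f : Function.End T := fun a => ⟨y * a * y⁻¹, hy a a.2⟩
  have hf : ∀ (k : ℕ) (a : T), ((f ^ k) a).1 = y ^ k * a * (y ^ k)⁻¹ := by
    intro k
    induction k with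
    | zero => intro a; simp [Function.End.one_def]
    | succ k ih =>
      intro a
      rw [pow_succ']
      change y * ((f ^ k) a).1 * y⁻¹ = _
      rw [ih]
      group
  have h1 := Equiv.Perm.card_fixedPoints_modEq (f := f) (p := r) (n := 1) (by
    funext a
    apply Subtype.ext
    rw [pow_one, hf, hr a a.2, mul_inv_cancel_right]
    rfl)
  rw [← Nat.card_eq_fintype_card, ← Nat.card_eq_fintype_card, Nat.card_coe_set_eq,
    Nat.card_coe_set_eq] at h1
  rwa [← Set.ncard_image_of_injective (Function.fixedPoints f) Subtype.val_injective,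
    show Subtype.val '' Function.fixedPoints f = {a ∈ T | y * a = a * y} from ?_] at h1
  ext a
  simp only [Set.mem_image, Function.mem_fixedPoints_iff, Subtype.ext_iff, f,
    mul_inv_eq_iff_eq_mul, Set.mem_sep_iff]
  exact ⟨fun ⟨b, hb, e⟩ => e ▸ ⟨b.2, hb⟩, fun h => ⟨⟨a, h.1⟩, h.2, rfl⟩⟩

/-- Absolutely irreducible groups whose squares and commutators are `±1`. -/
structure Pauli (R : Subgroup (GL n F)) : Prop where
  irr : ∀ M : Matrix n n F, (∀ a ∈ R, M * (a : Matrix n n F) = a * M) → ∃ c : F, M = c • 1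
  sq : ∀ a ∈ R, a * a = 1 ∨ a * a = -1
  comm : ∀ a ∈ R, ∀ b ∈ R, a * b = b * a ∨ a * b = -(b * a)

theorem irr_of_abs {R : Subgroup (GL n F)} (h : Geo.ActsAbsolutelyIrreducibly (Geo.matrixSet R))
    (M : Matrix n n F) (hM : ∀ a ∈ R, M * (a : Matrix n n F) = a * M) : ∃ c : F, M = c • 1 :=
  h.2 M (by rintro _ ⟨a, ha, rfl⟩; exact hM a ha)

theorem pauli_of [Finite F] [Nonempty n] {R : Subgroup (GL n F)}
    (hs : Geo.IsSymplecticTypeGroup 2 R) (h : Geo.ActsAbsolutelyIrreducibly (Geo.matrixSet R)) :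
    Pauli R := by
  have h4 : ∀ g : R, g ^ 4 = 1 := fun g => by
    have := Monoid.pow_exponent_eq_one g
    rwa [hs.exponent_eq] at this
  have hsq : ∀ a ∈ R, a * a = 1 ∨ a * a = -1 := fun a ha => by
    have h1 := sq_mem_center hs.pGroup hs.cyclic_of_characteristic h4 ⟨a, ha⟩
    rw [Subgroup.mem_center_iff] at h1
    refine sc_sq (irr_of_abs h _ fun b hb => ?_) ?_
    · have := congrArg (fun g : R => (g.1 : Matrix n n F)) (h1 ⟨b, hb⟩)
      simpa [pow_two] using this.symm
    · have := congrArg Subtype.val (h4 ⟨a, ha⟩)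
      simpa [pow_succ, mul_assoc] using this
  refine ⟨irr_of_abs h, hsq, fun a ha b hb => ?_⟩
  have key : ∀ s t u : GL n F, a * a = s → b * b = t → a * b * (a * b) = u →
      b * a = a⁻¹ * u * b⁻¹ ∧ a * b = a⁻¹ * (s * t) * b⁻¹ := by
    intro s t u hs ht hu
    rw [← hu, ← ht, ← hs]
    constructor <;> group
  rcases hsq a ha with h1 | h1 <;> rcases hsq b hb with h2 | h2 <;>
    rcases hsq _ (R.mul_mem ha hb) with h3 | h3 <;> obtain ⟨e1, e2⟩ := key _ _ _ h1 h2 h3 <;>
    rw [e1, e2] <;> simp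

namespace Pauli

variable {R : Subgroup (GL n F)} (hR : Pauli R)
include hR

theorem sc_of_comm {a : GL n F} (h : ∀ b ∈ R, a * b = b * a) : Sc a :=
  hR.irr _ fun b hb => congrArg Units.val (h b hb)

theorem exists_anti {a : GL n F} (ha : a ∈ R) (h : ¬ Sc a) : ∃ b ∈ R, a * b = -(b * a) := by
  by_contra hn
  push Not at hn
  exact h (hR.sc_of_comm fun b hb => (hR.comm a ha b hb).resolve_right (hn b hb))

theorem trace_zero (h2 : (2 : F) ≠ 0) {a : GL n F} (ha : a ∈ R) (h : ¬ Sc a) :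
    (a : Matrix n n F).trace = 0 := by
  obtain ⟨b, -, hb⟩ := hR.exists_anti ha h
  refine trace_eq_zero h2 (b := b) ?_
  have := congrArg Units.val hb
  simp only [Units.val_mul, Units.val_neg] at this
  rw [this, neg_neg]

theorem mem_center_iff (a : R) : a ∈ Subgroup.center R ↔ Sc a.1 := by
  rw [Subgroup.mem_center_iff]
  exact ⟨fun h => hR.sc_of_comm fun b hb => (congrArg Subtype.val (h ⟨b, hb⟩)).symm,
    fun h b => Subtype.ext (h.comm b.1).symm⟩

theorem comm_of_sc {y : GL n F} (hy : y ∈ Subgroup.normalizer (R : Set (GL n F))) {r : ℕ}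
    (hr : Odd r) (hyr : Sc (y ^ r)) {a : GL n F} (ha : a ∈ R) (h : Sc (y * a * y⁻¹ * a⁻¹)) :
    y * a = a * y := by
  set c := y * a * y⁻¹ * a⁻¹ with hc
  have h1 : ∀ k : ℕ, y ^ k * a * (y ^ k)⁻¹ = c ^ k * a := by
    intro k
    induction k with
    | zero => simp
    | succ k ih =>
      have h2 : Commute y c := (h.comm y).symm
      calc y ^ (k + 1) * a * (y ^ (k + 1))⁻¹ = y * (y ^ k * a * (y ^ k)⁻¹) * y⁻¹ := by group
        _ = (y * c ^ k) * a * y⁻¹ := by rw [ih]; group
        _ = c ^ k * (c * a) := by rw [(h2.pow_right k).eq, hc]; group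
        _ = _ := by group
  have h2 : c ^ r = 1 := by
    have := h1 r
    rw [hyr.comm, mul_inv_cancel_right] at this
    exact mul_right_cancel (this.symm.trans (one_mul a).symm)
  have h3 : c ^ 4 = 1 := by
    have hm : c ∈ R := R.mul_mem ((Subgroup.mem_normalizer_iff.mp hy a).mp ha) (R.inv_mem ha)
    rw [show c ^ 4 = (c * c) * (c * c) by simp only [pow_succ, pow_zero, one_mul, mul_assoc]]
    rcases hR.sq c hm with e | e <;> rw [e] <;> simp
  have h4 : c = 1 := by
    have := pow_gcd_eq_one.mpr ⟨h2, h3⟩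
    rwa [show r.gcd 4 = 1 from (Nat.coprime_two_right.mpr hr).pow_right 2, pow_one] at this
  rw [hc, mul_inv_eq_one, mul_inv_eq_iff_eq_mul] at h4
  exact h4

theorem exists_anti_conj {y : GL n F} (hy : y ∈ Subgroup.normalizer (R : Set (GL n F))) {r : ℕ}
    (hr : Odd r) (hyr : Sc (y ^ r)) (hns : ¬ Sc y) :
    ∃ a ∈ R, a * (y * a * y⁻¹) = -((y * a * y⁻¹) * a) := by
  by_contra hn
  push Not at hn
  have hm : ∀ a ∈ R, y * a * y⁻¹ ∈ R := fun a ha => (Subgroup.mem_normalizer_iff.mp hy a).mp ha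
  have h1 : ∀ a ∈ R, a * (y * a * y⁻¹) = (y * a * y⁻¹) * a := fun a ha =>
    (hR.comm a ha _ (hm a ha)).resolve_right (hn a ha)
  have h2 : ∀ a ∈ R, ∀ b ∈ R, ∀ s : GL n F, (s = 1 ∨ s = -1) →
      a * (y * b * y⁻¹) = s * ((y * b * y⁻¹) * a) → (y * a * y⁻¹) * b = s * (b * (y * a * y⁻¹)) := by
    intro a ha b hb s hs h
    have h3 := h1 _ (R.mul_mem ha hb)
    have e : y * (a * b) * y⁻¹ = (y * a * y⁻¹) * (y * b * y⁻¹) := by group
    rw [e] at h3
    have ha1 := h1 a ha
    have hb1 := h1 b hb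
    generalize y * a * y⁻¹ = a' at *
    generalize y * b * y⁻¹ = b' at *
    have h4 : a * (b * a') * b' = a' * (b' * a) * b := by simpa only [mul_assoc] using h3
    have h5 : b' * a = s * (a * b') := by rcases hs with rfl | rfl <;> simp [h]
    have h6 : a * (b * a') * b' = a * (s * (a' * b)) * b' := by
      rw [h4, h5]
      rcases hs with rfl | rfl
      · simp only [one_mul, ← mul_assoc, ← ha1]; simp only [mul_assoc, hb1]
      · simp only [neg_mul, mul_neg, one_mul, ← mul_assoc, ← ha1]; simp only [mul_assoc, hb1]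
    have h7 := mul_left_cancel (mul_right_cancel h6)
    rcases hs with rfl | rfl <;> simp [h7]
  have h3 : ∀ a ∈ R, Sc (y ^ 2 * a * (y ^ 2)⁻¹ * a⁻¹) := by
    intro a ha
    refine hR.sc_of_comm fun b' hb' => ?_
    obtain ⟨b, hb, rfl⟩ : ∃ b ∈ R, b' = y * b * y⁻¹ :=
      ⟨y⁻¹ * b' * y, (Subgroup.mem_normalizer_iff.mp hy _).mpr (by simpa [mul_assoc] using hb'),
        by group⟩
    obtain ⟨s, hs, h⟩ : ∃ s : GL n F, (s = 1 ∨ s = -1) ∧
        a * (y * b * y⁻¹) = s * ((y * b * y⁻¹) * a) := by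
      rcases hR.comm a ha _ (hm b hb) with e | e
      · exact ⟨1, Or.inl rfl, by simpa using e⟩
      · exact ⟨-1, Or.inr rfl, by simpa using e⟩
    have h4 := h2 a ha b hb s hs h
    have h5 : y ^ 2 * a * (y ^ 2)⁻¹ * (y * b * y⁻¹) =
        s * ((y * b * y⁻¹) * (y ^ 2 * a * (y ^ 2)⁻¹)) := by
      calc y ^ 2 * a * (y ^ 2)⁻¹ * (y * b * y⁻¹) = y * ((y * a * y⁻¹) * b) * y⁻¹ := by
            rw [pow_two]; group
        _ = _ := by
          rw [h4, pow_two]
          rcases hs with rfl | rfl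
          · group
          · simp only [neg_mul, mul_neg, one_mul]; congr 1; group
    generalize y ^ 2 * a * (y ^ 2)⁻¹ = a2 at *
    generalize y * b * y⁻¹ = b' at *
    have h6 : a⁻¹ * b' = s * (b' * a⁻¹) := by
      calc a⁻¹ * b' = a⁻¹ * (b' * a) * a⁻¹ := by group
        _ = a⁻¹ * (s * (a * b')) * a⁻¹ := by rw [h]; rcases hs with rfl | rfl <;> simp
        _ = _ := by rcases hs with rfl | rfl <;> simp [mul_assoc]
    rw [mul_assoc, h6]
    rcases hs with rfl | rfl
    · simp only [one_mul] at h5 ⊢; rw [← mul_assoc, h5, mul_assoc]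
    · simp only [neg_mul, one_mul, mul_neg] at h5 ⊢; rw [← mul_assoc, h5]; simp [mul_assoc]
  have h4 : Sc (y ^ 2) := hR.sc_of_comm fun a ha =>
    hR.comm_of_sc (Subgroup.pow_mem _ hy 2) hr (by
      rw [← pow_mul, mul_comm, pow_mul, pow_two]; exact hyr.mul hyr) ha (h3 a ha)
  obtain ⟨k, rfl⟩ := hr
  have h5 : Sc ((y ^ 2) ^ k) := by
    clear hyr
    induction k with
    | zero => simpa using sc_one
    | succ k ih => rw [pow_succ]; exact ih.mul h4
  apply hns
  have := h5.inv.mul hyr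
  rwa [pow_succ y (2 * k), pow_mul, inv_mul_cancel_left] at this

end Pauli

/-- Scalar on a hyperplane. -/
def Hyp (y : GL n F) : Prop :=
  ∃ (l : F) (w : n → F), ∀ u, w ⬝ᵥ u = 0 → (y : Matrix n n F) *ᵥ u = l • u

theorem Hyp.conj {y : GL n F} (h : Hyp y) (g : GL n F) : Hyp (g⁻¹ * y * g) := by
  obtain ⟨l, w, h⟩ := h
  refine ⟨l, w ᵥ* g, fun u hu => ?_⟩
  rw [← dotProduct_mulVec] at hu
  rw [Units.val_mul, Units.val_mul, ← mulVec_mulVec, ← mulVec_mulVec, h _ hu, mulVec_smul,
    mulVec_mulVec, Units.inv_mul, one_mulVec]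

theorem Pauli.not_hyp {R : Subgroup (GL n F)} (hR : Pauli R) (h2 : (2 : F) ≠ 0)
    (hn : 2 < Fintype.card n) {y : GL n F}
    (hy : y ∈ Subgroup.normalizer (R : Set (GL n F))) {r : ℕ}
    (hr : Odd r) (hyr : Sc (y ^ r)) (hns : ¬ Sc y) : ¬ Hyp y := by
  rintro ⟨l, w, h⟩
  obtain ⟨a, ha, h1⟩ := hR.exists_anti_conj hy hr hyr hns
  let φ : (n → F) →ₗ[F] F × F :=
    LinearMap.prod (dotProductBilin F F w) (dotProductBilin F F (w ᵥ* a))
  have h3 : LinearMap.ker φ ≠ ⊥ := LinearMap.ker_ne_bot_of_finrank_lt (by simpa using hn)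
  obtain ⟨u, hu, hu0⟩ := (Submodule.ne_bot_iff _).mp h3
  have hu1 : w ⬝ᵥ u = 0 := congrArg Prod.fst hu
  have hu2 : w ⬝ᵥ ((a : Matrix n n F) *ᵥ u) = 0 := by
    rw [dotProduct_mulVec]; exact congrArg Prod.snd hu
  set c := a⁻¹ * (y * a * y⁻¹) with hc
  have h4 : c * c = -1 := by
    have e : y * a * y⁻¹ * (y * a * y⁻¹) = a * a := by
      rw [show y * a * y⁻¹ * (y * a * y⁻¹) = y * (a * a) * y⁻¹ by group]
      rcases hR.sq a ha with e | e <;> rw [e] <;> simp
    rw [hc]
    generalize y * a * y⁻¹ = a' at *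
    calc a⁻¹ * a' * (a⁻¹ * a') = a⁻¹ * a⁻¹ * (a * a') * (a⁻¹ * a') := by group
      _ = -(a⁻¹ * a⁻¹ * (a' * a')) := by rw [h1]; simp only [mul_neg, neg_mul]; congr 1; group
      _ = -1 := by rw [e]; congr 1; group
  have h5 : (c : Matrix n n F) *ᵥ ((y : Matrix n n F) *ᵥ u) = (y : Matrix n n F) *ᵥ u := by
    rw [mulVec_mulVec, ← Units.val_mul, show c * y = a⁻¹ * y * a by rw [hc]; group, Units.val_mul,
      Units.val_mul, ← mulVec_mulVec, ← mulVec_mulVec, h _ hu2, mulVec_smul, mulVec_mulVec,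
      Units.inv_mul, one_mulVec, h _ hu1]
  have h6 : ((c * c : GL n F) : Matrix n n F) *ᵥ ((y : Matrix n n F) *ᵥ u) =
      (y : Matrix n n F) *ᵥ u := by rw [Units.val_mul, ← mulVec_mulVec, h5, h5]
  rw [h4, Units.val_neg, Units.val_one, neg_mulVec, one_mulVec, neg_eq_iff_add_eq_zero,
    ← two_smul F, smul_eq_zero] at h6
  apply hu0
  have h7 := congrArg ((y⁻¹ : GL n F).val *ᵥ ·) (h6.resolve_left h2)
  simpa [mulVec_mulVec] using h7

namespace Pauli

variable {R : Subgroup (GL n F)} (hR : Pauli R)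
include hR

theorem neg_one_mem {a b : GL n F} (ha : a ∈ R) (hb : b ∈ R) (h : a * b = -(b * a)) :
    (-1 : GL n F) ∈ R := by
  have := R.mul_mem (R.mul_mem ha hb) (R.inv_mem (R.mul_mem hb ha))
  rwa [h, neg_mul, mul_inv_cancel] at this

theorem card_anti [Finite F] [Nonempty n] (h2 : (2 : F) ≠ 0) {a b : GL n F} (ha : a ∈ R)
    (hb : b ∈ R) (h : a * b = -(b * a)) :
    Nat.card R = 2 * {g ∈ (R : Set (GL n F)) | a * g = -(g * a)}.ncard := by
  have h1 : {g ∈ (R : Set (GL n F)) | a * g = g * a} =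
      (b * ·) '' {g ∈ (R : Set (GL n F)) | a * g = -(g * a)} := by
    ext g
    constructor
    · rintro ⟨hg, e⟩
      refine ⟨b⁻¹ * g, ⟨R.mul_mem (R.inv_mem hb) hg, ?_⟩, by simp⟩
      calc a * (b⁻¹ * g) = b⁻¹ * (b * a) * b⁻¹ * g := by group
        _ = -(b⁻¹ * (a * g)) := by rw [← neg_neg (b * a), ← h]; simp [mul_assoc]
        _ = _ := by rw [e, mul_assoc]
    · rintro ⟨g, ⟨hg, e⟩, rfl⟩
      refine ⟨R.mul_mem hb hg, ?_⟩
      simp only
      rw [← mul_assoc, h, neg_mul, mul_assoc, e]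
      simp [mul_assoc]
  have h3 : (R : Set (GL n F)) = {g ∈ (R : Set (GL n F)) | a * g = g * a} ∪
      {g ∈ (R : Set (GL n F)) | a * g = -(g * a)} := by
    ext g
    exact ⟨fun hg => (hR.comm a ha g hg).imp (fun e => ⟨hg, e⟩) (fun e => ⟨hg, e⟩),
      fun hg => hg.elim (·.1) (·.1)⟩
  have h4 : Nat.card R = (R : Set (GL n F)).ncard := rfl
  rw [h4, h3, Set.ncard_union_eq (by
    rw [Set.disjoint_left]
    rintro g ⟨-, e1⟩ ⟨-, e2⟩
    exact ne_neg h2 _ (e1.symm.trans e2)), ← h3, h1,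
    Set.ncard_image_of_injective _ (mul_right_injective b), two_mul]

theorem trace_formula [Finite F] (h2 : (2 : F) ≠ 0) {y : GL n F}
    (hy : y ∈ Subgroup.normalizer (R : Set (GL n F))) {r : ℕ} (hr : Odd r) (hyr : Sc (y ^ r)) :
    (Nat.card R : F) * ((y : Matrix n n F).trace * ((y⁻¹ : GL n F) : Matrix n n F).trace) =
      (Fintype.card n : F) ^ 2 * {a ∈ (R : Set (GL n F)) | y * a = a * y}.ncard := by
  classical
  haveI := Fintype.ofFinite R
  obtain ⟨c, hc⟩ := hR.irr (∑ a : R, ((a.1 * y⁻¹ * a.1⁻¹ : GL n F) : Matrix n n F)) (by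
    intro b hb
    rw [Finset.sum_mul, Finset.mul_sum]
    refine Fintype.sum_equiv (Equiv.mulLeft (⟨b, hb⟩ : R)⁻¹) _ _ fun a => ?_
    rw [← Units.val_mul, ← Units.val_mul]
    congr 1
    simp [mul_assoc])
  have h1 : (Nat.card R : F) * ((y⁻¹ : GL n F) : Matrix n n F).trace = c * Fintype.card n := by
    have := congrArg Matrix.trace hc
    rw [trace_sum, trace_smul, trace_one, smul_eq_mul] at this
    rw [← this, Nat.card_eq_fintype_card, ← nsmul_eq_mul, ← Finset.card_univ, ← Finset.sum_const]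
    refine Finset.sum_congr rfl fun a _ => ?_
    rw [Units.val_mul, Units.val_mul, trace_mul_cycle, Units.inv_mul, one_mul]
  have h3 : c * (y : Matrix n n F).trace =
      Fintype.card n * {a ∈ (R : Set (GL n F)) | y * a = a * y}.ncard := by
    have := congrArg (fun M => Matrix.trace ((y : Matrix n n F) * M)) hc
    simp only [Finset.mul_sum, trace_sum, mul_smul_comm, mul_one, trace_smul, smul_eq_mul] at this
    rw [← this]
    have e : ∀ a : R, ((y : Matrix n n F) * ((a.1 * y⁻¹ * a.1⁻¹ : GL n F) : Matrix n n F)).trace =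
        if y * a.1 = a.1 * y then (Fintype.card n : F) else 0 := by
      intro a
      rw [← Units.val_mul, show y * (a.1 * y⁻¹ * a.1⁻¹) = y * a.1 * y⁻¹ * a.1⁻¹ by group]
      split_ifs with h
      · rw [h]; simp
      · exact hR.trace_zero h2
          (R.mul_mem ((Subgroup.mem_normalizer_iff.mp hy a).mp a.2) (R.inv_mem a.2))
          fun e => h (hR.comm_of_sc hy hr hyr a.2 e)
    simp only [e, Finset.sum_ite, Finset.sum_const_zero, add_zero, Finset.sum_const, nsmul_eq_mul]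
    rw [mul_comm]
    congr 2
    rw [← Set.ncard_coe_finset, ← Set.ncard_image_of_injective _ Subtype.val_injective]
    congr 1
    ext a
    simp only [Finset.coe_filter, Finset.mem_univ, true_and, Set.mem_image, Set.mem_ofPred_eq,
      SetLike.mem_coe]
    exact ⟨fun ⟨b, hb, e⟩ => e ▸ ⟨b.2, hb⟩, fun h => ⟨⟨a, h.1⟩, h.2, rfl⟩⟩
  linear_combination (y : Matrix n n F).trace * h1 + (Fintype.card n : F) * h3

theorem odd_prime_cases [Finite F] (h2 : (2 : F) ≠ 0) (hn : Fintype.card n = 4) {k : ℕ}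
    (hZ : Nat.card (Subgroup.center R) = 2 ^ k) (hc : Nat.card R = 16 * 2 ^ k) {y : GL n F}
    (hy : y ∈ Subgroup.normalizer (R : Set (GL n F))) {r : ℕ} [hp : Fact r.Prime] (hr : r ≠ 2)
    (hyr : Sc (y ^ r)) (hns : ¬ Sc y) :
    ((r = 3 ∨ r = 5) ∧ (y : Matrix n n F).trace * ((y⁻¹ : GL n F) : Matrix n n F).trace = 1 ∧
      ∀ a ∈ R, y * a = a * y → Sc a) ∨
    (r = 3 ∧ (y : Matrix n n F).trace * ((y⁻¹ : GL n F) : Matrix n n F).trace = 4) := by
  haveI : Nonempty n := Fintype.card_pos_iff.mp (by omega)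
  have hodd := hp.out.odd_of_ne_two hr
  have hm : ∀ a ∈ R, y * a * y⁻¹ ∈ R := fun a ha => (Subgroup.mem_normalizer_iff.mp hy a).mp ha
  let X : Subgroup R := (Subgroup.centralizer {y}).subgroupOf R
  have hX : ∀ a : R, a ∈ X ↔ y * a.1 = a.1 * y := fun a => by
    simp [X, Subgroup.mem_subgroupOf, Subgroup.mem_centralizer_singleton_iff, eq_comm]
  have hZX : Subgroup.center R ≤ X := fun a ha =>
    (hX a).mpr (((hR.mem_center_iff a).mp ha).comm y).symm
  have h1 : {a ∈ (R : Set (GL n F)) | y * a = a * y}.ncard = Nat.card X := by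
    rw [← SetLike.coe_sort_coe, Nat.card_coe_set_eq,
      ← Set.ncard_image_of_injective (X : Set R) Subtype.val_injective]
    congr 1
    ext a
    simp only [Set.mem_image, Set.mem_ofPred_eq, SetLike.mem_coe, hX]
    exact ⟨fun h => ⟨⟨a, h.1⟩, h.2, rfl⟩, fun ⟨b, hb, e⟩ => e ▸ ⟨b.2, hb⟩⟩
  set m := ((Subgroup.center R).subgroupOf X).index with hm'
  have h3 : Nat.card X = 2 ^ k * m := by
    rw [← ((Subgroup.center R).subgroupOf X).card_mul_index,
      Nat.card_congr (Subgroup.subgroupOfEquivOfLe hZX).toEquiv, hZ]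
  have h4 : m ∣ 16 := by
    have := X.card_subgroup_dvd_card
    rw [h3, hc, mul_comm 16] at this
    exact Nat.dvd_of_mul_dvd_mul_left (by positivity) this
  have hco : Nat.Coprime r (2 ^ k) := (Nat.coprime_two_right.mpr hodd).pow_right k
  have h5 : 16 ≡ m [MOD r] := by
    have := ncard_modEq (T := (R : Set (GL n F))) (Set.toFinite _) (r := r) hm
      fun a _ => hyr.comm a
    rw [h1, h3, show (R : Set (GL n F)).ncard = Nat.card R from rfl, hc, mul_comm 16] at this
    exact Nat.ModEq.cancel_left_of_coprime hco this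
  have h6 : (y : Matrix n n F).trace * ((y⁻¹ : GL n F) : Matrix n n F).trace = m := by
    have := hR.trace_formula h2 hy hodd hyr
    rw [h1, h3, hc, hn] at this
    generalize ((y⁻¹ : GL n F) : Matrix n n F).trace = t at this ⊢
    push_cast at this
    have h7 : (16 * 2 ^ k : F) ≠ 0 := by
      rw [show (16 : F) = 2 ^ 4 by norm_num]
      exact mul_ne_zero (pow_ne_zero _ h2) (pow_ne_zero _ h2)
    apply mul_left_cancel₀ h7
    linear_combination this
  have h7 : r ∣ 16 - m := (Nat.modEq_iff_dvd' (Nat.le_of_dvd (by norm_num) h4)).mp h5.symm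
  have hpr := hp.out
  have h8 : m = 1 ∨ m = 2 ∨ m = 4 ∨ m = 8 ∨ m = 16 := by
    have := Nat.le_of_dvd (by norm_num) h4
    interval_cases m <;> omega
  rcases h8 with e | e | e | e | e
  · left
    rw [e] at h7 h6
    refine ⟨?_, by simpa using h6, fun a ha h => ?_⟩
    · rcases (Nat.Prime.dvd_mul hpr).mp (show r ∣ 3 * 5 from h7) with h | h
      · exact Or.inl ((Nat.prime_dvd_prime_iff_eq hpr (by norm_num)).mp h)
      · exact Or.inr ((Nat.prime_dvd_prime_iff_eq hpr (by norm_num)).mp h)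
    · rw [hm', Subgroup.index_eq_one, Subgroup.subgroupOf_eq_top] at e
      exact (hR.mem_center_iff ⟨a, ha⟩).mp (e ((hX _).mpr h))
  · exfalso
    obtain ⟨a, ha⟩ : ∃ a : X, a ∉ (Subgroup.center R).subgroupOf X := by
      by_contra hn
      push Not at hn
      rw [hm', (Subgroup.eq_top_iff' _).mpr hn, Subgroup.index_top] at e
      norm_num at e
    have ha' := ha
    rw [Subgroup.mem_subgroupOf, hR.mem_center_iff] at ha'
    obtain ⟨b, hb, hab⟩ := hR.exists_anti a.1.2 ha'
    have hya := (hX _).mp a.2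
    have h9 := ncard_modEq (T := {g ∈ (R : Set (GL n F)) | a.1.1 * g = -(g * a.1.1)})
      (Set.toFinite _) (r := r) (y := y) (fun g hg => ⟨hm g hg.1, by
        calc a.1.1 * (y * g * y⁻¹) = y * (a.1.1 * g) * y⁻¹ := by
              rw [← mul_assoc, ← mul_assoc, ← hya]; group
          _ = -(y * g * y⁻¹ * (y * a.1.1) * y⁻¹) := by rw [hg.2]; simp [mul_assoc]
          _ = _ := by rw [hya]; simp [mul_assoc]⟩)
      fun a _ => hyr.comm a
    obtain ⟨g, ⟨hg, hag⟩, hyg⟩ : {g ∈ {g ∈ (R : Set (GL n F)) | a.1.1 * g = -(g * a.1.1)} |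
        y * g = g * y}.Nonempty := by
      rw [Set.nonempty_iff_ne_empty]
      intro e2
      rw [e2, Set.ncard_empty, Nat.modEq_zero_iff_dvd] at h9
      have h10 := hR.card_anti h2 a.1.2 hb hab
      have h11 : r ∣ 2 ^ (4 + k) := by
        rw [pow_add, show 2 ^ 4 = 16 by norm_num, ← hc, h10]
        exact h9.mul_left 2
      exact hr ((Nat.prime_dvd_prime_iff_eq hpr Nat.prime_two).mp (hpr.dvd_of_dvd_pow h11))
    have h10 := (Subgroup.mul_mem_iff_of_index_two e (a := a) (b := ⟨⟨g, hg⟩, (hX _).mpr hyg⟩)).mpr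
      (iff_of_false ha (by
        rw [Subgroup.mem_subgroupOf, hR.mem_center_iff]
        exact fun e2 => ne_neg h2 _ ((e2.comm a.1.1).trans hag)))
    rw [Subgroup.mem_subgroupOf, hR.mem_center_iff] at h10
    have h11 : a.1.1 * g * a.1.1 = a.1.1 * (a.1.1 * g) := h10.comm a.1.1
    rw [mul_assoc] at h11
    exact ne_neg h2 _ ((mul_left_cancel h11).trans hag)
  · right
    rw [e] at h7 h6
    refine ⟨?_, by simpa using h6⟩
    rcases (Nat.Prime.dvd_mul hpr).mp (show r ∣ 3 * 2 ^ 2 from h7) with h | h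
    · exact (Nat.prime_dvd_prime_iff_eq hpr (by norm_num)).mp h
    · exact absurd ((Nat.prime_dvd_prime_iff_eq hpr Nat.prime_two).mp (hpr.dvd_of_dvd_pow h)) hr
  · rw [e] at h7
    exact absurd ((Nat.prime_dvd_prime_iff_eq hpr Nat.prime_two).mp
      (hpr.dvd_of_dvd_pow (show r ∣ 2 ^ 3 from h7))) hr
  · exfalso
    have h9 : X = ⊤ := Subgroup.eq_top_of_card_eq _ (by rw [h3, e, hc, mul_comm])
    exact hns (hR.sc_of_comm fun b hb => (hX ⟨b, hb⟩).mp (h9 ▸ Subgroup.mem_top _))

theorem adjust {a b g : GL n F} (ha : a ∈ R) (hb : b ∈ R) (h : a * b = -(b * a)) (hg : g ∈ R) :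
    ∃ t : Fin 4, a * (![1, a, b, a * b] t * g) = (![1, a, b, a * b] t * g) * a ∧
      b * (![1, a, b, a * b] t * g) = (![1, a, b, a * b] t * g) * b := by
  have h' : ∀ u, b * (a * u) = -(a * (b * u)) := fun u => by
    rw [← mul_assoc, ← mul_assoc, h, neg_mul, neg_neg]
  rcases hR.comm a ha g hg with e1 | e1 <;> rcases hR.comm b hb g hg with e2 | e2
  · exact ⟨0, by simp [e1], by simp [e2]⟩
  · exact ⟨1, by simp [← e1, mul_assoc], by simp [mul_assoc, h', e2]⟩
  · refine ⟨2, ?_, by simp [← e2, mul_assoc]⟩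
    simp only [cons_val, mul_assoc]
    rw [← neg_neg (g * a), ← e1, mul_neg, h', neg_neg]
  · refine ⟨3, ?_, ?_⟩
    · simp only [cons_val, mul_assoc]
      rw [← neg_neg (g * a), ← e1, mul_neg, h', neg_neg]
    · simp only [cons_val, mul_assoc]
      rw [← neg_neg (g * b), ← e2, h', mul_neg, mul_neg]

theorem exists_pairs [Finite F] {k : ℕ} (hZ : Nat.card (Subgroup.center R) = k)
    (hc : Nat.card R = 16 * k) : ∃ a ∈ R, ∃ b ∈ R, ∃ c ∈ R, ∃ d ∈ R, a * b = -(b * a) ∧
      c * d = -(d * c) ∧ a * c = c * a ∧ b * c = c * b ∧ a * d = d * a ∧ b * d = d * b := by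
  have hk : 0 < k := hZ ▸ Nat.card_pos
  obtain ⟨a, ha⟩ : ∃ a : R, a ∉ Subgroup.center R := by
    by_contra hn
    push Not at hn
    rw [(Subgroup.eq_top_iff' _).mpr hn, Subgroup.card_top] at hZ
    omega
  obtain ⟨b, hb, hab⟩ := hR.exists_anti a.2 (by rwa [← hR.mem_center_iff])
  have hmem : ∀ t : Fin 4, ![1, a.1, b, a.1 * b] t ∈ R := by
    intro t
    fin_cases t
    exacts [R.one_mem, a.2, hb, R.mul_mem a.2 hb]
  obtain ⟨c, hc1, hc2, hc3, hc4⟩ : ∃ c ∈ R, ¬ Sc c ∧ a.1 * c = c * a.1 ∧ b * c = c * b := by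
    by_contra hn
    push Not at hn
    have := Nat.card_le_card_of_surjective
      (fun z : Fin 4 × Subgroup.center R => (⟨_, hmem z.1⟩ : R)⁻¹ * z.2.1) (fun g => by
        obtain ⟨t, h1, h2⟩ := hR.adjust a.2 hb hab g.2
        refine ⟨(t, ⟨⟨_, hmem t⟩ * g, ?_⟩), by simp⟩
        rw [hR.mem_center_iff]
        by_contra h3
        exact hn _ (R.mul_mem (hmem t) g.2) h3 h1 h2)
    rw [Nat.card_prod, hZ, hc, Nat.card_eq_fintype_card, Fintype.card_fin] at this
    omega
  obtain ⟨d, hd, hcd⟩ := hR.exists_anti hc1 hc2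
  obtain ⟨t, h1, h2⟩ := hR.adjust a.2 hb hab hd
  refine ⟨a.1, a.2, b, hb, c, hc1, _, R.mul_mem (hmem t) hd, hab, ?_, hc3, hc4, h1, h2⟩
  have h3 : c * ![1, a.1, b, a.1 * b] t = ![1, a.1, b, a.1 * b] t * c := by
    fin_cases t
    · simp
    · exact hc3.symm
    · exact hc4.symm
    · simp only [Fin.reduceFinMk, cons_val]
      rw [← mul_assoc, ← hc3, mul_assoc, ← hc4, mul_assoc]
  rw [← mul_assoc, h3, mul_assoc, hcd]
  simp [mul_assoc]

end Pauli

/-- The unit `1 + c` for `c ^ 2 = -1`. -/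
def su (h2 : (2 : F) ≠ 0) (c : GL n F) (hc : c * c = -1) : GL n F :=
  have h : (c : Matrix n n F) * c = -1 := congrArg Units.val hc
  ⟨1 + c, (2 : F)⁻¹ • (1 - c), by
    rw [mul_smul_comm, add_mul, mul_sub, mul_sub, h, ← one_smul F (1 : Matrix n n F)]
    simp only [one_mul, mul_one, one_smul]
    rw [show (1 : Matrix n n F) - c + (c - -1) = (2 : F) • 1 by rw [two_smul]; abel, smul_smul,
      inv_mul_cancel₀ h2, one_smul], by
    rw [smul_mul_assoc, sub_mul, mul_add, mul_add, h]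
    simp only [one_mul, mul_one]
    rw [show (1 : Matrix n n F) + c - (c + -1) = (2 : F) • 1 by rw [two_smul]; abel, smul_smul,
      inv_mul_cancel₀ h2, one_smul]⟩

theorem su_val (h2 : (2 : F) ≠ 0) (c : GL n F) (hc : c * c = -1) :
    (su h2 c hc : Matrix n n F) = 1 + c := rfl

theorem su_comm (h2 : (2 : F) ≠ 0) {c : GL n F} (hc : c * c = -1) {a : GL n F}
    (h : c * a = a * c) : su h2 c hc * a * (su h2 c hc)⁻¹ = a := by
  rw [mul_inv_eq_iff_eq_mul]
  have := congrArg Units.val h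
  simp only [Units.val_mul] at this
  exact Units.ext (by simp [su_val, add_mul, mul_add, this])

theorem su_anti (h2 : (2 : F) ≠ 0) {c : GL n F} (hc : c * c = -1) {a : GL n F}
    (h : c * a = -(a * c)) : su h2 c hc * a * (su h2 c hc)⁻¹ = c * a := by
  rw [mul_inv_eq_iff_eq_mul]
  have h1 : c * a * c = a := by rw [h, neg_mul, mul_assoc, hc]; simp
  have := congrArg Units.val h1
  simp only [Units.val_mul] at this
  exact Units.ext (by simp [su_val, add_mul, mul_add, this, add_comm])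

theorem mem_normalizer_of [Finite F] {R : Subgroup (GL n F)} {y : GL n F}
    (h : ∀ a ∈ R, y * a * y⁻¹ ∈ R) : y ∈ Subgroup.normalizer (R : Set (GL n F)) :=
  Subgroup.mem_normalizer_fintype h

theorem Pauli.su_mem [Finite F] {R : Subgroup (GL n F)} (hR : Pauli R) (h2 : (2 : F) ≠ 0)
    {c : GL n F} (hm : c ∈ R) (hc : c * c = -1) :
    su h2 c hc ∈ Subgroup.normalizer (R : Set (GL n F)) :=
  mem_normalizer_of fun a ha => by
    rcases hR.comm c hm a ha with e | e
    · rwa [su_comm h2 hc e]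
    · rw [su_anti h2 hc e]; exact R.mul_mem hm ha

theorem Sc.mem_normalizer [Finite F] {R : Subgroup (GL n F)} {y : GL n F} (h : Sc y) :
    y ∈ Subgroup.normalizer (R : Set (GL n F)) :=
  mem_normalizer_of fun a ha => by rwa [h.comm, mul_inv_cancel_right]

end Cfsg.Agent.H2.SympType
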