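import Mathlib
import Cfsg.Prelude.Def_GeometricClasses
import Cfsg.Agent.H7.Types

/-!
Conjugacy in isometry groups: elements of a unitary group that are conjugate in the general
linear group are conjugate in the unitary group (odd characteristic), and a symplectic variant.
-/

set_option autoImplicit false

namespace Cfsg.Agent.H2.Wall

open Polynomial Matrix

theorem exists_sq_sub {B : Type*} [CommRing B] [Finite B] (h2 : IsUnit (2 : B)) {δ h : B}
    (hδ : IsUnit δ) (hh : IsUnit h) : ∃ a b : B, a ^ 2 - δ * b ^ 2 = h := by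
  classical
  have hfin : ∀ I : Ideal B, Finite (B ⧸ I) := fun I =>
    Finite.of_surjective _ Ideal.Quotient.mk_surjective
  have hmax : ∀ I : {I : Ideal B // I.IsPrime}, I.1.IsMaximal := fun I => by
    haveI := I.2
    exact Ideal.Quotient.maximal_of_isField _ (Finite.isField_of_domain _)
  have key : ∀ I : {I : Ideal B // I.IsPrime}, ∃ a b : B, a ^ 2 - δ * b ^ 2 - h ∈ I.1 := by
    intro I
    haveI := hmax I
    letI := Ideal.Quotient.field I.1
    haveI := Fintype.ofFinite (B ⧸ I.1)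
    have hc : Fintype.card (B ⧸ I.1) % 2 = 1 := by
      apply FiniteField.odd_card_of_char_ne_two
      intro e
      have h3 : (2 : B ⧸ I.1) = 0 := by
        have := ringChar.Nat.cast_ringChar (R := B ⧸ I.1)
        rwa [e] at this
      have := h2.map (Ideal.Quotient.mk I.1)
      rw [map_ofNat, h3] at this
      exact not_isUnit_zero this
    have hδ' : Ideal.Quotient.mk I.1 δ ≠ 0 := (hδ.map _).ne_zero
    obtain ⟨a, b, hab⟩ := FiniteField.exists_root_sum_quadratic
      (f := X ^ 2 - C (Ideal.Quotient.mk I.1 h)) (g := C (-Ideal.Quotient.mk I.1 δ) * X ^ 2)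
      (degree_X_pow_sub_C (by norm_num) _) (degree_C_mul_X_pow 2 (neg_ne_zero.mpr hδ')) hc
    obtain ⟨a, rfl⟩ := Ideal.Quotient.mk_surjective a
    obtain ⟨b, rfl⟩ := Ideal.Quotient.mk_surjective b
    refine ⟨a, b, Ideal.Quotient.eq_zero_iff_mem.mp ?_⟩
    simp only [eval_add, eval_sub, eval_pow, eval_X, eval_C, eval_mul] at hab
    simp only [map_sub, map_pow, map_mul]
    linear_combination hab
  choose a b hab using key
  have hco : Pairwise (Function.onFun IsCoprime fun I : {I : Ideal B // I.IsPrime} => I.1) :=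
    fun I J hIJ => Ideal.isCoprime_iff_sup_eq.mpr
      ((hmax I).coprime_of_ne (hmax J) fun e => hIJ (Subtype.ext e))
  obtain ⟨a', ha'⟩ := Ideal.exists_forall_sub_mem_ideal hco a
  obtain ⟨b', hb'⟩ := Ideal.exists_forall_sub_mem_ideal hco b
  have hn : IsNilpotent (a' ^ 2 - δ * b' ^ 2 - h) := by
    rw [nilpotent_iff_mem_prime]
    intro J hJ
    have e : a' ^ 2 - δ * b' ^ 2 - h = (a ⟨J, hJ⟩ ^ 2 - δ * b ⟨J, hJ⟩ ^ 2 - h) +
        (a' + a ⟨J, hJ⟩) * (a' - a ⟨J, hJ⟩) - δ * (b' + b ⟨J, hJ⟩) * (b' - b ⟨J, hJ⟩) := by ring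
    rw [e]
    exact J.sub_mem (J.add_mem (hab ⟨J, hJ⟩) (J.mul_mem_left _ (ha' ⟨J, hJ⟩)))
      (J.mul_mem_left _ (hb' ⟨J, hJ⟩))
  obtain ⟨k, hk⟩ := hh.exists_right_inv
  obtain ⟨r, ⟨h1, h3⟩, -⟩ := existsUnique_nilpotent_sub_and_aeval_eq_zero (R := B) (x := (1 : B))
    (P := X ^ 2 - C (k * (a' ^ 2 - δ * b' ^ 2))) (by
      have : aeval (1 : B) (X ^ 2 - C (k * (a' ^ 2 - δ * b' ^ 2))) =
          -k * (a' ^ 2 - δ * b' ^ 2 - h) := by
        simp only [map_sub, map_pow, aeval_X, aeval_C, Algebra.algebraMap_self, RingHom.id_apply]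
        linear_combination -hk
      rw [this]
      exact (Commute.all _ _).isNilpotent_mul_left hn) (by
      rw [derivative_sub, derivative_C, sub_zero, derivative_X_pow]
      simpa using h2)
  have h4 : IsUnit r := by
    have := h1.isUnit_one_sub
    rwa [sub_sub_cancel] at this
  obtain ⟨s, hs⟩ := h4.exists_right_inv
  simp only [map_sub, map_pow, aeval_X, aeval_C, Algebra.algebraMap_self, RingHom.id_apply] at h3
  refine ⟨a' * s, b' * s, ?_⟩
  linear_combination (-h * s ^ 2) * h3 + (h * (r * s + 1)) * hs -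
    (a' ^ 2 - δ * b' ^ 2) * s ^ 2 * hk

/-- An anti-involution of a ring. -/
structure Adj (A : Type*) [Ring A] where
  st : A →+ A
  st_mul : ∀ a b, st (a * b) = st b * st a
  st_st : ∀ a, st (st a) = a

namespace Adj

variable {A : Type*} [Ring A] (S : Adj A)

theorem st_one : S.st 1 = 1 := by
  have := S.st_mul (S.st 1) 1
  rw [mul_one, S.st_st, mul_one] at this
  exact this.symm

/-- The isometry group. -/
def Iso : Subgroup Aˣ where
  carrier := {g | S.st g * g = 1}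
  mul_mem' := fun {a b} ha hb => by
    simp only [Set.mem_ofPred_eq, Units.val_mul, S.st_mul] at *
    rw [mul_assoc, ← mul_assoc (S.st a), ha, one_mul, hb]
  one_mem' := by simp [S.st_one]
  inv_mem' := fun {a} ha => by
    simp only [Set.mem_ofPred_eq] at *
    have h1 : S.st a = (a⁻¹ : Aˣ) := (Units.eq_inv_of_mul_eq_one_right ha)
    rw [← h1, S.st_st, h1, Units.mul_inv]

theorem mem_Iso {g : Aˣ} : g ∈ S.Iso ↔ S.st g * g = 1 := Iff.rfl

theorem st_eq_inv {g : Aˣ} (hg : g ∈ S.Iso) : S.st g = (g⁻¹ : Aˣ) :=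
  Units.eq_inv_of_mul_eq_one_right hg

theorem mem_Iso' {g : Aˣ} (h : (g : A) * S.st g = 1) : g ∈ S.Iso := by
  rw [mem_Iso, Units.eq_inv_of_mul_eq_one_left h, Units.inv_mul]

/-- The adjoint of a unit. -/
def stU (g : Aˣ) : Aˣ :=
  ⟨S.st g, S.st (g⁻¹ : Aˣ), by rw [← S.st_mul, Units.inv_mul, S.st_one],
    by rw [← S.st_mul, Units.mul_inv, S.st_one]⟩

theorem val_stU (g : Aˣ) : (S.stU g : A) = S.st g := rfl

theorem st_comm {x : Aˣ} (hx : x ∈ S.Iso) {c : A} (hc : c * x = x * c) :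
    S.st c * x = x * S.st c := by
  have h1 := congrArg S.st hc
  rw [S.st_mul, S.st_mul, S.st_eq_inv hx] at h1
  calc S.st c * x = x * ((x⁻¹ : Aˣ) * S.st c) * x := by rw [← mul_assoc, Units.mul_inv, one_mul]
    _ = x * S.st c := by rw [h1, mul_assoc, mul_assoc, Units.inv_mul, mul_one]

theorem wall [Finite A] (h2 : IsUnit (2 : A)) {x y P : Aˣ} (hx : x ∈ S.Iso) (hy : y ∈ S.Iso)
    (hP : P⁻¹ * x * P = y) {θ : Aˣ} (hθ : S.st θ = -θ) (hθx : (θ : A) * x = x * θ)
    (hθc : ∀ c : A, c * x = x * c → c * θ = θ * c) : ∃ g ∈ S.Iso, g⁻¹ * x * g = y := by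
  have hxP : (x : A) * P = P * y := by
    rw [← hP]; simp [← mul_assoc]
  have h1 : (y : A) * S.st P = S.st P * x := by
    have := congrArg S.st hxP
    rw [S.st_mul, S.st_mul, S.st_eq_inv hx, S.st_eq_inv hy] at this
    calc (y : A) * S.st P = y * (S.st P * (x⁻¹ : Aˣ)) * x := by
          rw [mul_assoc, mul_assoc, Units.inv_mul, mul_one]
      _ = _ := by rw [this, ← mul_assoc, Units.mul_inv, one_mul]
  set h : Aˣ := P * S.stU P with hh
  have hhx : (h : A) * x = x * h := by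
    rw [hh, Units.val_mul, val_stU, mul_assoc, ← h1, ← mul_assoc, ← hxP, mul_assoc]
  have hst : S.st h = h := by rw [hh, Units.val_mul, val_stU, S.st_mul, S.st_st]
  have hθh := hθc _ hhx
  let T : Set A := {(h : A), (θ : A) * θ}
  have hT : ∀ a ∈ T, ∀ b ∈ T, a * b = b * a := by
    have : (h : A) * (θ * θ) = θ * θ * h := by rw [← mul_assoc, hθh, mul_assoc, hθh, mul_assoc]
    rintro a (rfl | rfl) b (rfl | rfl)
    · rfl
    · exact this
    · exact this.symm
    · rfl
  have hB : ∀ b ∈ Subring.closure T, b * x = x * b ∧ S.st b = b := by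
    intro b hb
    induction hb using Subring.closure_induction with
    | mem a ha =>
      rcases ha with rfl | rfl
      · exact ⟨hhx, hst⟩
      · exact ⟨by rw [mul_assoc, hθx, ← mul_assoc, hθx, mul_assoc], by rw [S.st_mul, hθ]; simp⟩
    | zero => simp
    | one => simp [S.st_one]
    | add a b _ _ ha hb => exact ⟨by rw [add_mul, mul_add, ha.1, hb.1], by rw [map_add, ha.2, hb.2]⟩
    | neg a _ ha => exact ⟨by rw [neg_mul, mul_neg, ha.1], by rw [map_neg, ha.2]⟩
    | mul a b ha' hb' ha hb =>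
      refine ⟨by rw [mul_assoc, hb.1, ← mul_assoc, ha.1, mul_assoc], ?_⟩
      rw [S.st_mul, ha.2, hb.2]
      haveI := Subring.isMulCommutative_closure hT
      exact congrArg Subtype.val (mul_comm' (⟨b, hb'⟩ : Subring.closure T) ⟨a, ha'⟩)
  haveI := Subring.isMulCommutative_closure hT
  letI : CommRing (Subring.closure T) :=
    { (inferInstance : Ring (Subring.closure T)) with mul_comm := mul_comm' }
  have hu : ∀ b : Subring.closure T, IsUnit (b : A) → IsUnit b := by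
    intro b hb
    obtain ⟨u, hu⟩ := hb
    refine IsUnit.of_pow_eq_one (n := orderOf u) (Subtype.ext ?_) (orderOf_pos u).ne'
    rw [SubmonoidClass.coe_pow, ← hu, ← Units.val_pow_eq_pow_val, pow_orderOf_eq_one]
    rfl
  obtain ⟨a, b, hab⟩ := exists_sq_sub (B := Subring.closure T) (hu 2 h2)
    (hu ⟨θ * θ, Subring.subset_closure (Or.inr rfl)⟩ (θ * θ).isUnit)
    (hu ⟨h, Subring.subset_closure (Or.inl rfl)⟩ h.isUnit)
  have hab' : (a : A) * a - θ * θ * (b * b) = h := by
    have := congrArg Subtype.val hab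
    simpa [pow_two] using this
  obtain ⟨ha1, ha2⟩ := hB a a.2
  obtain ⟨hb1, hb2⟩ := hB b b.2
  have ha3 := hθc _ ha1
  have hb3 := hθc _ hb1
  have hab2 : (b : A) * a = a * b := congrArg Subtype.val (mul_comm b a)
  have hc : ((a : A) + θ * b) * S.st (a + θ * b) = h := by
    rw [map_add, S.st_mul, hθ, ha2, hb2, ← hab', mul_neg, hb3, add_mul, mul_add, mul_add,
      mul_neg, mul_neg, ← mul_assoc (a : A), ha3, mul_assoc (θ : A) b a, hab2,
      mul_assoc (θ : A) a, mul_assoc (θ : A) b, ← mul_assoc (b : A) θ, hb3]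
    simp only [mul_assoc]
    abel
  have hcu : IsUnit ((a : A) + θ * b) := by
    have : IsUnit (((a : A) + θ * b) * S.st (a + θ * b)) := hc ▸ h.isUnit
    exact isUnit_of_mul_isUnit_left this
  obtain ⟨c, hcc⟩ := hcu
  have hcx : c * x = x * c := Units.ext (by
    rw [Units.val_mul, Units.val_mul, hcc, add_mul, mul_add, ha1, mul_assoc, hb1, ← mul_assoc, hθx,
      mul_assoc])
  have hc' : c * S.stU c = h := Units.ext (by rw [Units.val_mul, val_stU, hcc, hc])
  refine ⟨c⁻¹ * P, S.mem_Iso' ?_, ?_⟩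
  · have e : S.st ((c⁻¹ * P : Aˣ) : A) = ((S.stU P * (S.stU c)⁻¹ : Aˣ) : A) := by
      rw [Units.val_mul, S.st_mul]; rfl
    rw [e, ← Units.val_mul]
    have : c⁻¹ * P * (S.stU P * (S.stU c)⁻¹) = 1 := by
      rw [mul_assoc, ← mul_assoc P, ← hh, ← hc']; group
    rw [this, Units.val_one]
  · rw [← hP]
    calc (c⁻¹ * P)⁻¹ * x * (c⁻¹ * P) = P⁻¹ * (c * x) * c⁻¹ * P := by group
      _ = _ := by rw [hcx]; group

end Adj

section Unitary

variable {F : Type*} [Field F] {n : Type} [Fintype n] [DecidableEq n]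

/-- The unitary adjoint. -/
def uAdj (n : Type) [Fintype n] [DecidableEq n] (σ : F →+* F) (hσ : ∀ a, σ (σ a) = a) :
    Adj (Matrix n n F) where
  st :=
    { toFun := fun M => (M.map σ)ᵀ
      map_zero' := by simp
      map_add' := fun a b => by rw [Matrix.map_add _ (map_add σ), transpose_add] }
  st_mul a b := by simp [Matrix.map_mul, transpose_mul]
  st_st a := by ext i j; simp [hσ]

variable {σ : F →+* F} {hσ : ∀ a, σ (σ a) = a}

theorem uAdj_apply (M : Matrix n n F) : (uAdj n σ hσ).st M = (M.map σ)ᵀ := rfl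

theorem uAdj_smul (c : F) (M : Matrix n n F) :
    (uAdj n σ hσ).st (c • M) = σ c • (uAdj n σ hσ).st M := by
  ext i j; simp [uAdj_apply]

theorem uAdj_det (M : Matrix n n F) : ((uAdj n σ hσ).st M).det = σ M.det := by
  rw [uAdj_apply, det_transpose, RingHom.map_det, RingHom.mapMatrix_apply]

theorem uAdj_trace (M : Matrix n n F) : ((uAdj n σ hσ).st M).trace = σ M.trace := by
  simp [uAdj_apply, Matrix.trace, map_sum]

theorem mem_GU_iff {m q : ℕ} (hq : ∀ a, σ a = a ^ q) (g : GL (Fin m) F) :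
    g ∈ Cfsg.GU m F q ↔ g ∈ (uAdj (Fin m) σ hσ).Iso := by
  have key : ∀ (M : Matrix (Fin m) (Fin m) F) (u v : Fin m → F),
      hermForm m F q (M *ᵥ u) (M *ᵥ v) =
        (fun i => σ (v i)) ⬝ᵥ (((uAdj (Fin m) σ hσ).st M * M) *ᵥ u) := by
    intro M u v
    rw [← mulVec_mulVec, uAdj_apply, dotProduct_mulVec, vecMul_transpose, dotProduct_comm]
    simp only [hermForm, ← hq, dotProduct]
    refine Finset.sum_congr rfl fun i _ => ?_
    simp [mulVec, dotProduct, map_sum]
  rw [Adj.mem_Iso]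
  constructor
  · intro h
    ext i j
    have h1 := h (Pi.single j 1) (Pi.single i 1)
    have h2 := key 1 (Pi.single j 1) (Pi.single i 1)
    change hermForm m F q ((g : Matrix (Fin m) (Fin m) F) *ᵥ _)
      ((g : Matrix (Fin m) (Fin m) F) *ᵥ _) = _ at h1
    rw [one_mulVec, one_mulVec, Adj.st_one, one_mul] at h2
    rw [key, h2] at h1
    have e : (fun k => σ ((Pi.single i 1 : Fin m → F) k)) = Pi.single i 1 := by
      funext k; simp [Pi.single_apply]
    rw [e] at h1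
    simpa [Matrix.one_apply, Pi.single_apply] using h1
  · intro h u v
    have h2 := key 1 u v
    rw [one_mulVec, one_mulVec, Adj.st_one, one_mul] at h2
    change hermForm m F q ((g : Matrix (Fin m) (Fin m) F) *ᵥ _)
      ((g : Matrix (Fin m) (Fin m) F) *ᵥ _) = _
    rw [key, h, h2]

theorem isUnit_two (h2 : (2 : F) ≠ 0) : IsUnit (2 : Matrix n n F) := by
  have := (IsUnit.mk0 _ h2).map (algebraMap F (Matrix n n F))
  rwa [map_ofNat] at this

theorem det_norm {g : GL n F} (hg : g ∈ (uAdj n σ hσ).Iso) :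
    (g : Matrix n n F).det * σ (g : Matrix n n F).det = 1 := by
  have := congrArg Matrix.det (Adj.mem_Iso _ |>.mp hg)
  rwa [det_mul, uAdj_det, det_one, mul_comm] at this

theorem u_conj [Finite F] (hne : ∃ a, σ a ≠ a) (h2 : (2 : F) ≠ 0) {x y P : GL n F}
    (hx : x ∈ (uAdj n σ hσ).Iso) (hy : y ∈ (uAdj n σ hσ).Iso) (hP : P⁻¹ * x * P = y) :
    ∃ g ∈ (uAdj n σ hσ).Iso, g⁻¹ * x * g = y := by
  obtain ⟨δ, hδ, hδ'⟩ := H7.exists_skew σ hσ hne
  let θ : GL n F := Units.map (algebraMap F (Matrix n n F)).toMonoidHom (Units.mk0 δ hδ)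
  have hθ : (θ : Matrix n n F) = δ • 1 := by simp [θ, Algebra.algebraMap_eq_smul_one]
  refine (uAdj n σ hσ).wall (isUnit_two h2) hx hy hP (θ := θ) ?_ ?_ fun c _ => ?_
  · rw [hθ, uAdj_smul, Adj.st_one, hδ', neg_smul]
  · rw [hθ]; simp
  · rw [hθ]; simp

variable (σ hσ) in
/-- The centraliser contains normal elements of every determinant. -/
def Nrm (x : Matrix n n F) : Prop := ∀ e : F, e ≠ 0 → ∃ c : Matrix n n F, c.det = e ∧
  c * x = x * c ∧ c * (uAdj n σ hσ).st c = (uAdj n σ hσ).st c * c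

theorem Nrm.exists_det (hne : ∃ a, σ a ≠ a) {x : GL n F} (hx : x ∈ (uAdj n σ hσ).Iso)
    (h : Nrm σ hσ (x : Matrix n n F)) {d : F} (hd : d * σ d = 1) :
    ∃ u ∈ (uAdj n σ hσ).Iso, u * x = x * u ∧ (u : Matrix n n F).det = d := by
  obtain ⟨e, he, he'⟩ := H7.exists_div_conj σ hσ hne hd
  obtain ⟨c, h1, h2, h3⟩ := h e he
  obtain ⟨c, rfl⟩ : IsUnit c := (isUnit_iff_isUnit_det _).mpr (h1 ▸ IsUnit.mk0 _ he)
  set S := uAdj n σ hσ
  have h4 : c * S.stU c = S.stU c * c := Units.ext h3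
  have h5 : c * x = x * c := Units.ext h2
  have h6 : S.stU c * x = x * S.stU c := Units.ext (S.st_comm hx h2)
  refine ⟨c * (S.stU c)⁻¹, S.mem_Iso' ?_, ?_, ?_⟩
  · have e : S.st ((c * (S.stU c)⁻¹ : GL n F) : Matrix n n F) =
        ((c⁻¹ * S.stU c : GL n F) : Matrix n n F) := by
      rw [Units.val_mul, S.st_mul, Units.val_mul]
      congr 1
      exact S.st_st _
    rw [e, ← Units.val_mul]
    have : c * (S.stU c)⁻¹ * (c⁻¹ * S.stU c) = 1 := by
      calc c * (S.stU c)⁻¹ * (c⁻¹ * S.stU c) = c * (c * S.stU c)⁻¹ * S.stU c := by group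
        _ = 1 := by rw [h4]; group
    rw [this, Units.val_one]
  · calc c * (S.stU c)⁻¹ * x = c * (S.stU c)⁻¹ * (x * S.stU c) * (S.stU c)⁻¹ := by group
      _ = c * x * (S.stU c)⁻¹ := by rw [← h6]; group
      _ = _ := by rw [h5]; group
  · have h7 : ((S.stU c : GL n F) : Matrix n n F).det = σ e := by
      rw [Adj.val_stU, uAdj_det, h1]
    have h8 : (((S.stU c)⁻¹ : GL n F) : Matrix n n F).det * σ e = 1 := by
      rw [← h7, ← det_mul, Units.inv_mul, det_one]
    rw [Units.val_mul, det_mul, h1]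
    linear_combination (((S.stU c)⁻¹ : GL n F) : Matrix n n F).det * he' + d * h8

theorem su_conj [Finite F] (hne : ∃ a, σ a ≠ a) (h2 : (2 : F) ≠ 0) {x y P : GL n F}
    (hx : x ∈ (uAdj n σ hσ).Iso) (hy : y ∈ (uAdj n σ hσ).Iso) (hP : P⁻¹ * x * P = y)
    (h : Nrm σ hσ (x : Matrix n n F) ∨ Nrm σ hσ (y : Matrix n n F)) :
    ∃ g ∈ (uAdj n σ hσ).Iso, (g : Matrix n n F).det = 1 ∧ g⁻¹ * x * g = y := by
  obtain ⟨g, hg, hgx⟩ := u_conj hne h2 hx hy hP
  have h1 := det_norm ((uAdj n σ hσ).Iso.inv_mem hg)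
  have h3 : ((g⁻¹ : GL n F) : Matrix n n F).det * (g : Matrix n n F).det = 1 := by
    rw [← det_mul, Units.inv_mul, det_one]
  rcases h with h | h
  · obtain ⟨u, hu, hux, hd⟩ := h.exists_det hne hx h1
    refine ⟨u * g, Subgroup.mul_mem _ hu hg, by rw [Units.val_mul, det_mul, hd, h3], ?_⟩
    calc (u * g)⁻¹ * x * (u * g) = g⁻¹ * u⁻¹ * (x * u) * g := by group
      _ = y := by rw [← hux, ← hgx]; group
  · obtain ⟨u, hu, hux, hd⟩ := h.exists_det hne hy h1
    refine ⟨g * u, Subgroup.mul_mem _ hg hu, by rw [Units.val_mul, det_mul, hd, mul_comm, h3], ?_⟩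
    calc (g * u)⁻¹ * x * (g * u) = u⁻¹ * (g⁻¹ * x * g) * u := by group
      _ = u⁻¹ * (y * u) := by rw [hgx]; group
      _ = y := by rw [← hux]; group

/-- Conjugate vector. -/
def cv (σ : F →+* F) (v : n → F) : n → F := fun i => σ (v i)

theorem st_vecMulVec (v w : n → F) :
    (uAdj n σ hσ).st (vecMulVec v (cv σ w)) = vecMulVec w (cv σ v) := by
  ext i j; simp [uAdj_apply, vecMulVec_apply, cv, hσ, mul_comm]

theorem cv_mulVec (M : Matrix n n F) (w : n → F) :
    cv σ (M *ᵥ w) = cv σ w ᵥ* (uAdj n σ hσ).st M := by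
  funext i; simp [uAdj_apply, cv, mulVec, vecMul, dotProduct, map_sum, mul_comm]

theorem cv_smul (c : F) (w : n → F) : cv σ (c • w) = σ c • cv σ w := by
  funext i; simp [cv]

theorem nrm_of_vec {x : GL n F} (hx : x ∈ (uAdj n σ hσ).Iso) {v w : n → F} {l m : F}
    (hv : (x : Matrix n n F) *ᵥ v = l • v) (hw : (x : Matrix n n F) *ᵥ w = m • w)
    (hlm : l * σ m = 1) (h0 : cv σ w ⬝ᵥ v ≠ 0)
    (h : v = w ∨ (cv σ v ⬝ᵥ v = 0 ∧ cv σ w ⬝ᵥ w = 0)) : Nrm σ hσ (x : Matrix n n F) := by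
  intro e _
  have hwx : cv σ w ᵥ* (x : Matrix n n F) = l • cv σ w := by
    have h1 := cv_mulVec (hσ := hσ) (x : Matrix n n F) w
    rw [hw, cv_smul] at h1
    have h2 := congrArg (· ᵥ* (x : Matrix n n F)) h1
    simp only [vecMul_vecMul] at h2
    rw [(Adj.mem_Iso _).mp hx, vecMul_one, smul_vecMul] at h2
    conv_rhs => rw [← h2, smul_smul, hlm, one_smul]
  refine ⟨1 + ((e - 1) / (cv σ w ⬝ᵥ v)) • vecMulVec v (cv σ w), ?_, ?_, ?_⟩
  · rw [← smul_vecMulVec, vecMulVec_eq Unit, det_one_add_replicateCol_mul_replicateRow,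
      dotProduct_smul, smul_eq_mul, div_mul_cancel₀ _ h0]
    ring
  · rw [add_mul, mul_add, smul_mul_assoc, mul_smul_comm, vecMulVec_mul, mul_vecMulVec, hwx, hv,
      smul_vecMulVec, vecMulVec_smul, one_mul, mul_one]
  · rw [map_add, uAdj_smul, st_vecMulVec, Adj.st_one]
    have : vecMulVec v (cv σ w) * vecMulVec w (cv σ v) =
        vecMulVec w (cv σ v) * vecMulVec v (cv σ w) := by
      rcases h with rfl | h
      · rfl
      · rw [vecMulVec_mul_vecMulVec, vecMulVec_mul_vecMulVec, h.1, h.2]; simp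
    simp only [add_mul, mul_add, one_mul, mul_one, smul_mul_assoc, mul_smul_comm, this, smul_add,
      smul_smul, mul_comm]
    abel

theorem exists_cv_ne (hne : ∃ a, σ a ≠ a) {M : Matrix n n F} (hM : M ≠ 0) :
    ∃ w, cv σ w ⬝ᵥ (M *ᵥ w) ≠ 0 := by
  by_contra hn
  push Not at hn
  apply hM
  obtain ⟨a, ha⟩ := hne
  have hs : ∀ (i : n) (c : F), cv σ (Pi.single i c) = Pi.single i (σ c) := fun i c => by
    funext k; simp [cv, Pi.single_apply, apply_ite σ]
  have hadd : ∀ u v : n → F, cv σ (u + v) = cv σ u + cv σ v := fun u v => by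
    funext k; simp [cv]
  ext i j
  have h1 := hn (Pi.single i 1)
  have h2 := hn (Pi.single j 1)
  have h3 := hn (Pi.single i 1 + Pi.single j 1)
  have h4 := hn (Pi.single j a)
  have h5 := hn (Pi.single i 1 + Pi.single j a)
  simp only [hadd, hs, mulVec_add, add_dotProduct, dotProduct_add, single_dotProduct, map_one,
    mulVec_single, one_mul, MulOpposite.op_one, one_smul, Pi.smul_apply, col_apply,
    MulOpposite.smul_eq_mul_unop, MulOpposite.unop_op] at h1 h2 h3 h4 h5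
  have : (a - σ a) * M i j = 0 := by linear_combination h5 - h1 - h4 - σ a * (h3 - h1 - h2)
  simpa [sub_ne_zero.mpr ha.symm] using this

theorem nrm_of_proj (hne : ∃ a, σ a ≠ a) {x : GL n F} (hx : x ∈ (uAdj n σ hσ).Iso)
    {E : Matrix n n F} (h0 : E ≠ 0) (hE : E * E = E) (hs : (uAdj n σ hσ).st E = E) {l : F}
    (hl : l * σ l = 1) (hxE : x * E = l • E) : Nrm σ hσ (x : Matrix n n F) := by
  obtain ⟨w, hw⟩ := exists_cv_ne hne h0
  have h1 : (x : Matrix n n F) *ᵥ (E *ᵥ w) = l • E *ᵥ w := by rw [mulVec_mulVec, hxE, smul_mulVec]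
  refine nrm_of_vec hx h1 h1 hl ?_ (Or.inl rfl)
  rwa [cv_mulVec (hσ := hσ), hs, ← dotProduct_mulVec, mulVec_mulVec, hE]

theorem nrm_of_proj' (hne : ∃ a, σ a ≠ a) {x : GL n F} (hx : x ∈ (uAdj n σ hσ).Iso)
    {E E' : Matrix n n F} (h0 : E ≠ 0) (hE : E * E = E) (hs : (uAdj n σ hσ).st E = E')
    (h1 : E * E' = 0) (h2 : E' * E = 0) {l m : F}
    (hl : l * σ m = 1) (hxE : x * E = l • E) (hxE' : x * E' = m • E') :
    Nrm σ hσ (x : Matrix n n F) := by
  obtain ⟨w, hw⟩ := exists_cv_ne hne h0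
  have hs' : (uAdj n σ hσ).st E' = E := by rw [← hs, Adj.st_st]
  refine nrm_of_vec hx (v := E *ᵥ w) (w := E' *ᵥ w) (by rw [mulVec_mulVec, hxE, smul_mulVec])
    (by rw [mulVec_mulVec, hxE', smul_mulVec]) hl ?_ (Or.inr ⟨?_, ?_⟩)
  · rwa [cv_mulVec (hσ := hσ), hs', ← dotProduct_mulVec, mulVec_mulVec, hE]
  · rw [cv_mulVec (hσ := hσ), hs, ← dotProduct_mulVec, mulVec_mulVec, h2]; simp
  · rw [cv_mulVec (hσ := hσ), hs', ← dotProduct_mulVec, mulVec_mulVec, h1]; simp

end Unitary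

section Symplectic

variable {F : Type*} [Field F] {m : ℕ}

/-- The symplectic adjoint. -/
def sAdj (m : ℕ) (F : Type*) [Field F] : Adj (Matrix (Fin m ⊕ Fin m) (Fin m ⊕ Fin m) F) where
  st :=
    { toFun := fun M => -(J (Fin m) F * Mᵀ * J (Fin m) F)
      map_zero' := by simp
      map_add' := fun a b => by rw [transpose_add, mul_add, add_mul, neg_add] }
  st_mul a b := by
    simp only [AddMonoidHom.coe_mk, ZeroHom.coe_mk, transpose_mul, neg_mul_neg, mul_assoc]
    rw [← mul_assoc (J (Fin m) F) (J (Fin m) F), J_squared]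
    simp
  st_st a := by
    simp only [AddMonoidHom.coe_mk, ZeroHom.coe_mk, transpose_mul, transpose_neg, J_transpose,
      transpose_transpose, mul_neg, neg_mul, neg_neg, mul_assoc, J_squared]
    rw [← mul_assoc, J_squared]
    simp

theorem sAdj_apply (M : Matrix (Fin m ⊕ Fin m) (Fin m ⊕ Fin m) F) :
    (sAdj m F).st M = -(J (Fin m) F * Mᵀ * J (Fin m) F) := rfl

theorem sAdj_smul (c : F) (M : Matrix (Fin m ⊕ Fin m) (Fin m ⊕ Fin m) F) :
    (sAdj m F).st (c • M) = c • (sAdj m F).st M := by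
  simp [sAdj_apply]

theorem sAdj_trace (M : Matrix (Fin m ⊕ Fin m) (Fin m ⊕ Fin m) F) :
    ((sAdj m F).st M).trace = M.trace := by
  rw [sAdj_apply, trace_neg, trace_mul_cycle, J_squared]
  simp

theorem mem_sp_iff' (g : GL (Fin m ⊕ Fin m) F) : g ∈ spGL m F ↔
    (g : Matrix (Fin m ⊕ Fin m) (Fin m ⊕ Fin m) F)ᵀ * J (Fin m) F * g = J (Fin m) F := by
  have key : ∀ (M : Matrix (Fin m ⊕ Fin m) (Fin m ⊕ Fin m) F) (u v : Fin m ⊕ Fin m → F),
      sympForm m F (M *ᵥ u) (M *ᵥ v) = u ⬝ᵥ ((Mᵀ * J (Fin m) F * M) *ᵥ v) := by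
    intro M u v
    rw [sympForm, mul_assoc, ← mulVec_mulVec, dotProduct_mulVec u, vecMul_transpose,
      ← mulVec_mulVec]
  constructor
  · intro h
    ext i j
    have h1 := h (Pi.single i 1) (Pi.single j 1)
    change sympForm m F (g.val *ᵥ _) (g.val *ᵥ _) = _ at h1
    rw [key, sympForm] at h1
    simpa using h1
  · intro h u v
    change sympForm m F (g.val *ᵥ _) (g.val *ᵥ _) = _
    rw [key, h, sympForm]

theorem mem_sp_iff (g : GL (Fin m ⊕ Fin m) F) : g ∈ spGL m F ↔ g ∈ (sAdj m F).Iso := by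
  rw [mem_sp_iff', Adj.mem_Iso, sAdj_apply]
  constructor
  · intro h
    rw [neg_mul, mul_assoc, mul_assoc, ← mul_assoc _ (J (Fin m) F), h, J_squared, neg_neg]
  · intro h
    have := congrArg (J (Fin m) F * ·) h
    simp only [neg_mul, mul_neg, ← mul_assoc, J_squared, neg_neg, one_mul, mul_one] at this
    exact this

end Symplectic

end Cfsg.Agent.H2.Wall
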