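import Mathlib
import Cfsg.Agent.H2.Wall
import Cfsg.Agent.H2.SympType
import Cfsg.Agent.H2.Cls4

/-!
Elements of order `2`, `3`, `5` in the normaliser of a `2`-group of symplectic type in
dimension four.
-/

set_option autoImplicit false

namespace Cfsg.Agent.H2.SympType

open Matrix Wall

variable {F : Type*} [Field F] {n : Type} [Fintype n] [DecidableEq n]

/-- The scalar matrix as a unit. -/
def scU (c : F) (hc : c ≠ 0) : GL n F :=
  ⟨c • 1, c⁻¹ • 1, by simp [smul_smul, hc], by simp [smul_smul, hc]⟩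

theorem scU_val (c : F) (hc : c ≠ 0) : ((scU c hc : GL n F) : Matrix n n F) = c • 1 := rfl

theorem sc_scU (c : F) (hc : c ≠ 0) : Sc (scU c hc : GL n F) := ⟨c, rfl⟩

theorem Sc.conj_eq {a : GL n F} (h : Sc a) (b : GL n F) : a * b * a⁻¹ = b := by
  rw [h.comm, mul_inv_cancel_right]

theorem Sc.pow {a : GL n F} (h : Sc a) (k : ℕ) : Sc (a ^ k) := by
  induction k with
  | zero => simpa using sc_one
  | succ k ih => rw [pow_succ]; exact ih.mul h

theorem not_sc_of_anti [Nonempty n] (h2 : (2 : F) ≠ 0) {a b : GL n F} (h : a * b = -(b * a)) :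
    ¬ Sc a := fun e => ne_neg h2 (b * a) (by rw [← h, e.comm])

theorem anti_symm {a b : GL n F} (h : a * b = -(b * a)) : b * a = -(a * b) := by rw [h, neg_neg]

theorem st_half (h2 : (2 : F) ≠ 0) (S : Adj (Matrix n n F)) (M : Matrix n n F) :
    S.st ((2 : F)⁻¹ • M) = (2 : F)⁻¹ • S.st M := by
  have h : ∀ N : Matrix n n F, (2 : F)⁻¹ • N + (2 : F)⁻¹ • N = N := fun N => by
    rw [← two_smul F, smul_smul, mul_inv_cancel₀ h2, one_smul]
  conv_rhs => rw [← h M, map_add, ← two_smul F, smul_smul, inv_mul_cancel₀ h2, one_smul]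

/-- Elements of the normaliser preserving every form preserved by `R`. -/
def NI (R : Subgroup (GL n F)) : Subgroup (GL n F) :=
  Subgroup.normalizer (R : Set (GL n F)) ⊓ ⨅ (S : Adj (Matrix n n F)) (_ : R ≤ S.Iso), S.Iso

theorem mem_NI {R : Subgroup (GL n F)} {y : GL n F} : y ∈ NI R ↔
    y ∈ Subgroup.normalizer (R : Set (GL n F)) ∧ ∀ S : Adj (Matrix n n F), R ≤ S.Iso → y ∈ S.Iso := by
  simp [NI, Subgroup.mem_iInf]

theorem le_NI (R : Subgroup (GL n F)) : R ≤ NI R := fun _ h =>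
  mem_NI.mpr ⟨Subgroup.le_normalizer h, fun _ hS => hS h⟩

/-- The unit `(1 + c) (1 + d) / 2`. -/
def su2 (h2 : (2 : F) ≠ 0) (c : GL n F) (hc : c * c = -1) (d : GL n F) (hd : d * d = -1) :
    GL n F := scU 2⁻¹ (inv_ne_zero h2) * (su h2 c hc * su h2 d hd)

theorem su2_val (h2 : (2 : F) ≠ 0) (c : GL n F) (hc : c * c = -1) (d : GL n F) (hd : d * d = -1) :
    (su2 h2 c hc d hd : Matrix n n F) = (2 : F)⁻¹ • ((1 + c) * (1 + d)) := by
  simp [su2, scU_val, su_val]

theorem conj_su2 (h2 : (2 : F) ≠ 0) (c : GL n F) (hc : c * c = -1) (d : GL n F) (hd : d * d = -1)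
    (a : GL n F) : su2 h2 c hc d hd * a * (su2 h2 c hc d hd)⁻¹ =
      su h2 c hc * (su h2 d hd * a * (su h2 d hd)⁻¹) * (su h2 c hc)⁻¹ := by
  rw [← (sc_scU 2⁻¹ (inv_ne_zero h2)).conj_eq (su h2 c hc * _ * _), su2]
  group

theorem st_su (S : Adj (Matrix n n F)) {c : GL n F} (hc : c * c = -1) (h : c ∈ S.Iso) :
    S.st (1 + c) * (1 + c) = (2 : F) • 1 := by
  have h1 : c⁻¹ = -c := by rw [inv_eq_iff_mul_eq_one, mul_neg, hc, neg_neg]
  have h2 : (c : Matrix n n F) * c = -1 := congrArg Units.val hc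
  rw [map_add, S.st_one, S.st_eq_inv h, h1, two_smul]
  simp only [Units.val_neg, add_mul, mul_add, one_mul, mul_one, neg_mul, h2]
  abel

theorem Pauli.su2_mem [Finite F] {R : Subgroup (GL n F)} (hR : Pauli R) (h2 : (2 : F) ≠ 0)
    {c d : GL n F} (mc : c ∈ R) (hc : c * c = -1) (md : d ∈ R) (hd : d * d = -1) :
    su2 h2 c hc d hd ∈ NI R := by
  refine mem_NI.mpr ⟨Subgroup.mul_mem _ (sc_scU _ _).mem_normalizer
    (Subgroup.mul_mem _ (hR.su_mem h2 mc hc) (hR.su_mem h2 md hd)), fun S hS => ?_⟩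
  rw [S.mem_Iso, su2_val, st_half h2, S.st_mul, smul_mul_smul_comm, mul_assoc,
    ← mul_assoc (S.st (1 + c)), st_su S hc (hS mc), smul_mul_assoc, one_mul, mul_smul_comm,
    st_su S hd (hS md), smul_smul, smul_smul]
  rw [show (2 : F)⁻¹ * 2⁻¹ * 2 * 2 = 1 by field_simp, one_smul]

/-- Two commuting anticommuting pairs. -/
structure Pairs (R : Subgroup (GL n F)) (a b c d : GL n F) : Prop where
  ma : a ∈ R
  mb : b ∈ R
  mc : c ∈ R
  md : d ∈ R
  ba : b * a = -(a * b)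
  dc : d * c = -(c * d)
  ca : c * a = a * c
  cb : c * b = b * c
  da : d * a = a * d
  db : d * b = b * d

namespace Pairs

variable {R : Subgroup (GL n F)} {a b c d : GL n F} (h : Pairs R a b c d)
include h

theorem ba' (x : GL n F) : b * (a * x) = -(a * (b * x)) := by
  rw [← mul_assoc, h.ba, neg_mul, mul_assoc]
theorem dc' (x : GL n F) : d * (c * x) = -(c * (d * x)) := by
  rw [← mul_assoc, h.dc, neg_mul, mul_assoc]
theorem ca' (x : GL n F) : c * (a * x) = a * (c * x) := by rw [← mul_assoc, h.ca, mul_assoc]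
theorem cb' (x : GL n F) : c * (b * x) = b * (c * x) := by rw [← mul_assoc, h.cb, mul_assoc]
theorem da' (x : GL n F) : d * (a * x) = a * (d * x) := by rw [← mul_assoc, h.da, mul_assoc]
theorem db' (x : GL n F) : d * (b * x) = b * (d * x) := by rw [← mul_assoc, h.db, mul_assoc]

theorem symm : Pairs R c d a b :=
  ⟨h.mc, h.md, h.ma, h.mb, h.dc, h.ba, h.ca.symm, h.da.symm, h.cb.symm, h.db.symm⟩

theorem swap : Pairs R b a c d :=
  ⟨h.mb, h.ma, h.mc, h.md, anti_symm h.ba, h.dc, h.cb, h.ca, h.db, h.da⟩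

theorem mul : Pairs R a (a * b) c d :=
  ⟨h.ma, R.mul_mem h.ma h.mb, h.mc, h.md, by simp [mul_assoc, h.ba], h.dc, h.ca,
    by simp [mul_assoc, h.ca', h.cb], h.da, by simp [mul_assoc, h.da', h.db]⟩

theorem scale {j : GL n F} (mj : j ∈ R) (hj : Sc j) : Pairs R (j * a) b c d :=
  ⟨R.mul_mem mj h.ma, h.mb, h.mc, h.md, by rw [← mul_assoc, ← hj.comm, mul_assoc, h.ba, mul_neg,
    mul_assoc], h.dc, by rw [← mul_assoc, ← hj.comm, mul_assoc, h.ca, mul_assoc], h.cb,
    by rw [← mul_assoc, ← hj.comm, mul_assoc, h.da, mul_assoc], h.db⟩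

theorem adj (hR : Pauli R) {j : GL n F} (mj : j ∈ R) (hj : Sc j) (hjj : j * j = -1) {s : GL n F}
    (hs : s = 1 ∨ s = -1) : ∃ a', a' * a' = s ∧ Pairs R a' b c d := by
  have h1 : j * a * (j * a) = -(a * a) := by
    rw [mul_assoc, ← mul_assoc a, ← hj.comm a, mul_assoc, ← mul_assoc, hjj]; simp
  rcases hR.sq a h.ma with e | e <;> rcases hs with rfl | rfl
  · exact ⟨a, e, h⟩
  · exact ⟨_, by rw [h1, e], h.scale mj hj⟩
  · exact ⟨_, by rw [h1, e, neg_neg], h.scale mj hj⟩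
  · exact ⟨a, e, h⟩

theorem adj4 (hR : Pauli R) {j : GL n F} (mj : j ∈ R) (hj : Sc j) (hjj : j * j = -1)
    {s t : GL n F} (hs : s = 1 ∨ s = -1) (ht : t = 1 ∨ t = -1) :
    ∃ a b c d, a * a = s ∧ b * b = s ∧ c * c = t ∧ d * d = t ∧ Pairs R a b c d := by
  obtain ⟨a, ha, h⟩ := h.adj hR mj hj hjj hs
  obtain ⟨b, hb, h⟩ := h.swap.adj hR mj hj hjj hs
  obtain ⟨c, hc, h⟩ := h.symm.adj hR mj hj hjj ht
  obtain ⟨d, hd, h⟩ := h.swap.adj hR mj hj hjj ht
  exact ⟨b, a, d, c, hb, ha, hd, hc, h.symm⟩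

theorem normal (hR : Pauli R) : ∃ a b, (a * a = 1 ∧ b * b = 1 ∨ a * a = -1 ∧ b * b = -1) ∧
    Pairs R a b c d := by
  have h1 : a * b * (a * b) = -(a * a * (b * b)) := by simp [mul_assoc, h.ba']
  have h2 : b * a * (b * a) = -(b * b * (a * a)) := by simp [mul_assoc, h.swap.ba']
  rcases hR.sq a h.ma with e | e <;> rcases hR.sq b h.mb with e' | e'
  · exact ⟨a, b, Or.inl ⟨e, e'⟩, h⟩
  · exact ⟨a, a * b, Or.inl ⟨e, by simp [h1, e, e']⟩, h.mul⟩
  · exact ⟨b, b * a, Or.inl ⟨e', by simp [h2, e, e']⟩, h.swap.mul⟩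
  · exact ⟨a, b, Or.inr ⟨e, e'⟩, h⟩

end Pairs

theorem Pauli.pairs [Finite F] {R : Subgroup (GL n F)} (hR : Pauli R) {k : ℕ}
    (hZ : Nat.card (Subgroup.center R) = k) (hc : Nat.card R = 16 * k) :
    ∃ a b c d, Pairs R a b c d := by
  obtain ⟨a, ha, b, hb, c, hc, d, hd, h1, h2, h3, h4, h5, h6⟩ := hR.exists_pairs hZ hc
  exact ⟨a, b, c, d, ha, hb, hc, hd, anti_symm h1, anti_symm h2, h3.symm, h4.symm, h5.symm, h6.symm⟩

theorem Pauli.exists_i [Nonempty n] {R : Subgroup (GL n F)} (hR : Pauli R)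
    (hZ : Nat.card (Subgroup.center R) = 4) : ∃ j ∈ R, Sc j ∧ j * j = -1 := by
  by_contra hn
  push Not at hn
  have : Nat.card (Subgroup.center R) ≤ Nat.card ({1, -1} : Set (GL n F)) := by
    refine Nat.card_le_card_of_injective (fun z => ⟨z.1.1, ?_⟩) fun a b e => ?_
    · have h1 := (hR.mem_center_iff _).mp z.2
      exact sc_sq h1 ((hR.sq _ z.1.2).resolve_right (hn _ z.1.2 h1))
    · exact Subtype.ext (Subtype.ext (Subtype.mk.inj e))
  have h2 := Set.ncard_insert_le (1 : GL n F) {-1}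
  rw [Nat.card_coe_set_eq, hZ] at this
  rw [Set.ncard_singleton] at h2
  omega

theorem no_e8 [Finite F] [Nonempty n] (h2 : (2 : F) ≠ 0) {R : Subgroup (GL n F)}
    (hm : Geo.IsOfMinusType 2 R) (m1 : -1 ∈ R) {u v : GL n F} (mu : u ∈ R) (mv : v ∈ R)
    (hu : u * u = 1) (hv : v * v = 1) (huv : u * v = v * u) (nu : ¬ Sc u) (nv : ¬ Sc v)
    (nuv : ¬ Sc (u * v)) : False := by
  classical
  let f : Multiplicative (ZMod 2 × ZMod 2 × ZMod 2) →* R :=
    { toFun := fun t => ⟨-1, m1⟩ ^ t.toAdd.1.val * ⟨u, mu⟩ ^ t.toAdd.2.1.val *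
        ⟨v, mv⟩ ^ t.toAdd.2.2.val
      map_one' := by simp
      map_mul' := by
        have key : ∀ s t : ZMod 2, ∀ g : R, g * g = 1 → g ^ (s + t).val = g ^ s.val * g ^ t.val := by
          intro s t g hg
          rw [ZMod.val_add, ← pow_add, ← pow_eq_pow_mod _ (by rw [pow_two, hg])]
        rintro ⟨s1, s2, s3⟩ ⟨t1, t2, t3⟩
        change _ ^ (s1 + t1).val * _ ^ (s2 + t2).val * _ ^ (s3 + t3).val =
          _ ^ s1.val * _ ^ s2.val * _ ^ s3.val * (_ ^ t1.val * _ ^ t2.val * _ ^ t3.val)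
        rw [key _ _ _ (Subtype.ext (by simp)), key _ _ _ (Subtype.ext hu),
          key _ _ _ (Subtype.ext hv)]
        have c1 : ∀ (g : R) (k l : ℕ), Commute (g ^ k) ((⟨-1, m1⟩ : R) ^ l) := fun g k l =>
          Commute.pow_pow (Subtype.ext (by simp)) _ _
        have c2 : ∀ k l : ℕ, Commute ((⟨v, mv⟩ : R) ^ k) ((⟨u, mu⟩ : R) ^ l) := fun k l =>
          Commute.pow_pow (Subtype.ext huv.symm) _ _
        rw [((c1 _ _ _).symm.mul_mul_mul_comm _ _),
          (((c1 _ _ _).mul_right (c2 _ _)).symm.mul_mul_mul_comm _ _)] }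
  have hf : Function.Injective f := by
    rw [injective_iff_map_eq_one]
    rintro ⟨s1, s2, s3⟩ e
    have e' : (-1) ^ s1.val * u ^ s2.val * v ^ s3.val = 1 := congrArg Subtype.val e
    have n1 := ne_neg h2 (1 : GL n F)
    have a1 : ∀ g : GL n F, g = 1 → Sc g := fun g e => e ▸ sc_one
    have a2 : ∀ g : GL n F, -g = 1 → Sc g := fun g e => neg_eq_iff_eq_neg.mp e ▸ sc_one.neg
    have v1 : (1 : ZMod 2).val = 1 := rfl
    have hs : ∀ s : ZMod 2, s = 0 ∨ s = 1 := by decide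
    rcases hs s1 with rfl | rfl <;> rcases hs s2 with rfl | rfl <;> rcases hs s3 with rfl | rfl <;>
      simp only [v1, ZMod.val_zero, pow_zero, pow_one, one_mul, mul_one, neg_mul] at e' <;>
      first
      | rfl
      | exact absurd e'.symm n1
      | exact absurd (a1 _ e') ‹_›
      | exact absurd (a2 _ e') ‹_›
  have := hm f.range ⟨⟨by
    rintro ⟨_, a, rfl⟩ ⟨_, b, rfl⟩
    exact Subtype.ext (by simp only [Subgroup.coe_mul, ← map_mul, mul_comm])⟩⟩ (by
    rintro _ ⟨a, rfl⟩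
    rw [← map_mul, show a * a = 1 from by revert a; decide, map_one])
  rw [← Nat.card_congr (MonoidHom.ofInjective hf).toEquiv] at this
  simp at this

theorem Pairs.minus [Finite F] [Nonempty n] (h2 : (2 : F) ≠ 0) {R : Subgroup (GL n F)}
    (hR : Pauli R) (hm : Geo.IsOfMinusType 2 R) {a b c d : GL n F} (h : Pairs R a b c d) :
    ∃ a b c d, a * a = 1 ∧ b * b = 1 ∧ c * c = -1 ∧ d * d = -1 ∧ Pairs R a b c d := by
  obtain ⟨a, b, h1, h⟩ := h.normal hR
  obtain ⟨c, d, h3, h⟩ := h.symm.normal hR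
  have m1 := hR.neg_one_mem h.mb h.ma h.ba
  rcases h1 with ⟨ha, hb⟩ | ⟨ha, hb⟩ <;> rcases h3 with ⟨hc, hd⟩ | ⟨hc, hd⟩
  · exact (no_e8 h2 hm m1 h.ma h.mc hc ha h.ca.symm (not_sc_of_anti h2 h.swap.ba)
      (not_sc_of_anti h2 h.symm.swap.ba) (not_sc_of_anti h2 (b := d) (by
        simp [mul_assoc, h.ba', h.cb]))).elim
  · exact ⟨a, b, c, d, ha, hb, hc, hd, h.symm⟩
  · exact ⟨c, d, a, b, hc, hd, ha, hb, h⟩
  · have hc' : ∀ x, c * (c * x) = -x := fun x => by rw [← mul_assoc, hc]; simp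
    exact (no_e8 h2 hm m1 (R.mul_mem h.ma h.mc) (R.mul_mem h.mb h.md)
      (by simp [mul_assoc, h.ca', ha, hc]) (by simp [mul_assoc, h.db', hb, hd])
      (by simp [mul_assoc, h.cb', h.da', h.ba', h.dc])
      (not_sc_of_anti h2 (b := d) (by simp [mul_assoc, h.ba', h.cb]))
      (not_sc_of_anti h2 (b := c) (by simp [mul_assoc, h.ba', h.da]))
      (not_sc_of_anti h2 (b := c) (by simp [mul_assoc, h.ba', h.da, h.ca', h.ba, hc']))).elim

theorem Pairs.exists_two [Nonempty n] (h2 : (2 : F) ≠ 0) {R : Subgroup (GL n F)}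
    (hR : Pauli R) {a b c d : GL n F} (h : Pairs R a b c d) {s : GL n F} (hs : s = 1 ∨ s = -1) :
    ∃ y ∈ R, y * y = s ∧ ¬ Sc y := by
  obtain ⟨a, b, h1, h⟩ := h.normal hR
  obtain ⟨c, d, h3, h⟩ := h.symm.normal hR
  have na := not_sc_of_anti h2 h.symm.swap.ba
  have nc := not_sc_of_anti h2 h.swap.ba
  rcases hs with rfl | rfl
  · rcases h1 with ⟨ha, hb⟩ | ⟨ha, hb⟩
    · exact ⟨a, h.mc, ha, na⟩
    · rcases h3 with ⟨hc, hd⟩ | ⟨hc, hd⟩
      · exact ⟨c, h.ma, hc, nc⟩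
      · exact ⟨c * a, R.mul_mem h.ma h.mc, by simp [mul_assoc, h.ca', ha, hc],
          not_sc_of_anti h2 (b := d) (by simp [mul_assoc, h.ba', h.cb])⟩
  · rcases h1 with ⟨ha, hb⟩ | ⟨ha, hb⟩
    · exact ⟨a * b, R.mul_mem h.mc h.md, by simp [mul_assoc, h.dc', hb, ha],
        not_sc_of_anti h2 (b := a) (by simp [mul_assoc, h.dc])⟩
    · exact ⟨a, h.mc, ha, na⟩

theorem Pairs.exists_cz [Finite F] (h2 : (2 : F) ≠ 0) (hn : Fintype.card n = 4)
    {R : Subgroup (GL n F)} (hR : Pauli R) {a b c d : GL n F} (h : Pairs R a b c d)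
    (ha : a * a = 1) (hc : c * c = 1) :
    ∃ y ∈ NI R, y * y = 1 ∧ (y : Matrix n n F).trace = 2 ∧ ¬ Sc y := by
  haveI : Nonempty n := Fintype.card_pos_iff.mp (by omega)
  have m1 := hR.neg_one_mem h.mb h.ma h.ba
  have ha' : (a : Matrix n n F) * a = 1 := congrArg Units.val ha
  have hc' : (c : Matrix n n F) * c = 1 := congrArg Units.val hc
  have hca : (c : Matrix n n F) * a = a * c := congrArg Units.val h.ca
  have ha'' : ∀ x, (a : Matrix n n F) * (a * x) = x := fun x => by rw [← mul_assoc, ha', one_mul]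
  have hca' : ∀ x, (c : Matrix n n F) * (a * x) = a * (c * x) := fun x => by
    rw [← mul_assoc, hca, mul_assoc]
  have h4 : ∀ M N : Matrix n n F, M = (4 : F) • N → ((2 : F)⁻¹ * 2⁻¹) • M = N := by
    rintro _ N rfl
    rw [smul_smul, show (2 : F)⁻¹ * 2⁻¹ * 4 = 1 by field_simp; norm_num, one_smul]
  let Y : Matrix n n F := (2 : F)⁻¹ • (1 + a + c - a * c)
  have hY : Y * Y = 1 := by
    rw [smul_mul_smul_comm]
    apply h4
    simp only [add_mul, mul_add, sub_mul, mul_sub, one_mul, mul_one, mul_assoc, ha', hc', hca, ha'',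
      hca']
    module
  let y : GL n F := ⟨Y, Y, hY, hY⟩
  refine ⟨y, mem_NI.mpr ⟨mem_normalizer_of fun g hg => ?_, fun S hS => ?_⟩, Units.ext hY, ?_⟩
  · have key : ∀ t ∈ R, (1 + a + c - a * c : Matrix n n F) * g * (1 + a + c - a * c) =
        (4 : F) • ((g * t : GL n F) : Matrix n n F) → y * g * y⁻¹ ∈ R := fun t ht e => by
      have : y * g * y⁻¹ = g * t := Units.ext (by
        change Y * g * Y = _
        rw [smul_mul_assoc, smul_mul_smul_comm]
        exact h4 _ _ e)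
      rw [this]; exact R.mul_mem hg ht
    rcases hR.comm a h.ma g hg with e1 | e1 <;> rcases hR.comm c h.mc g hg with e2 | e2 <;>
      replace e1 := congrArg Units.val e1 <;> replace e2 := congrArg Units.val e2 <;>
      simp only [Units.val_mul, Units.val_neg] at e1 e2 <;>
      have e3 := fun x => (mul_assoc _ _ x).symm.trans (congrArg (· * x) e1) <;>
      have e4 := fun x => (mul_assoc _ _ x).symm.trans (congrArg (· * x) e2)
    · refine key 1 R.one_mem ?_
      simp only [add_mul, mul_add, sub_mul, mul_sub, one_mul, mul_one, mul_assoc, ha', hc', hca,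
        ha'', hca', e1, e2, e3, e4]
      module
    · refine key a h.ma ?_
      simp only [add_mul, mul_add, sub_mul, mul_sub, one_mul, mul_one, mul_assoc, ha', hc', hca,
        ha'', hca', e1, e2, e3, e4, neg_mul, mul_neg, neg_neg, Units.val_mul]
      module
    · refine key c h.mc ?_
      simp only [add_mul, mul_add, sub_mul, mul_sub, one_mul, mul_one, mul_assoc, ha', hc', hca,
        ha'', hca', e1, e2, e3, e4, neg_mul, mul_neg, neg_neg, Units.val_mul]
      module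
    · refine key (-1 * (a * c)) (R.mul_mem m1 (R.mul_mem h.ma h.mc)) ?_
      simp only [add_mul, mul_add, sub_mul, mul_sub, one_mul, mul_one, mul_assoc, ha', hc', hca,
        ha'', hca', e1, e2, e3, e4, neg_mul, mul_neg, neg_neg, Units.val_mul, Units.val_neg]
      module
  · have sa : S.st a = a := by rw [S.st_eq_inv (hS h.ma), inv_eq_of_mul_eq_one_right ha]
    have sc : S.st c = c := by rw [S.st_eq_inv (hS h.mc), inv_eq_of_mul_eq_one_right hc]
    rw [S.mem_Iso]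
    change S.st Y * Y = 1
    rw [st_half h2, map_sub, map_add, map_add, S.st_one, S.st_mul, sa, sc, hca]
    exact hY
  · have t1 := hR.trace_zero h2 h.ma (not_sc_of_anti h2 h.swap.ba)
    have t2 := hR.trace_zero h2 h.mc (not_sc_of_anti h2 h.symm.swap.ba)
    have t3 := hR.trace_zero h2 (R.mul_mem h.ma h.mc) (not_sc_of_anti h2 (b := b) (by
      simp [mul_assoc, h.ba', h.cb]))
    rw [Units.val_mul] at t3
    refine ⟨?_, fun ⟨t, ht⟩ => ?_⟩
    · change Y.trace = 2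
      simp only [Y, trace_smul, trace_sub, trace_add, t1, t2, t3, trace_one, hn, smul_eq_mul]
      field_simp
      norm_num
    · change Y = _ at ht
      have := congrArg (fun M => ((a : Matrix n n F) * M).trace) ht
      simp only [Y, mul_smul_comm, mul_add, mul_sub, mul_one, ha', ha'', trace_smul, trace_sub,
        trace_add, t1, t2, t3, trace_one, hn, smul_eq_mul] at this
      field_simp at this
      exact mul_ne_zero h2 h2 (by push_cast at this; linear_combination this)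

theorem su2_three (h2 : (2 : F) ≠ 0) {a b : GL n F} (ha : a * a = -1) (hb : b * b = -1)
    (h : b * a = -(a * b)) :
    (-su2 h2 a ha b hb) ^ 3 = 1 ∧ ∀ M : Matrix n n F, M * a = a * M → M * b = b * M →
      (((-su2 h2 a ha b hb : GL n F) : Matrix n n F) * M).trace = -(2⁻¹ * M.trace) ∧
      (((-su2 h2 a ha b hb : GL n F) : Matrix n n F) ^ 2 * M).trace = -(2⁻¹ * M.trace) := by
  have ha' : (a : Matrix n n F) * a = -1 := congrArg Units.val ha
  have hb' : (b : Matrix n n F) * b = -1 := congrArg Units.val hb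
  have h' : (b : Matrix n n F) * a = -(a * b) := congrArg Units.val h
  have ha'' : ∀ x, (a : Matrix n n F) * (a * x) = -x := fun x => by
    rw [← mul_assoc, ha', neg_one_mul]
  have h'' : ∀ x, (b : Matrix n n F) * (a * x) = -(a * (b * x)) := fun x => by
    rw [← mul_assoc, h', neg_mul, mul_assoc]
  set Y : Matrix n n F := ((-su2 h2 a ha b hb : GL n F) : Matrix n n F) with hY
  have e1 : Y = -((2 : F)⁻¹ • (1 + a + b + a * b)) := by
    rw [hY, Units.val_neg, su2_val]; congr 2; noncomm_ring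
  have e2 : Y ^ 2 = -1 - Y := by
    have : (1 + a + b + a * b : Matrix n n F) * (1 + a + b + a * b) =
        (2 : F) • (1 + a + b + a * b) - (4 : F) • 1 := by
      simp only [add_mul, mul_add, one_mul, mul_one, mul_assoc, ha', hb', h', ha'', h'', mul_neg,
        neg_neg]
      module
    rw [e1, neg_sq, pow_two, smul_mul_smul_comm, this, smul_sub, smul_smul, smul_smul,
      show (2 : F)⁻¹ * 2⁻¹ * 4 = 1 by field_simp; norm_num,
      show (2 : F)⁻¹ * 2⁻¹ * 2 = 2⁻¹ by field_simp]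
    module
  refine ⟨Units.ext ?_, fun M h1 h3 => ?_⟩
  · rw [Units.val_pow_eq_pow_val, ← hY, pow_succ, e2, sub_mul, ← pow_two, e2]
    simp only [Units.val_one, neg_one_mul]
    abel
  · have t1 : ((a : Matrix n n F) * M).trace = 0 := trace_eq_zero h2 (b := b) (by
      rw [h'', mul_assoc, h3])
    have t2 : ((b : Matrix n n F) * M).trace = 0 := trace_eq_zero h2 (b := a) (by
      rw [mul_assoc, h1, h'', neg_neg])
    have t3 : ((a : Matrix n n F) * b * M).trace = 0 := trace_eq_zero h2 (b := a) (by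
      rw [mul_assoc, mul_assoc, mul_assoc, h1, h'', mul_neg, neg_neg])
    have t4 : (Y * M).trace = -(2⁻¹ * M.trace) := by
      simp only [e1, neg_mul, smul_mul_assoc, add_mul, trace_neg, trace_smul, trace_add, t1, t2, t3,
        one_mul, add_zero, smul_eq_mul]
    refine ⟨t4, ?_⟩
    rw [e2, sub_mul, trace_sub, t4, neg_one_mul, trace_neg]
    field_simp
    ring

theorem Pairs.exists_three [Finite F] (h2 : (2 : F) ≠ 0) (hn : Fintype.card n = 4)
    {R : Subgroup (GL n F)} (hR : Pauli R) {a b c d : GL n F} (h : Pairs R a b c d)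
    (ha : a * a = -1) (hb : b * b = -1) (hc : c * c = -1) (hd : d * d = -1) {t : F}
    (ht : t = 1 ∨ t = -2) : ∃ y ∈ NI R, y ^ 3 = 1 ∧ (y : Matrix n n F).trace = t ∧
      ((y : Matrix n n F) ^ 2).trace = t := by
  have m1 := le_NI R (hR.neg_one_mem h.mb h.ma h.ba)
  obtain ⟨e1, e2⟩ := su2_three h2 ha hb h.ba
  obtain ⟨e3, e4⟩ := su2_three h2 hc hd h.dc
  have m2 : -su2 h2 a ha b hb ∈ NI R := by
    rw [← neg_one_mul]; exact Subgroup.mul_mem _ m1 (hR.su2_mem h2 h.ma ha h.mb hb)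
  have m3 : -su2 h2 c hc d hd ∈ NI R := by
    rw [← neg_one_mul]; exact Subgroup.mul_mem _ m1 (hR.su2_mem h2 h.mc hc h.md hd)
  obtain ⟨e5, e6⟩ := e4 1 (by simp) (by simp)
  have e7 : -((2 : F)⁻¹ * (1 : Matrix n n F).trace) = -2 := by
    rw [trace_one, hn]; field_simp; norm_num
  rw [mul_one, e7] at e5 e6
  rcases ht with rfl | rfl
  · have k : ∀ g : GL n F, c * g = g * c → d * g = g * d →
        Commute ((-su2 h2 c hc d hd : GL n F) : Matrix n n F) g := fun g h1 h3 => by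
      rw [Units.val_neg, su2_val]
      exact ((((Commute.one_left _).add_left (congrArg Units.val h1)).mul_left
        ((Commute.one_left _).add_left (congrArg Units.val h3))).smul_left _).neg_left
    have k1 := k a h.ca h.da
    have k2 := k b h.cb h.db
    have k3 : Commute ((-su2 h2 a ha b hb : GL n F) : Matrix n n F)
        ((-su2 h2 c hc d hd : GL n F) : Matrix n n F) := by
      rw [Units.val_neg (su2 h2 a ha b hb), su2_val]
      exact ((((Commute.one_left _).add_left k1.symm).mul_left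
        ((Commute.one_left _).add_left k2.symm)).smul_left _).neg_left
    refine ⟨_, Subgroup.mul_mem _ m2 m3, ?_, ?_, ?_⟩
    · rw [Commute.mul_pow (Units.ext k3), e1, e3, one_mul]
    · rw [Units.val_mul, (e2 _ k1 k2).1, e5]; field_simp
    · rw [Units.val_mul, k3.mul_pow, (e2 _ (k1.pow_left 2) (k2.pow_left 2)).2, e6]; field_simp
  · exact ⟨_, m3, e3, e5, e6⟩

theorem su_inv (h2 : (2 : F) ≠ 0) {u v : GL n F} (hu : u * u = 1) (hv : v * v = 1)
    (h : v * u = -(u * v)) : ∃ hc : u * v * (u * v) = -1,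
      su h2 _ hc * u * (su h2 _ hc)⁻¹ = -v ∧ su h2 _ hc * v * (su h2 _ hc)⁻¹ = u ∧
      ∀ w, w * u = -(u * w) → w * v = -(v * w) → su h2 _ hc * w * (su h2 _ hc)⁻¹ = w := by
  have hu' : ∀ x, u * (u * x) = x := fun x => by rw [← mul_assoc, hu, one_mul]
  have h' : ∀ x, v * (u * x) = -(u * (v * x)) := fun x => by rw [← mul_assoc, h, neg_mul, mul_assoc]
  refine ⟨by simp [mul_assoc, h', hv, hu], ?_, ?_, fun w h3 h4 => su_comm _ _ ?_⟩
  · rw [su_anti _ _ (by simp [mul_assoc, h])]; simp [mul_assoc, h, hu']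
  · rw [su_anti _ _ (by simp [mul_assoc, h'])]; simp [mul_assoc, hv]
  · rw [← mul_assoc, h3, neg_mul, mul_assoc u w, h4]; simp [mul_assoc]

theorem Pairs.exists_five [Finite F] [Nonempty n] (h2 : (2 : F) ≠ 0)
    {R : Subgroup (GL n F)} (hR : Pauli R) {a b c d : GL n F} (h : Pairs R a b c d)
    (ha : a * a = 1) (hb : b * b = 1) (hc : c * c = -1) (hd : d * d = -1) :
    ∃ y ∈ NI R, y ^ 5 = 1 ∧ y ≠ 1 := by
  have ha' : ∀ x, a * (a * x) = x := fun x => by rw [← mul_assoc, ha, one_mul]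
  have hb' : ∀ x, b * (b * x) = x := fun x => by rw [← mul_assoc, hb, one_mul]
  have hc' : ∀ x, c * (c * x) = -x := fun x => by rw [← mul_assoc, hc, neg_one_mul]
  have hd' : ∀ x, d * (d * x) = -x := fun x => by rw [← mul_assoc, hd, neg_one_mul]
  let γ : Fin 5 → GL n F := ![a, b, a * b * c, a * b * d, a * b * (c * d)]
  have hm : ∀ i, γ i ∈ R := by
    have := h.ma; have := h.mb; have := h.mc; have := h.md
    intro i
    fin_cases i <;> simp only [γ] <;> apply_rules [Subgroup.mul_mem]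
  have h1 : ∀ i, γ i * γ i = 1 := by
    intro i
    fin_cases i <;> simp [γ, mul_assoc, ha, hb, hc, hd, ha', hb', hc', hd', h.ba, h.dc, h.ca, h.cb,
      h.da, h.db, h.ba', h.dc', h.ca', h.cb', h.da', h.db']
  have h3 : ∀ i j, i ≠ j → γ i * γ j = -(γ j * γ i) := by
    intro i j hij
    fin_cases i <;> fin_cases j <;> first
      | exact absurd rfl hij
      | simp [γ, mul_assoc, ha, hb, hc, hd, ha', hb', hc', hd', h.ba, h.dc, h.ca, h.cb,
          h.da, h.db, h.ba', h.dc', h.ca', h.cb', h.da', h.db']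
  clear_value γ
  obtain ⟨c0, a0, b0, d0⟩ := su_inv h2 (h1 0) (h1 1) (h3 1 0 (by decide))
  obtain ⟨c1, a1, b1, d1⟩ := su_inv h2 (h1 1) (h1 2) (h3 2 1 (by decide))
  obtain ⟨c2, a2, b2, d2⟩ := su_inv h2 (h1 2) (h1 3) (h3 3 2 (by decide))
  obtain ⟨c3, a3, b3, d3⟩ := su_inv h2 (h1 3) (h1 4) (h3 4 3 (by decide))
  have hy : su2 h2 _ c0 _ c1 * su2 h2 _ c2 _ c3 ∈ NI R := Subgroup.mul_mem _
    (hR.su2_mem h2 (R.mul_mem (hm _) (hm _)) _ (R.mul_mem (hm _) (hm _)) _)
    (hR.su2_mem h2 (R.mul_mem (hm _) (hm _)) _ (R.mul_mem (hm _) (hm _)) _)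
  have hcj : ∀ g, (su2 h2 _ c0 _ c1 * su2 h2 _ c2 _ c3) * g *
      (su2 h2 _ c0 _ c1 * su2 h2 _ c2 _ c3)⁻¹ = su h2 _ c0 * (su h2 _ c1 * (su h2 _ c2 *
        (su h2 _ c3 * g * (su h2 _ c3)⁻¹) * (su h2 _ c2)⁻¹) * (su h2 _ c1)⁻¹) * (su h2 _ c0)⁻¹ := by
    intro g
    rw [← conj_su2, ← conj_su2]
    group
  generalize su2 h2 _ c0 _ c1 * su2 h2 _ c2 _ c3 = y at hy hcj
  have hp : ∀ i, y * γ i * y⁻¹ = γ (i + 1) ∨ y * γ i * y⁻¹ = -γ (i + 1) := by
    have f0 : y * γ 0 * y⁻¹ = -γ 1 := by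
      rw [hcj, d3 _ (h3 0 3 (by decide)) (h3 0 4 (by decide)),
        d2 _ (h3 0 2 (by decide)) (h3 0 3 (by decide)),
        d1 _ (h3 0 1 (by decide)) (h3 0 2 (by decide)), a0]
    have f1 : y * γ 1 * y⁻¹ = -γ 2 := by
      rw [hcj, d3 _ (h3 1 3 (by decide)) (h3 1 4 (by decide)),
        d2 _ (h3 1 2 (by decide)) (h3 1 3 (by decide)), a1, mul_neg, neg_mul,
        d0 _ (h3 2 0 (by decide)) (h3 2 1 (by decide))]
    have f2 : y * γ 2 * y⁻¹ = -γ 3 := by
      rw [hcj, d3 _ (h3 2 3 (by decide)) (h3 2 4 (by decide)), a2, mul_neg, neg_mul,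
        d1 _ (h3 3 1 (by decide)) (h3 3 2 (by decide)), mul_neg, neg_mul,
        d0 _ (h3 3 0 (by decide)) (h3 3 1 (by decide))]
    have f3 : y * γ 3 * y⁻¹ = -γ 4 := by
      rw [hcj, a3, mul_neg, neg_mul,
        d2 _ (h3 4 2 (by decide)) (h3 4 3 (by decide)), mul_neg, neg_mul,
        d1 _ (h3 4 1 (by decide)) (h3 4 2 (by decide)), mul_neg, neg_mul,
        d0 _ (h3 4 0 (by decide)) (h3 4 1 (by decide))]
    have f4 : y * γ 4 * y⁻¹ = γ 0 := by rw [hcj, b3, b2, b1, b0]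
    intro i
    fin_cases i
    exacts [Or.inr f0, Or.inr f1, Or.inr f2, Or.inr f3, Or.inl f4]
  have hq : ∀ m : ℕ, y ^ m * γ 0 * (y ^ m)⁻¹ = γ (Fin.ofNat 5 m) ∨
      y ^ m * γ 0 * (y ^ m)⁻¹ = -γ (Fin.ofNat 5 m) := by
    intro m
    induction m with
    | zero => left; simp
    | succ m ih =>
      have e : y ^ (m + 1) * γ 0 * (y ^ (m + 1))⁻¹ = y * (y ^ m * γ 0 * (y ^ m)⁻¹) * y⁻¹ := by
        rw [pow_succ']; group
      have e' : Fin.ofNat 5 (m + 1) = Fin.ofNat 5 m + 1 := by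
        apply Fin.ext; simp [Fin.val_add]
      rw [e, e']
      rcases ih with e1 | e1 <;> rcases hp (Fin.ofNat 5 m) with e2 | e2 <;>
        simp only [e1, e2, mul_neg, neg_mul, neg_neg, true_or, or_true]
  have h5 : 5 ∣ orderOf y := by
    by_contra hn
    have h6 := h3 (Fin.ofNat 5 (orderOf y)) 0 fun e => hn (Nat.dvd_of_mod_eq_zero (congrArg Fin.val e))
    have h7 := hq (orderOf y)
    rw [pow_orderOf_eq_one, one_mul, inv_one, mul_one] at h7
    rcases h7 with e | e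
    · rw [← e] at h6; exact ne_neg h2 _ h6
    · rw [← neg_eq_iff_eq_neg.mpr e, neg_mul, mul_neg] at h6; exact ne_neg h2 _ h6
  have h6 := orderOf_pow_orderOf_div (orderOf_pos y).ne' h5
  refine ⟨_, Subgroup.pow_mem _ hy (orderOf y / 5), by
    rw [← pow_mul, Nat.div_mul_cancel h5, pow_orderOf_eq_one], fun e => ?_⟩
  rw [e, orderOf_one] at h6
  omega

theorem Pauli.exists_fixed [Finite F] [Nonempty n] (h2 : (2 : F) ≠ 0) {R : Subgroup (GL n F)}
    (hR : Pauli R) (hm : Geo.IsOfMinusType 2 R) (hZ : ∀ a ∈ R, Sc a → a * a = 1) {a : GL n F}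
    (ma : a ∈ R) (ha : a * a = 1) (na : ¬ Sc a) {y : GL n F}
    (hy : y ∈ Subgroup.normalizer (R : Set (GL n F))) (hy3 : Sc (y ^ 3))
    (hf : ∀ a ∈ R, y * a = a * y → Sc a) : False := by
  have hn : ∀ g ∈ R, y * g * y⁻¹ ∈ R := fun g hg => (Subgroup.mem_normalizer_iff.mp hy g).mp hg
  have hs : ∀ g, ¬ Sc g → ¬ Sc (y * g * y⁻¹) := fun g h e => h (by simpa [mul_assoc] using e.conj y)
  obtain ⟨b', mb', hb'⟩ := hR.exists_anti ma na
  have m1 := hR.neg_one_mem ma mb' hb'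
  set b := y * a * y⁻¹ with hb
  set c := y * b * y⁻¹ with hc
  have mb := hn a ma
  have mc := hn b mb
  have e1 : y * c * y⁻¹ = a := by
    rw [← hy3.conj_eq a, hc, hb, pow_succ, pow_two]; group
  have hbb : b * b = 1 := by rw [hb, conj_mul, ha]; simp
  have hcc : c * c = 1 := by rw [hc, conj_mul, hbb]; simp
  have e2 : y * (a * b * c) * y⁻¹ = b * c * a := by
    rw [← conj_mul, ← conj_mul, ← hb, ← hc, e1]
  have mabc := R.mul_mem (R.mul_mem ma mb) mc
  have e3 : Sc (a * b * c) := hf _ mabc (hR.comm_of_sc hy (by decide) hy3 mabc (by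
    rw [e2, mul_assoc a b c]
    rcases hR.comm a ma _ (R.mul_mem mb mc) with e | e
    · rw [e, mul_inv_cancel]; exact sc_one
    · rw [e, inv_neg, mul_neg, mul_inv_cancel]; exact sc_one.neg))
  have e4 : a * b = a * b * c * c := by rw [mul_assoc _ c, hcc, mul_one]
  have e5 : a * b * (a * b) = 1 := by
    have e6 := hZ _ mabc e3
    rw [e4]
    generalize a * b * c = z at e3 e6
    rw [mul_assoc z c, ← mul_assoc c, ← e3.comm c, mul_assoc z c, hcc, mul_one, e6]
  refine no_e8 h2 hm m1 ma mb ha hbb ?_ na (hs a na) fun e => hs b (hs a na) ?_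
  · rw [← inv_eq_of_mul_eq_one_right e5, _root_.mul_inv_rev, inv_eq_of_mul_eq_one_right ha,
      inv_eq_of_mul_eq_one_right hbb]
  · have := e.inv.mul e3
    rwa [inv_mul_cancel_left] at this

end Cfsg.Agent.H2.SympType
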