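import Mathlib
import Cfsg.Agent.H2.Nor4

/-!
Elements of prime order modulo scalars and conjugacy into a subgroup: general tools.
-/

set_option autoImplicit false

namespace Cfsg.Agent.H2.SympType

open Matrix Wall Polynomial

variable {F : Type*} [Field F] {n : Type} [Fintype n] [DecidableEq n]

/-- Every element of `G` of order `r` modulo scalars is conjugate into `N`. -/
def Elus (G N : Subgroup (GL n F)) (r : ℕ) : Prop :=
  ∀ x ∈ G, Sc (x ^ r) → ¬ Sc x → ∃ g ∈ G, g⁻¹ * x * g ∈ N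

theorem elus_iff (G N : Subgroup (GL n F)) (r : ℕ) :
    (∀ x ∈ G, (∃ z : F, ((x ^ r : GL n F) : Matrix n n F) = z • (1 : Matrix n n F)) →
      (∀ z : F, (x : Matrix n n F) ≠ z • (1 : Matrix n n F)) → ∃ g ∈ G, g⁻¹ * x * g ∈ N) ↔
    Elus G N r := by
  simp only [Elus, Sc, not_exists]

theorem mem_SL {g : GL n F} : g ∈ Geo.specialLinear n F ↔ (g : Matrix n n F).det = 1 := by
  rw [Geo.specialLinear, MonoidHom.mem_ker, Units.ext_iff]; rfl

theorem Sc.pow_card {x : GL n F} (h : Sc x) (hd : (x : Matrix n n F).det = 1) :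
    x ^ Fintype.card n = 1 := by
  obtain ⟨c, hc⟩ := h
  rw [hc, det_smul, det_one, mul_one] at hd
  exact Units.ext (by rw [Units.val_pow_eq_pow_val, hc, _root_.smul_pow, hd]; simp)

theorem elus_of_order [Finite F] {G R : Subgroup (GL n F)} (hG : G ≤ Geo.specialLinear n F)
    {r : ℕ} (hr : r.Coprime (Fintype.card n))
    (H : ∀ x ∈ G, x ^ r = 1 → x ≠ 1 →
      ∃ g ∈ G, g⁻¹ * x * g ∈ Subgroup.normalizer (R : Set (GL n F))) :
    Elus G (Subgroup.normalizer (R : Set (GL n F))) r := by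
  intro x hx h1 h2
  have h3 := h1.pow_card (mem_SL.mp (hG (G.pow_mem hx r)))
  obtain ⟨m, hm⟩ := exists_pow_eq_self_of_coprime
    (hr.coprime_dvd_right (orderOf_dvd_of_pow_eq_one h3))
  have hc := h1.pow m
  obtain ⟨g, hg, h4⟩ := H (((x ^ r) ^ m)⁻¹ * x)
    (G.mul_mem (G.inv_mem (G.pow_mem (G.pow_mem hx r) m)) hx) (by
      rw [Commute.mul_pow (hc.inv.comm x), inv_pow, pow_right_comm, hm, inv_mul_cancel])
    (fun e => h2 (inv_mul_eq_one.mp e ▸ hc))
  refine ⟨g, hg, ?_⟩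
  have := Subgroup.mul_mem _ hc.mem_normalizer h4
  rwa [← mul_assoc, ← mul_assoc, hc.comm g⁻¹, mul_assoc g⁻¹, mul_inv_cancel_left] at this

theorem exists_order [Finite F] {G N : Subgroup (GL n F)} (hG : G ≤ Geo.specialLinear n F)
    {r : ℕ} [hp : Fact r.Prime] (hr : r.Coprime (Fintype.card n)) (h : r ∣ N.relIndex G) :
    ∃ x ∈ G, x ^ r = 1 ∧ ¬ Sc x := by
  obtain ⟨x, hx⟩ := exists_prime_orderOf_dvd_card' r (h.trans (Subgroup.relIndex_dvd_card _ _))
  rw [← Subgroup.orderOf_coe] at hx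
  refine ⟨x, x.2, by rw [← hx, pow_orderOf_eq_one], fun e => ?_⟩
  have := orderOf_dvd_of_pow_eq_one (e.pow_card (mem_SL.mp (hG x.2)))
  rw [hx] at this
  exact hp.out.one_lt.ne' (hr.eq_one_of_dvd this)

theorem trace_conj' (g x : GL n F) :
    ((g⁻¹ * x * g : GL n F) : Matrix n n F).trace = (x : Matrix n n F).trace := by
  rw [Units.val_mul, Units.val_mul, trace_mul_cycle, Units.mul_inv, one_mul]

theorem sc_conj_iff {g x : GL n F} : Sc (g⁻¹ * x * g) ↔ Sc x :=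
  ⟨fun h => by simpa [mul_assoc] using h.conj g⁻¹, fun h => h.conj g⟩

theorem conj_pow' (g x : GL n F) (r : ℕ) : (g⁻¹ * x * g) ^ r = g⁻¹ * x ^ r * g := by
  simpa using conj_pow (a := g⁻¹) (b := x) (i := r)

section Bad

variable {G R : Subgroup (GL n F)} {r : ℕ}

theorem Elus.not_hyp (H : Elus G (Subgroup.normalizer (R : Set (GL n F))) r) (hR : Pauli R)
    (h2 : (2 : F) ≠ 0) (hn : 2 < Fintype.card n) (hr : Odd r) {x : GL n F} (hx : x ∈ G)
    (h1 : Sc (x ^ r)) (h3 : ¬ Sc x) : ¬ Hyp x := fun h => by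
  obtain ⟨g, -, hg⟩ := H x hx h1 h3
  exact hR.not_hyp h2 hn hg hr (by rw [conj_pow']; exact h1.conj g) (by rwa [sc_conj_iff])
    (h.conj g)

theorem Elus.cases [Finite F] (H : Elus G (Subgroup.normalizer (R : Set (GL n F))) r)
    (hR : Pauli R) (h2 : (2 : F) ≠ 0) (hn : Fintype.card n = 4) {k : ℕ}
    (hZ : Nat.card (Subgroup.center R) = 2 ^ k) (hc : Nat.card R = 16 * 2 ^ k) [Fact r.Prime]
    (hr : r ≠ 2) {x : GL n F} (hx : x ∈ G) (h1 : Sc (x ^ r)) (h3 : ¬ Sc x) :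
    ((r = 3 ∨ r = 5) ∧ (x : Matrix n n F).trace * ((x⁻¹ : GL n F) : Matrix n n F).trace = 1 ∧
      ∃ y ∈ Subgroup.normalizer (R : Set (GL n F)), Sc (y ^ r) ∧ ∀ a ∈ R, y * a = a * y → Sc a) ∨
    (r = 3 ∧ (x : Matrix n n F).trace * ((x⁻¹ : GL n F) : Matrix n n F).trace = 4) := by
  obtain ⟨g, -, hg⟩ := H x hx h1 h3
  have h4 : Sc ((g⁻¹ * x * g) ^ r) := by rw [conj_pow']; exact h1.conj g
  have := hR.odd_prime_cases h2 hn hZ hc hg hr h4 (by rwa [sc_conj_iff])
  rw [show (g⁻¹ * x * g)⁻¹ = g⁻¹ * x⁻¹ * g by group, trace_conj', trace_conj'] at this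
  exact this.imp (fun h => ⟨h.1, h.2.1, _, hg, h4, h.2.2⟩) id

end Bad

/-- Diagonal units. -/
def dg (d : n → F) (h : ∀ i, d i ≠ 0) : GL n F :=
  ⟨diagonal d, diagonal fun i => (d i)⁻¹, by simp [diagonal_mul_diagonal, h],
    by simp [diagonal_mul_diagonal, h]⟩

theorem dg_val (d : n → F) (h : ∀ i, d i ≠ 0) : ((dg d h : GL n F) : Matrix n n F) = diagonal d :=
  rfl

theorem sc_dg {d : n → F} {h : ∀ i, d i ≠ 0} (e : Sc (dg d h)) (i j : n) : d i = d j := by
  obtain ⟨c, hc⟩ := e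
  have h1 := congrFun (congrFun hc i) i
  have h2 := congrFun (congrFun hc j) j
  simp [dg_val] at h1 h2
  rw [h1, h2]

theorem dg_pow {d : n → F} {h : ∀ i, d i ≠ 0} {r : ℕ} {z : F} (e : ∀ i, d i ^ r = z) :
    Sc (dg d h ^ r) := ⟨z, by
  rw [Units.val_pow_eq_pow_val, dg_val, diagonal_pow, smul_one_eq_diagonal]
  congr 1; funext i; exact e i⟩

theorem hyp_dg {d : n → F} {h : ∀ i, d i ≠ 0} (i : n) {l : F} (e : ∀ j, j ≠ i → d j = l) :
    Hyp (dg d h) := ⟨l, Pi.single i 1, fun u hu => by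
  funext j
  rw [dg_val, mulVec_diagonal]
  by_cases hj : j = i
  · subst hj
    have : u j = 0 := by simpa using hu
    simp [this]
  · simp [e j hj]⟩

theorem dg_mem_u {σ : F →+* F} {hσ : ∀ a, σ (σ a) = a} {d : n → F} {h : ∀ i, d i ≠ 0}
    (e : ∀ i, d i * σ (d i) = 1) : dg d h ∈ (uAdj n σ hσ).Iso := by
  rw [Adj.mem_Iso, uAdj_apply, dg_val, diagonal_map (map_zero _), diagonal_transpose,
    diagonal_mul_diagonal, ← diagonal_one]
  congr 1; funext i; rw [mul_comm, e]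

/-- A matrix of determinant one as a unit. -/
def GL2 (a b c d : F) (h : a * d - b * c = 1) : GL (Fin 2) F :=
  ⟨!![a, b; c, d], !![d, -b; -c, a], by
    ext i j; fin_cases i <;> fin_cases j <;> simp [mul_apply, Fin.sum_univ_two] <;> grind, by
    ext i j; fin_cases i <;> fin_cases j <;> simp [mul_apply, Fin.sum_univ_two] <;> grind⟩

theorem GL2_val (a b c d : F) (h : a * d - b * c = 1) :
    ((GL2 a b c d h : GL (Fin 2) F) : Matrix (Fin 2) (Fin 2) F) = !![a, b; c, d] := rfl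

theorem GL2_inv (a b c d : F) (h : a * d - b * c = 1) :
    (((GL2 a b c d h)⁻¹ : GL (Fin 2) F) : Matrix (Fin 2) (Fin 2) F) = !![d, -b; -c, a] := rfl

theorem GL2_sq (a b c d : F) (h : a * d - b * c = 1) :
    aeval (!![a, b; c, d] : Matrix (Fin 2) (Fin 2) F) (X ^ 2 - C (a + d) * X + 1 : F[X]) = 0 := by
  simp only [map_add, map_sub, map_mul, map_pow, aeval_X, aeval_C, map_one,
    Algebra.algebraMap_eq_smul_one]
  ext i j; fin_cases i <;> fin_cases j <;> simp [pow_two, mul_apply, Fin.sum_univ_two] <;> grind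

theorem GL2_pow (a b c d : F) (h : a * d - b * c = 1) {r : ℕ}
    (hr : X ^ 2 - C (a + d) * X + 1 ∣ (X ^ r - 1 : F[X])) : GL2 a b c d h ^ r = 1 := by
  obtain ⟨q, hq⟩ := hr
  apply Units.ext
  rw [Units.val_pow_eq_pow_val, GL2_val, Units.val_one, ← H8.aeval_X_pow_sub_one_eq_zero_iff (F := F),
    hq, map_mul, GL2_sq a b c d h, zero_mul]

theorem GL2_three (a b c d : F) (h : a * d - b * c = 1) (ht : a + d = -1) :
    GL2 a b c d h ^ 3 = 1 :=
  GL2_pow a b c d h ⟨X - 1, by rw [ht, C_neg, C_1]; ring⟩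

theorem GL2_five (a b c d : F) (h : a * d - b * c = 1) (ht : (a + d) ^ 2 + (a + d) - 1 = 0) :
    GL2 a b c d h ^ 5 = 1 := by
  refine GL2_pow a b c d h ⟨(X - 1) * (X ^ 2 + (1 + C (a + d)) * X + 1), ?_⟩
  have := congrArg C ht
  simp only [C_add, C_sub, C_pow, C_1, C_0] at this ⊢
  linear_combination (X - 1) * X ^ 2 * this

theorem GL2_char (p : ℕ) [hp : Fact p.Prime] [CharP F p] (a b c d : F) (h : a * d - b * c = 1)
    (ht : a + d = 2) : GL2 a b c d h ^ p = 1 := by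
  refine GL2_pow a b c d h ?_
  rw [ht, show (X ^ 2 - C 2 * X + 1 : F[X]) = (X - 1) ^ 2 by rw [map_ofNat]; ring,
    show (X ^ p - 1 : F[X]) = (X - 1) ^ p by rw [sub_pow_char, one_pow]]
  exact pow_dvd_pow _ hp.out.two_le

/-- The matrix of an embedding of index sets. -/
def U2 (F : Type*) [Field F] (f : Fin 2 ↪ n) : Matrix n (Fin 2) F :=
  of fun i a => if i = f a then 1 else 0

theorem U2_mul (f : Fin 2 ↪ n) : (U2 F f)ᵀ * U2 F f = 1 := by
  ext a b
  simp [U2, mul_apply, one_apply, eq_comm]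

/-- The embedding of two by two matrices along an embedding of index sets. -/
def emb (f : Fin 2 ↪ n) : Matrix (Fin 2) (Fin 2) F →* Matrix n n F where
  toFun B := 1 + U2 F f * (B - 1) * (U2 F f)ᵀ
  map_one' := by simp
  map_mul' A B := by
    have : U2 F f * (A - 1) * (U2 F f)ᵀ * (U2 F f * (B - 1) * (U2 F f)ᵀ) =
        U2 F f * ((A - 1) * (B - 1)) * (U2 F f)ᵀ := by
      simp only [Matrix.mul_assoc]
      rw [← Matrix.mul_assoc (U2 F f)ᵀ, U2_mul, Matrix.one_mul]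
    rw [add_mul, mul_add, mul_add, this, one_mul, one_mul, mul_one, add_assoc, ← Matrix.add_mul,
      ← Matrix.add_mul, ← Matrix.mul_add, ← Matrix.mul_add]
    congr 3
    noncomm_ring

/-- The embedding of `GL 2`. -/
def E2 (f : Fin 2 ↪ n) : GL (Fin 2) F →* GL n F := Units.map (emb f)

theorem E2_val (f : Fin 2 ↪ n) (B : GL (Fin 2) F) :
    (E2 f B : Matrix n n F) = 1 + U2 F f * ((B : Matrix (Fin 2) (Fin 2) F) - 1) * (U2 F f)ᵀ := rfl

theorem E2_det (f : Fin 2 ↪ n) (B : GL (Fin 2) F) :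
    (E2 f B : Matrix n n F).det = (B : Matrix (Fin 2) (Fin 2) F).det := by
  rw [E2_val, Matrix.mul_assoc, det_one_add_mul_comm, Matrix.mul_assoc, U2_mul]
  simp

theorem E2_trace (f : Fin 2 ↪ n) (B : GL (Fin 2) F) :
    (E2 f B : Matrix n n F).trace = Fintype.card n - 2 + (B : Matrix (Fin 2) (Fin 2) F).trace := by
  rw [E2_val, trace_add, trace_mul_cycle, U2_mul, trace_one, Matrix.one_mul, trace_sub, trace_one]
  simp only [Fintype.card_fin, Nat.cast_ofNat]
  ring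

theorem E2_sc {f : Fin 2 ↪ n} {B : GL (Fin 2) F} (h : Sc (E2 f B)) : Sc B := by
  obtain ⟨c, hc⟩ := h
  have := congrArg (fun M => (U2 F f)ᵀ * M * U2 F f) hc
  simp only [E2_val, Matrix.mul_add, Matrix.add_mul, Matrix.mul_one, U2_mul, Matrix.mul_smul,
    Matrix.smul_mul, Matrix.mul_assoc] at this
  rw [← Matrix.mul_assoc, U2_mul, Matrix.one_mul, add_sub_cancel] at this
  exact ⟨c, this⟩

theorem E2_hyp (f : Fin 2 ↪ n) {B : GL (Fin 2) F} {u w : Fin 2 → F}
    (h : (B : Matrix (Fin 2) (Fin 2) F) - 1 = vecMulVec u w) : Hyp (E2 f B) :=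
  ⟨1, w ᵥ* (U2 F f)ᵀ, fun v hv => by
    rw [← dotProduct_mulVec] at hv
    rw [E2_val, add_mulVec, ← mulVec_mulVec, ← mulVec_mulVec, h, vecMulVec_mulVec, hv]
    simp⟩

theorem E2_mem_u {σ : F →+* F} {hσ : ∀ a, σ (σ a) = a} (f : Fin 2 ↪ n) {B : GL (Fin 2) F}
    (h : B ∈ (uAdj (Fin 2) σ hσ).Iso) : E2 f B ∈ (uAdj n σ hσ).Iso := by
  have h1 := Adj.st_eq_inv _ h
  have h2 : (U2 F f).map σ = U2 F f := by
    ext i a; simp only [U2, map_apply, of_apply]; split_ifs <;> simp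
  refine Adj.mem_Iso' _ ?_
  rw [show (uAdj n σ hσ).st (E2 f B) = E2 f B⁻¹ from ?_, ← Units.val_mul, ← map_mul]
  · simp
  · rw [E2_val, E2_val, ← h1, map_add, Adj.st_one, uAdj_apply, uAdj_apply, Matrix.map_mul,
      Matrix.map_mul, transpose_map, h2, transpose_mul, transpose_mul, transpose_transpose,
      Matrix.mul_assoc, Matrix.map_sub _ (map_sub σ), Matrix.map_one _ (map_zero σ) (map_one σ),
      transpose_sub, transpose_one]

theorem GL2_mem_u {σ : F →+* F} {hσ : ∀ a, σ (σ a) = a} (a b : F)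
    (h : a * σ a - b * -σ b = 1) : GL2 a b (-σ b) (σ a) h ∈ (uAdj (Fin 2) σ hσ).Iso := by
  refine Adj.mem_Iso' _ ?_
  rw [← Units.mul_inv (GL2 a b (-σ b) (σ a) h)]
  congr 1
  rw [uAdj_apply, GL2_inv, GL2_val]
  ext i j; fin_cases i <;> fin_cases j <;> simp [hσ]

/-- The first hyperbolic pair. -/
def fsp : Fin 2 ↪ Fin 2 ⊕ Fin 2 := ⟨![Sum.inl 0, Sum.inr 0], by decide⟩

theorem E2_mem_sp (a b c d : F) (h : a * d - b * c = 1) : E2 fsp (GL2 a b c d h) ∈ spGL 2 F := by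
  have : (E2 fsp (GL2 a b c d h) : Matrix _ _ F) =
      fromBlocks !![a, 0; 0, 1] !![b, 0; 0, 0] !![c, 0; 0, 0] !![d, 0; 0, 1] := by
    rw [E2_val, GL2_val]
    ext i j
    rcases i with i | i <;> rcases j with j | j <;> fin_cases i <;> fin_cases j <;>
      simp [U2, fsp, mul_apply, Fin.sum_univ_two, one_apply]
  rw [mem_sp_iff', this, J, fromBlocks_transpose, fromBlocks_multiply, fromBlocks_multiply]
  congr 1 <;> ext i j <;> fin_cases i <;> fin_cases j <;>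
    simp [mul_apply, Fin.sum_univ_two] <;> grind

theorem sp_le_SL (m : ℕ) : spGL m F ≤ Geo.specialLinear _ F := fun g hg =>
  mem_SL.mpr (SymplecticGroup.det_eq_one (SymplecticGroup.mem_iff'.mpr ((mem_sp_iff' g).mp hg)))

section Bad2

variable {G R : Subgroup (GL n F)}

theorem Elus.bad_five [Finite F] (H : Elus G (Subgroup.normalizer (R : Set (GL n F))) 5)
    (hR : Pauli R) (h2 : (2 : F) ≠ 0) (hn : Fintype.card n = 4) {k : ℕ}
    (hZ : Nat.card (Subgroup.center R) = 2 ^ k) (hc : Nat.card R = 16 * 2 ^ k) (h5 : (5 : F) ≠ 0)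
    {f : Fin 2 ↪ n} {a b c d : F} {h : a * d - b * c = 1} (hx : E2 f (GL2 a b c d h) ∈ G)
    (ht : (a + d) ^ 2 + (a + d) - 1 = 0) : False := by
  haveI : Fact (Nat.Prime 5) := ⟨by norm_num⟩
  have := H.cases hR h2 hn hZ hc (by norm_num) hx
    (by rw [← map_pow, GL2_five a b c d h ht, map_one]; exact sc_one) (fun e => by
      obtain ⟨z, hz⟩ := E2_sc e
      have e1 := congrFun (congrFun hz 0) 0
      have e2 := congrFun (congrFun hz 0) 1
      have e3 := congrFun (congrFun hz 1) 1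
      simp [GL2_val] at e1 e2 e3
      grind)
  rw [← map_inv, E2_trace, E2_trace, GL2_val, GL2_inv, trace_fin_two_of, trace_fin_two_of, hn] at this
  rcases this with ⟨-, e, -⟩ | ⟨e, -⟩
  · push_cast at e
    grind
  · omega

theorem Elus.bad_char (p : ℕ) [hp : Fact p.Prime] [CharP F p]
    (H : Elus G (Subgroup.normalizer (R : Set (GL n F))) p) (hR : Pauli R)
    (h2 : (2 : F) ≠ 0) (hn : 2 < Fintype.card n) (hr : Odd p)
    {f : Fin 2 ↪ n} {a b c d : F} {h : a * d - b * c = 1} (hx : E2 f (GL2 a b c d h) ∈ G)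
    (ht : a + d = 2) (hb : b ≠ 0) : False := by
  refine H.not_hyp hR h2 hn hr hx
    (by rw [← map_pow, GL2_char p a b c d h ht, map_one]; exact sc_one) (fun e => ?_)
    (E2_hyp f (u := ![1, (d - 1) / b]) (w := ![a - 1, b]) ?_)
  · obtain ⟨z, hz⟩ := E2_sc e
    have e2 := congrFun (congrFun hz 0) 1
    simp [GL2_val, hb] at e2
  · rw [GL2_val]
    ext i j; fin_cases i <;> fin_cases j <;> simp [vecMulVec_apply] <;> field_simp
    grind

end Bad2

theorem exists_tau (p : ℕ) [hp : Fact p.Prime] [CharP F p] (h2 : (2 : F) ≠ 0)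
    (h : p % 5 = 1 ∨ p % 5 = 4) : ∃ τ : F, τ ^ 2 + τ - 1 = 0 ∧ τ ^ p = τ := by
  haveI : Fact (Nat.Prime 5) := ⟨by norm_num⟩
  have hp2 : p ≠ 2 := by omega
  obtain ⟨s, hs⟩ := (ZMod.exists_sq_eq_prime_iff_of_mod_four_eq_one (p := 5) (q := p) (by norm_num)
    hp2).mp (by
      rw [← ZMod.natCast_mod]
      rcases h with e | e <;> rw [e]
      exacts [⟨1, by norm_num⟩, ⟨2, by norm_num⟩])
  let φ := ZMod.castHom (dvd_refl p) F
  have h1 : φ s * φ s = 5 := by rw [← map_mul, ← hs, map_natCast]; norm_num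
  refine ⟨(φ s - 1) / 2, by field_simp; linear_combination h1, ?_⟩
  have h3 : (2 : ZMod p) ≠ 0 := fun e => h2 (by rw [← map_ofNat φ, e, map_zero])
  rw [← map_ofNat φ, ← map_one φ, ← map_sub, ← map_div₀, ← map_pow, ZMod.pow_card]

theorem orderOf_five {p : ℕ} : orderOf (p : ZMod 5) = 4 ↔ p % 5 = 2 ∨ p % 5 = 3 := by
  rw [← ZMod.natCast_mod]
  have h : p % 5 < 5 := Nat.mod_lt _ (by norm_num)
  have key : ∀ a : ZMod 5, orderOf a = 4 ↔ a ^ 4 = 1 ∧ ∀ m < 4, 0 < m → a ^ m ≠ 1 := fun a =>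
    orderOf_eq_iff (by norm_num)
  rw [key]
  generalize p % 5 = k at h
  interval_cases k <;> decide

end Cfsg.Agent.H2.SympType
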