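import Mathlib
import Cfsg.Agent.H2.Elus

/-!
Conjugacy of elements of small order in classical groups.
-/

set_option autoImplicit false

namespace Cfsg.Agent.H2.SympType

open Matrix Wall Polynomial Cls

variable {F : Type*} [Field F] {n : Type} [Fintype n] [DecidableEq n]

theorem Sc.ne_zero [Nonempty n] {x : GL n F} {z : F} (h : (x : Matrix n n F) = z • 1) : z ≠ 0 := by
  rintro rfl
  exact x.ne_zero (by rw [h, zero_smul])

theorem conj_pow_of {x y : GL n F} {r : ℕ} (hr : (r : F) ≠ 0) {z : F} (hz : z ≠ 0)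
    (hx : (x : Matrix n n F) ^ r = z • 1) (hy : (y : Matrix n n F) ^ r = z • 1)
    (h : (x : Matrix n n F).charpoly = (y : Matrix n n F).charpoly) :
    ∃ P : GL n F, P⁻¹ * x * P = y := by
  obtain ⟨P, hP⟩ := conj_of_charpoly (separable_X_pow_sub_C z hr hz).squarefree
    ((H8.aeval_X_pow_sub_C_eq_zero_iff _ r z).mpr hx)
    ((H8.aeval_X_pow_sub_C_eq_zero_iff _ r z).mpr hy) h
  exact ⟨P, Units.ext hP⟩

theorem sl_conj [Finite F] [Nonempty n] {x y P : GL n F} {r : ℕ} (hr : (r : F) ≠ 0) {z : F}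
    (hz : z ≠ 0) (hx : (x : Matrix n n F) ^ r = z • 1) (hP : P⁻¹ * x * P = y) :
    ∃ g ∈ Geo.specialLinear n F, g⁻¹ * x * g = y := by
  obtain ⟨Q, h1, h2⟩ := H8.exists_conj_det_one_of_squarefree
    (separable_X_pow_sub_C z hr hz).squarefree ((H8.aeval_X_pow_sub_C_eq_zero_iff _ r z).mpr hx) P
    (congrArg Units.val hP)
  exact ⟨Q, mem_SL.mpr h1, Units.ext h2⟩

theorem conj_two (h2 : (2 : F) ≠ 0) (hn : Fintype.card n = 4) {x y : GL n F} {z : F}
    (hx : (x : Matrix n n F) ^ 2 = z • 1) (hy : (y : Matrix n n F) ^ 2 = z • 1) (nx : ¬ Sc x)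
    (ny : ¬ Sc y) (ht : (x : Matrix n n F).trace = (y : Matrix n n F).trace) :
    ∃ P : GL n F, P⁻¹ * x * P = y := by
  haveI : Nonempty n := Fintype.card_pos_iff.mp (by omega)
  have hz : z ≠ 0 := Sc.ne_zero (x := x ^ 2) hx
  refine conj_pow_of (by exact_mod_cast h2) hz hx hy ?_
  rcases class_two h2 hn hz hx (not_exists.mp nx) with ⟨a, -, b⟩ | ⟨a, -, b⟩ <;>
    rcases class_two h2 hn hz hy (not_exists.mp ny) with ⟨c, -, d⟩ | ⟨c, -, d⟩
  · rw [b, d]
  · exact absurd (ht ▸ a) c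
  · exact absurd (ht ▸ c) a
  · rw [b, d, ht]

theorem two_cases (h2 : (2 : F) ≠ 0) (hn : Fintype.card n = 4) {x : GL n F}
    (hd : (x : Matrix n n F).det = 1) (hx : Sc (x ^ 2)) (nx : ¬ Sc x) :
    ((x * x = 1 ∨ x * x = -1) ∧ (x : Matrix n n F).trace = 0) ∨
      ∃ s : F, s ^ 4 = -1 ∧ (x : Matrix n n F).trace = 2 * s ∧
        (x : Matrix n n F) ^ 2 = s ^ 2 • 1 := by
  haveI : Nonempty n := Fintype.card_pos_iff.mp (by omega)
  obtain ⟨z, hz⟩ := hx
  rw [Units.val_pow_eq_pow_val] at hz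
  rcases class_two h2 hn (Sc.ne_zero (x := x ^ 2) hz) hz (not_exists.mp nx) with
    ⟨a, b, -⟩ | ⟨-, b, c⟩
  · refine Or.inl ⟨?_, a⟩
    rw [hd, eq_comm, sq_eq_one_iff] at b
    rw [pow_two] at hz
    rcases b with rfl | rfl
    · left; exact Units.ext (by simpa using hz)
    · right; exact Units.ext (by simpa using hz)
  · refine Or.inr ⟨_ / 2, ?_, by field_simp, by rw [b, hz]⟩
    rw [det_eq_sign_charpoly_coeff, c, hn, coeff_zero_eq_eval_zero] at hd
    simp only [eval_mul, eval_pow, eval_sub, eval_X, eval_C, eval_add] at hd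
    linear_combination -hd

theorem elus_two [Finite F] (h2 : (2 : F) ≠ 0) (hn : Fintype.card n = 4) {R : Subgroup (GL n F)}
    (hR : Pauli R) (hZ : Nat.card (Subgroup.center R) = 4) (hc : Nat.card R = 16 * 4)
    {x : GL n F} (hd : (x : Matrix n n F).det = 1) (hx : Sc (x ^ 2)) (nx : ¬ Sc x) :
    ∃ (s : F) (hs : s ≠ 0), ((s = 1 ∧ (x * x = 1 ∨ x * x = -1)) ∨
      ((x : Matrix n n F).trace = 2 * s ∧ (x : Matrix n n F) ^ 2 = s ^ 2 • 1)) ∧
      ∃ y ∈ NI R, ∃ P : GL n F, P⁻¹ * x * P = scU s hs * y := by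
  haveI : Nonempty n := Fintype.card_pos_iff.mp (by omega)
  obtain ⟨a, b, c, d, h⟩ := hR.pairs hZ hc
  rcases two_cases h2 hn hd hx nx with ⟨h1, h3⟩ | ⟨s, h1, h3, h4⟩
  · obtain ⟨y, my, h4, h5⟩ := h.exists_two h2 hR h1
    obtain ⟨z, hz⟩ := hx
    obtain ⟨P, hP⟩ := conj_two h2 hn hz (y := y) (by
      rw [← hz, pow_two, pow_two, ← h4]; rfl) nx h5 (by rw [h3, hR.trace_zero h2 my h5])
    exact ⟨1, one_ne_zero, Or.inl ⟨rfl, h1⟩, y, le_NI R my, P, by
      rw [hP]; exact Units.ext (by simp [scU_val])⟩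
  · obtain ⟨j, mj, sj, hj⟩ := hR.exists_i hZ
    obtain ⟨a, b, c, d, ha, -, hc, -, h⟩ := h.adj4 hR mj sj hj (Or.inl rfl) (Or.inl rfl)
    obtain ⟨y, my, h5, h6, h8⟩ := h.exists_cz h2 hn hR ha hc
    have hs : s ≠ 0 := by rintro rfl; simp at h1
    have h7 : (y : Matrix n n F) ^ 2 = 1 := by rw [pow_two]; exact congrArg Units.val h5
    refine ⟨s, hs, Or.inr ⟨h3, h4⟩, y, my, conj_two h2 hn h4 ?_ nx (fun e => ?_) ?_⟩
    · simp [scU_val, _root_.smul_pow, h7]
    · have := (sc_scU s hs).inv.mul e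
      rw [inv_mul_cancel_left] at this
      exact h8 this
    · simp [scU_val, h3, h6, mul_comm]

theorem conj_three (h2 : (2 : F) ≠ 0) (h3 : (3 : F) ≠ 0) (hn : Fintype.card n = 4)
    {x y : GL n F} (hx : x ^ 3 = 1) (hy : y ^ 3 = 1) (nx : x ≠ 1)
    (tx : (x : Matrix n n F).trace = ((x : Matrix n n F) ^ 2).trace)
    (ty : (y : Matrix n n F).trace = ((y : Matrix n n F) ^ 2).trace)
    (ht : (x : Matrix n n F).trace = (y : Matrix n n F).trace) :
    ∃ P : GL n F, P⁻¹ * x * P = y := by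
  have hx' : (x : Matrix n n F) ^ 3 = 1 := congrArg Units.val hx
  have hy' : (y : Matrix n n F) ^ 3 = 1 := congrArg Units.val hy
  have h4 := class_three h2 h3 hn hx' (fun e => nx (Units.ext e)) tx
  have h5 : (1 : F) ≠ -2 := fun e => h3 (by linear_combination e)
  have ny : (y : Matrix n n F) ≠ 1 := fun e => by
    rw [e, trace_one, hn] at ht
    rcases h4 with ⟨a, -⟩ | ⟨a, -⟩
    · exact h3 (by rw [a] at ht; push_cast at ht; linear_combination -ht)
    · exact mul_ne_zero h2 h3 (by rw [a] at ht; push_cast at ht; linear_combination -ht)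
  refine conj_pow_of (r := 3) (by exact_mod_cast h3) one_ne_zero (by rw [hx', one_smul])
    (by rw [hy', one_smul]) ?_
  rcases h4 with ⟨a, b⟩ | ⟨a, b⟩ <;> rcases class_three h2 h3 hn hy' ny ty with ⟨c, d⟩ | ⟨c, d⟩
  · rw [b, d]
  · exact absurd (a.symm.trans (ht.trans c)) h5
  · exact absurd (c.symm.trans (ht.symm.trans a)) h5
  · rw [b, d]

theorem elus_three [Finite F] (h2 : (2 : F) ≠ 0) (h3 : (3 : F) ≠ 0) (hn : Fintype.card n = 4)
    {R : Subgroup (GL n F)} (hR : Pauli R) (hZ : Nat.card (Subgroup.center R) = 4)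
    (hc : Nat.card R = 16 * 4) {x : GL n F} (hx : x ^ 3 = 1) (nx : x ≠ 1)
    (tx : (x : Matrix n n F).trace = ((x : Matrix n n F) ^ 2).trace) :
    ∃ y ∈ NI R, ∃ P : GL n F, P⁻¹ * x * P = y := by
  haveI : Nonempty n := Fintype.card_pos_iff.mp (by omega)
  obtain ⟨a, b, c, d, h⟩ := hR.pairs hZ hc
  obtain ⟨j, mj, sj, hj⟩ := hR.exists_i hZ
  obtain ⟨a, b, c, d, ha, hb, hc, hd, h⟩ := h.adj4 hR mj sj hj (Or.inr rfl) (Or.inr rfl)
  obtain ⟨y, my, h4, h5, h6⟩ := h.exists_three h2 hn hR ha hb hc hd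
    ((class_three h2 h3 hn (congrArg Units.val hx) (fun e => nx (Units.ext e)) tx).imp
      And.left And.left)
  exact ⟨y, my, conj_three h2 h3 hn hx h4 nx tx (by rw [h5, h6]) h5.symm⟩

theorem trace_pow_char (p : ℕ) [Fact p.Prime] [CharP F p] {x : GL n F} {r : ℕ} (hr : (r : F) ≠ 0)
    (hx : x ^ r = 1) : (x : Matrix n n F).trace ^ p = ((x : Matrix n n F) ^ (p % r)).trace := by
  have hx' : (x : Matrix n n F) ^ r = 1 := congrArg Units.val hx
  obtain ⟨d, hd, -⟩ := exists_spec_pow hr one_ne_zero (hx'.trans (one_smul _ _).symm) rfl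
  rw [hd.trace_pow p, ← pow_eq_pow_mod _ hx']

theorem five_ne_zero (p : ℕ) [Fact p.Prime] [CharP F p] (hp : p ≠ 5) : (5 : F) ≠ 0 := by
  rw [show (5 : F) = (5 : ℕ) by norm_num, Ne, CharP.cast_eq_zero_iff F p,
    Nat.prime_dvd_prime_iff_eq Fact.out (by norm_num)]
  exact hp

theorem three_ne_zero' (p : ℕ) [Fact p.Prime] [CharP F p] (hp : p ≠ 3) : (3 : F) ≠ 0 := by
  rw [show (3 : F) = (3 : ℕ) by norm_num, Ne, CharP.cast_eq_zero_iff F p,
    Nat.prime_dvd_prime_iff_eq Fact.out (by norm_num)]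
  exact hp

theorem two_ne_zero'' (p : ℕ) [Fact p.Prime] [CharP F p] (hp : p ≠ 2) : (2 : F) ≠ 0 := by
  rw [show (2 : F) = (2 : ℕ) by norm_num, Ne, CharP.cast_eq_zero_iff F p,
    Nat.prime_dvd_prime_iff_eq Fact.out (by norm_num)]
  exact hp

theorem conj_five (p : ℕ) [Fact p.Prime] [CharP F p] (hp : p % 5 = 2 ∨ p % 5 = 3)
    (hn : Fintype.card n = 4) {x y : GL n F} (hx : x ^ 5 = 1) (hy : y ^ 5 = 1) (nx : x ≠ 1)
    (ny : y ≠ 1) {k : ℕ} (hk : k = 1 ∨ k = 4)
    (cx : (x : Matrix n n F).charpoly.map (frobenius F p) = ((x : Matrix n n F) ^ k).charpoly)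
    (cy : (y : Matrix n n F).charpoly.map (frobenius F p) = ((y : Matrix n n F) ^ k).charpoly) :
    ∃ P : GL n F, P⁻¹ * x * P = y := by
  have hx' : (x : Matrix n n F) ^ 5 = 1 := congrArg Units.val hx
  have hy' : (y : Matrix n n F) ^ 5 = 1 := congrArg Units.val hy
  refine conj_pow_of (r := 5) (by exact_mod_cast five_ne_zero p (by omega)) one_ne_zero
    (by rw [hx', one_smul]) (by rw [hy', one_smul]) ?_
  rw [(class_five p hp hn hx' (fun e => nx (Units.ext e)) hk cx).1,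
    (class_five p hp hn hy' (fun e => ny (Units.ext e)) hk cy).1]

theorem charpoly_frob_prime [Fintype F] (p : ℕ) [Fact p.Prime] [CharP F p]
    (hF : Fintype.card F = p) (x : Matrix n n F) :
    x.charpoly.map (frobenius F p) = (x ^ 1).charpoly := by
  rw [show frobenius F p = RingHom.id F from RingHom.ext fun a => by
    rw [frobenius_def, ← hF, FiniteField.pow_card]; rfl, Polynomial.map_id, pow_one]

section Unitary

variable {σ : F →+* F} {hσ : ∀ a, σ (σ a) = a}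

theorem st_pow {x : GL n F} (hx : x ∈ (uAdj n σ hσ).Iso) {r : ℕ} (h : x ^ (r + 1) = 1) :
    (uAdj n σ hσ).st x = (x : Matrix n n F) ^ r := by
  rw [Adj.st_eq_inv _ hx, inv_eq_of_mul_eq_one_left (by rw [← pow_succ, h] : x ^ r * x = 1)]
  rfl

theorem charpoly_unitary {x : GL n F} (hx : x ∈ (uAdj n σ hσ).Iso) {r : ℕ} (h : x ^ (r + 1) = 1) :
    (x : Matrix n n F).charpoly.map σ = ((x : Matrix n n F) ^ r).charpoly := by
  rw [← st_pow hx h, uAdj_apply, charpoly_transpose, Matrix.charpoly_map]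

theorem nrm_two (hne : ∃ a, σ a ≠ a) (h2 : (2 : F) ≠ 0) {x : GL n F} (hx : x ∈ (uAdj n σ hσ).Iso)
    {s : F} (hs : s * σ s = 1) (h : (x : Matrix n n F) ^ 2 = s ^ 2 • 1) (nx : ¬ Sc x) :
    Nrm σ hσ (x : Matrix n n F) := by
  have h0 : s ≠ 0 := left_ne_zero_of_mul_eq_one hs
  have h1 : σ s = s⁻¹ := (inv_eq_of_mul_eq_one_right hs).symm
  have h3 : (uAdj n σ hσ).st x = (s ^ 2)⁻¹ • (x : Matrix n n F) := by
    rw [Adj.st_eq_inv _ hx]
    apply Units.inv_eq_of_mul_eq_one_right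
    rw [mul_smul_comm, ← pow_two, h, smul_smul, inv_mul_cancel₀ (pow_ne_zero _ h0), one_smul]
  rw [pow_two] at h
  refine nrm_of_proj hne hx (E := (2 : F)⁻¹ • (1 + s⁻¹ • (x : Matrix n n F))) (fun e => ?_) ?_ ?_
    hs ?_
  · rw [smul_eq_zero, or_iff_right (inv_ne_zero h2), add_eq_zero_iff_neg_eq] at e
    exact nx ⟨-s, by rw [neg_smul, ← smul_neg, e, smul_smul, mul_inv_cancel₀ h0, one_smul]⟩
  · simp only [smul_mul_assoc, mul_smul_comm, add_mul, mul_add, one_mul, mul_one, h, smul_add,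
      smul_smul]
    match_scalars <;> field_simp <;> ring
  · rw [st_half h2, map_add, Adj.st_one, uAdj_smul, h3, map_inv₀, h1, smul_smul]
    congr 3
    field_simp
  · simp only [mul_smul_comm, mul_add, mul_one, h, smul_add, smul_smul]
    match_scalars <;> field_simp

theorem nrm_three (hne : ∃ a, σ a ≠ a) (h3 : (3 : F) ≠ 0) {x : GL n F}
    (hx : x ∈ (uAdj n σ hσ).Iso) {w : F} (hw : w ^ 2 + w + 1 = 0) (hσw : σ w = w)
    (h : x ^ 3 = 1) (nx : x ≠ 1) : Nrm σ hσ (x : Matrix n n F) := by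
  have h1 := st_pow hx h
  have hx3 : (x : Matrix n n F) * (x * x) = 1 := by
    rw [← pow_three]; exact congrArg Units.val h
  have hx3' : ∀ M, (x : Matrix n n F) * (x * (x * M)) = M := fun M => by
    rw [← mul_assoc _ _ M, ← mul_assoc _ _ M, hx3, one_mul]
  have h4 : (uAdj n σ hσ).st (x * x) = x := by
    rw [Adj.st_mul, h1]; simp only [pow_two, mul_assoc, hx3']
  rw [pow_two] at h1
  let E : Matrix n n F := (3 : F)⁻¹ • (1 + w ^ 2 • (x : Matrix n n F) + w • (x * x))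
  let E' : Matrix n n F := (3 : F)⁻¹ • (1 + w • (x : Matrix n n F) + w ^ 2 • (x * x))
  have h5 : (uAdj n σ hσ).st E = E' := by
    simp only [E, E', uAdj_smul, map_add, Adj.st_one, h1, h4, map_pow, hσw, map_inv₀, map_ofNat]
    rw [add_right_comm]
  have h6 : x * E = w • E := by
    simp only [E, mul_smul_comm, mul_add, mul_one, hx3]
    match_scalars <;> grind
  have h7 : x * E' = w ^ 2 • E' := by
    simp only [E', mul_smul_comm, mul_add, mul_one, hx3]
    match_scalars <;> grind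
  refine nrm_of_proj' hne hx (E := E) (E' := E') (fun e => nx (Units.ext ?_)) ?_ h5 ?_ ?_
    (l := w) (m := w ^ 2) (by rw [map_pow, hσw]; grind) h6 h7
  · have e' : E' = 0 := by rw [← h5, e, map_zero]
    have : (x : Matrix n n F) - 1 = (w - 1) • E + (w ^ 2 - 1) • E' := by
      simp only [E, E']
      match_scalars <;> grind
    rw [e, e'] at this
    simpa [sub_eq_zero] using this
  · simp only [E, smul_mul_assoc, mul_smul_comm, add_mul, mul_add, one_mul, mul_one, mul_assoc, hx3,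
      hx3']
    match_scalars <;> grind
  · simp only [E, E', smul_mul_assoc, mul_smul_comm, add_mul, mul_add, one_mul, mul_one, mul_assoc,
      hx3, hx3']
    match_scalars <;> grind
  · simp only [E, E', smul_mul_assoc, mul_smul_comm, add_mul, mul_add, one_mul, mul_one, mul_assoc,
      hx3, hx3']
    match_scalars <;> grind

theorem nrm_comm [Finite F] [Nonempty n] {x : GL n F} (hx : x ∈ (uAdj n σ hσ).Iso) {r : ℕ}
    (hr : (r : F) ≠ 0) (h : x ^ r = 1)
    (hc : ∀ a b : Matrix n n F, a * x = x * a → b * x = x * b → a * b = b * a) :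
    Nrm σ hσ (x : Matrix n n F) := by
  intro e he
  obtain ⟨c, h1, h2⟩ := H8.exists_comm_det_of_squarefree (f := Matrix.toLin' (x : Matrix n n F))
    (separable_X_pow_sub_C (1 : F) hr one_ne_zero).squarefree (by
      rw [← H8.toLin'_aeval, (H8.aeval_X_pow_sub_C_eq_zero_iff _ r 1).mpr (by
        rw [one_smul]; exact congrArg Units.val h), map_zero]) e
  obtain ⟨C, h3, h4⟩ := H8.exists_GL_of_comm h1 (h2 ▸ he)
  exact ⟨C, h4.trans h2, h3, hc _ _ h3 (Adj.st_comm _ hx h3)⟩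

end Unitary

end Cfsg.Agent.H2.SympType
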