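import Mathlib
import Cfsg.Agent.H2.Conj4

/-!
Conjugacy of elements of small order in `Sp 4`.
-/

set_option autoImplicit false

namespace Cfsg.Agent.H2.SympType

open Matrix Wall Polynomial Cls

variable {F : Type*} [Field F]

theorem sp_neg [Finite F] (h2 : (2 : F) ≠ 0) {m : ℕ} {x y P : GL (Fin m ⊕ Fin m) F}
    (hx : x ∈ spGL m F) (hy : y ∈ spGL m F) (hP : P⁻¹ * x * P = y) (h : x * x = -1) :
    ∃ g ∈ spGL m F, g⁻¹ * x * g = y := by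
  rw [mem_sp_iff] at hx hy
  obtain ⟨g, hg, e⟩ := (sAdj m F).wall (isUnit_two h2) hx hy hP (θ := x) (by
    rw [Adj.st_eq_inv _ hx, inv_eq_of_mul_eq_one_right (show x * -x = 1 by rw [mul_neg, h, neg_neg])]
    rfl) rfl fun c hc => hc
  exact ⟨g, (mem_sp_iff g).mpr hg, e⟩

theorem sp_five [Finite F] (h2 : (2 : F) ≠ 0) (h5 : (5 : F) ≠ 0) {m : ℕ}
    {x y P : GL (Fin m ⊕ Fin m) F} (hx : x ∈ spGL m F) (hy : y ∈ spGL m F)
    (hP : P⁻¹ * x * P = y) (h : x ^ 5 = 1)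
    (hc : (x : Matrix (Fin m ⊕ Fin m) (Fin m ⊕ Fin m) F).charpoly = X ^ 4 + X ^ 3 + X ^ 2 + X + 1) :
    ∃ g ∈ spGL m F, g⁻¹ * x * g = y := by
  rw [mem_sp_iff] at hx hy
  have h1 := aeval_self_charpoly (x : Matrix (Fin m ⊕ Fin m) (Fin m ⊕ Fin m) F)
  rw [hc] at h1
  have h3 : (X - X ^ 4 : F[X]) * (C 5⁻¹ * ((X - X ^ 4) * (X ^ 2 - X ^ 3) ^ 2)) =
      1 + (X ^ 4 + X ^ 3 + X ^ 2 + X + 1) * (C 5⁻¹ * (X ^ 10 - 3 * X ^ 9 + 3 * X ^ 8 - 3 * X ^ 7 +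
        6 * X ^ 6 - 5 * X ^ 5 + 5 * X - 5)) := by
    have : (C 5⁻¹ * 5 : F[X]) = 1 := by rw [← map_ofNat C, ← C_mul, inv_mul_cancel₀ h5, C_1]
    linear_combination this
  have h4 := congrArg (aeval (x : Matrix (Fin m ⊕ Fin m) (Fin m ⊕ Fin m) F)) h3
  rw [map_mul, map_add, map_mul (aeval _) (_ + 1), h1, zero_mul, add_zero, map_one, map_sub, map_pow,
    aeval_X] at h4
  let θ : GL (Fin m ⊕ Fin m) F := ⟨_, _, h4, mul_eq_one_comm.mp h4⟩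
  have h6 : x⁻¹ = x ^ 4 := inv_eq_of_mul_eq_one_left (by rw [← pow_succ, h])
  obtain ⟨g, hg, e⟩ := (sAdj m F).wall (isUnit_two h2) hx hy hP (θ := θ) (by
    change (sAdj m F).st (x - x ^ 4) = -(x - x ^ 4)
    rw [map_sub, ← Units.val_pow_eq_pow_val, Adj.st_eq_inv _ hx,
      Adj.st_eq_inv _ (Subgroup.pow_mem _ hx 4), ← h6, inv_inv, neg_sub])
    (((Commute.refl _).sub_left ((Commute.refl _).pow_left 4)) : Commute (_ - _) _) fun c hc =>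
    ((Commute.sub_right hc (Commute.pow_right hc 4)) : Commute _ (_ - _))
  exact ⟨g, (mem_sp_iff g).mpr hg, e⟩

theorem sp_eig (h2 : (2 : F) ≠ 0) {m : ℕ} {x : GL (Fin m ⊕ Fin m) F} (hx : x ∈ spGL m F)
    (h : x * x = 1) (nx : x ≠ -1) : ∃ u v : Fin m ⊕ Fin m → F,
      (x : Matrix (Fin m ⊕ Fin m) (Fin m ⊕ Fin m) F) *ᵥ u = u ∧
      (x : Matrix (Fin m ⊕ Fin m) (Fin m ⊕ Fin m) F) *ᵥ v = v ∧ u ⬝ᵥ (J (Fin m) F *ᵥ v) = -1 := by
  have h1 := (mem_sp_iff' x).mp hx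
  have h3 : (x : Matrix (Fin m ⊕ Fin m) (Fin m ⊕ Fin m) F) * x = 1 := congrArg Units.val h
  generalize hM : (x : Matrix (Fin m ⊕ Fin m) (Fin m ⊕ Fin m) F) = M at h1 h3
  have h4 : Mᵀ * J (Fin m) F = J (Fin m) F * M := by
    rw [← mul_one (Mᵀ * _), ← h3, ← mul_assoc, h1]
  have h5 : (1 + M)ᵀ * J (Fin m) F * (1 + M) = (2 : F) • (J (Fin m) F * (1 + M)) := by
    rw [transpose_add, transpose_one, add_mul, add_mul, h4, mul_assoc _ M, mul_add M, h3, mul_one,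
      one_mul, add_comm M, two_smul]
  obtain ⟨T, hT⟩ : ∃ T, T = (1 + M)ᵀ * J (Fin m) F * (1 + M) := ⟨_, rfl⟩
  obtain ⟨i, j, h6⟩ : ∃ i j, T i j ≠ 0 := by
    by_contra hn
    push Not at hn
    have : T = 0 := Matrix.ext hn
    rw [hT, h5, smul_eq_zero, or_iff_right h2] at this
    have := congrArg (J (Fin m) F * ·) this
    simp only [← mul_assoc, J_squared, mul_zero, neg_mul, one_mul, neg_eq_zero,
      add_eq_zero_iff_neg_eq] at this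
    exact nx (Units.ext (by rw [hM, ← this]; rfl))
  have h7 : ∀ w, M *ᵥ ((1 + M) *ᵥ w) = (1 + M) *ᵥ w := fun w => by
    rw [mulVec_mulVec, mul_add, h3, mul_one, add_comm]
  refine ⟨(1 + M) *ᵥ Pi.single i 1, -(T i j)⁻¹ • (1 + M) *ᵥ Pi.single j 1, h7 _, by rw [mulVec_smul, h7], ?_⟩
  rw [mulVec_smul, dotProduct_smul, ← vecMul_transpose, ← dotProduct_mulVec, mulVec_mulVec,
    mulVec_mulVec, ← hT]
  simp only [single_dotProduct, mulVec_single, one_mul, smul_eq_mul, MulOpposite.op_one, one_smul,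
    col_apply]
  field_simp

theorem sp_std (h2 : (2 : F) ≠ 0) {x : GL (Fin 2 ⊕ Fin 2) F} (hx : x ∈ spGL 2 F)
    (h : x * x = 1) (nx : ¬ Sc x) : ∃ g ∈ spGL 2 F,
      ((g⁻¹ * x * g : GL _ F) : Matrix (Fin 2 ⊕ Fin 2) (Fin 2 ⊕ Fin 2) F) =
        diagonal (Sum.elim ![1, -1] ![1, -1]) := by
  obtain ⟨u, v, hu, hv, huv⟩ := sp_eig h2 hx h fun e => nx (e ▸ sc_one.neg)
  have h1 := (mem_sp_iff' x).mp hx
  obtain ⟨u', v', hu', hv', huv'⟩ := sp_eig h2 (x := -x) ((mem_sp_iff' _).mpr (by simpa using h1))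
    (by simpa using h) fun e => nx (neg_inj.mp e ▸ sc_one)
  rw [Units.val_neg, neg_mulVec, neg_eq_iff_eq_neg] at hu' hv'
  have sk : ∀ a b : Fin 2 ⊕ Fin 2 → F, a ⬝ᵥ (J (Fin 2) F *ᵥ b) = -(b ⬝ᵥ (J (Fin 2) F *ᵥ a)) := by
    intro a b
    rw [dotProduct_mulVec, ← mulVec_transpose, J_transpose, neg_mulVec, neg_dotProduct,
      dotProduct_comm]
  have al : ∀ a : Fin 2 ⊕ Fin 2 → F, a ⬝ᵥ (J (Fin 2) F *ᵥ a) = 0 := fun a =>
    (mul_eq_zero.mp (by linear_combination sk a a)).resolve_left h2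
  have pp : ∀ a b : Fin 2 ⊕ Fin 2 → F, (x : Matrix _ _ F) *ᵥ a = a → (x : Matrix _ _ F) *ᵥ b = -b →
      a ⬝ᵥ (J (Fin 2) F *ᵥ b) = 0 := fun a b ha hb => by
    have : a ⬝ᵥ (J (Fin 2) F *ᵥ b) = -(a ⬝ᵥ (J (Fin 2) F *ᵥ b)) := by
      conv_lhs => rw [← h1, mul_assoc, ← mulVec_mulVec, dotProduct_mulVec, vecMul_transpose, ha,
        ← mulVec_mulVec, hb, mulVec_neg, dotProduct_neg]
    exact (mul_eq_zero.mp (by linear_combination this)).resolve_left h2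
  let c : Fin 2 ⊕ Fin 2 → Fin 2 ⊕ Fin 2 → F := Sum.elim ![u, u'] ![v, v']
  let P : Matrix (Fin 2 ⊕ Fin 2) (Fin 2 ⊕ Fin 2) F := (of c)ᵀ
  have hP : Pᵀ * J (Fin 2) F * P = J (Fin 2) F := by
    ext i j
    rw [mul_assoc]
    change c i ⬝ᵥ (J (Fin 2) F *ᵥ c j) = _
    have a1 := pp _ _ hu hu'
    have a2 := pp _ _ hu hv'
    have a3 := pp _ _ hv hu'
    have a4 := pp _ _ hv hv'
    have b1 := sk u' u
    have b2 := sk v' u
    have b3 := sk u' v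
    have b4 := sk v' v
    have b5 := sk v u
    have b6 := sk v' u'
    rw [a1] at b1; rw [a2] at b2; rw [a3] at b3; rw [a4] at b4; rw [huv] at b5; rw [huv'] at b6
    rcases i with i | i <;> rcases j with j | j <;> fin_cases i <;> fin_cases j <;>
      simp only [c, Sum.elim_inl, Sum.elim_inr, Fin.zero_eta, Fin.mk_one, cons_val_zero,
        cons_val_one, a1, a2, a3, a4, b1, b2, b3, b4, b5, b6, al, huv, huv'] <;> simp [J]
  have hP' : -(J (Fin 2) F * Pᵀ * J (Fin 2) F) * P = 1 := by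
    rw [neg_mul, mul_assoc, mul_assoc, ← mul_assoc Pᵀ, hP, J_squared, neg_neg]
  let g : GL (Fin 2 ⊕ Fin 2) F := ⟨P, _, mul_eq_one_comm.mp hP', hP'⟩
  refine ⟨g, (mem_sp_iff' g).mpr hP, ?_⟩
  rw [mul_assoc, Units.val_mul, Units.inv_mul_eq_iff_eq_mul, Units.val_mul]
  ext i j
  rw [mul_diagonal]
  change ((x : Matrix _ _ F) *ᵥ c j) i = c j i * _
  rcases j with j | j <;> fin_cases j <;> simp [c, hu, hv, hu', hv']

theorem sp_inv (h2 : (2 : F) ≠ 0) {x y : GL (Fin 2 ⊕ Fin 2) F} (hx : x ∈ spGL 2 F)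
    (hy : y ∈ spGL 2 F) (h : x * x = 1) (h' : y * y = 1) (nx : ¬ Sc x) (ny : ¬ Sc y) :
    ∃ g ∈ spGL 2 F, g⁻¹ * x * g = y := by
  obtain ⟨g, hg, e⟩ := sp_std h2 hx h nx
  obtain ⟨g', hg', e'⟩ := sp_std h2 hy h' ny
  refine ⟨g * g'⁻¹, Subgroup.mul_mem _ hg (Subgroup.inv_mem _ hg'), ?_⟩
  have := Units.ext (e.trans e'.symm)
  calc _ = g' * (g⁻¹ * x * g) * g'⁻¹ := by group
    _ = y := by rw [this]; group

end Cfsg.Agent.H2.SympType
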