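import Mathlib
import Cfsg.Agent.H2.Conj4

/-!
The extraspecial group of order `27` and exponent `3` in dimension three.
-/

set_option autoImplicit false

namespace Cfsg.Agent.H2.SympType

open Matrix Wall Polynomial Cls

theorem comm_of_card_dvd_nine {G : Type*} [Group G] (h : Nat.card G ∣ 3 ^ 2) (a b : G) :
    a * b = b * a := by
  haveI : Fact (Nat.Prime 3) := ⟨Nat.prime_three⟩
  obtain ⟨k, hk, e⟩ := (Nat.dvd_prime_pow Nat.prime_three).mp h
  by_cases h2 : k = 2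
  · subst h2
    exact (IsPGroup.isMulCommutative_of_card_eq_prime_sq e).is_comm.comm a b
  · haveI : IsCyclic G := isCyclic_of_card_dvd_prime (p := 3) (by
      rw [e]; exact (pow_dvd_pow 3 (by omega : k ≤ 1)).trans (by simp))
    exact (inferInstance : IsMulCommutative G).is_comm.comm a b

theorem exists_heis {G : Type*} [Group G] (h : Nat.card G = 27) (hn : ¬ IsMulCommutative G) :
    ∃ a b : G, b * a * b⁻¹ * a⁻¹ ≠ 1 ∧ b * a * b⁻¹ * a⁻¹ ∈ Subgroup.center G ∧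
      Subgroup.closure {a, b} = ⊤ := by
  haveI : Fact (Nat.Prime 3) := ⟨Nat.prime_three⟩
  haveI : Finite G := Nat.finite_of_card_ne_zero (by omega)
  obtain ⟨a, b, hab⟩ : ∃ a b : G, a * b ≠ b * a := by
    by_contra hc
    push Not at hc
    exact hn ⟨⟨hc⟩⟩
  refine ⟨a, b, fun e => hab (by rw [mul_inv_eq_one, mul_inv_eq_iff_eq_mul] at e; exact e.symm),
    ?_, ?_⟩
  · obtain ⟨k, hk, e⟩ := IsPGroup.card_center_eq_prime_pow (G := G) (p := 3) (n := 3) h
      (by norm_num)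
    have h1 := (Subgroup.center G).card_mul_index
    rw [e, h] at h1
    have h2 : Nat.card (G ⧸ Subgroup.center G) ∣ 3 ^ 2 := by
      obtain ⟨k, rfl⟩ : ∃ j, k = j + 1 := ⟨k - 1, by omega⟩
      refine ⟨3 ^ k, ?_⟩
      rw [← Subgroup.index_eq_card]
      rw [pow_succ] at h1
      linarith
    rw [← QuotientGroup.eq_one_iff]
    simp only [QuotientGroup.mk_mul, QuotientGroup.mk_inv]
    rw [comm_of_card_dvd_nine h2 (b : G ⧸ Subgroup.center G) a]
    simp
  · by_contra hc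
    have h1 := (Subgroup.closure {a, b}).card_subgroup_dvd_card
    rw [h] at h1
    obtain ⟨k, hk, e⟩ := (Nat.dvd_prime_pow (m := 3) Nat.prime_three).mp h1
    have h2 : k ≠ 3 := by
      rintro rfl
      exact hc (Subgroup.eq_top_of_card_eq _ (by rw [e, h]; norm_num))
    exact hab (congrArg Subtype.val (comm_of_card_dvd_nine (G := Subgroup.closure {a, b})
      (by rw [e]; exact pow_dvd_pow 3 (by omega)) ⟨a, Subgroup.subset_closure (by simp)⟩
      ⟨b, Subgroup.subset_closure (by simp)⟩))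

variable {F : Type*} [Field F]

theorem cube_cases {w s : F} (hw : w ^ 2 + w + 1 = 0) (hs : s ^ 3 = 1) :
    s = 1 ∨ s = w ∨ s = w ^ 2 := by
  have : (s - 1) * ((s - w) * (s - w ^ 2)) = 0 := by grind
  simpa only [mul_eq_zero, sub_eq_zero] using this

theorem exists_eig {n : Type} [Fintype n] [DecidableEq n] (h3 : (3 : F) ≠ 0) {w : F}
    (hw : w ^ 2 + w + 1 = 0) {M : Matrix n n F} (hM : M * (M * M) = 1) {u : n → F} (hu : u ≠ 0) :
    ∃ μ : F, μ ^ 3 = 1 ∧ (1 + μ ^ 2 • M + μ • (M * M)) *ᵥ u ≠ 0 ∧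
      M *ᵥ ((1 + μ ^ 2 • M + μ • (M * M)) *ᵥ u) = μ • (1 + μ ^ 2 • M + μ • (M * M)) *ᵥ u := by
  obtain ⟨μ, h1, h2⟩ : ∃ μ : F, μ ^ 3 = 1 ∧ (1 + μ ^ 2 • M + μ • (M * M)) *ᵥ u ≠ 0 := by
    by_contra hn
    push Not at hn
    have := congrArg₂ (· + ·) (congrArg₂ (· + ·) (hn 1 (by ring)) (hn w (by grind)))
      (hn (w ^ 2) (by grind))
    simp only [← add_mulVec, add_zero] at this
    rw [show (1 + (1 : F) ^ 2 • M + (1 : F) • (M * M) + (1 + w ^ 2 • M + w • (M * M)) +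
      (1 + (w ^ 2) ^ 2 • M + w ^ 2 • (M * M))) = (3 : F) • 1 by match_scalars <;> grind,
      smul_mulVec, one_mulVec, smul_eq_zero] at this
    exact this.elim h3 hu
  refine ⟨μ, h1, h2, ?_⟩
  rw [mulVec_mulVec, ← smul_mulVec]
  congr 1
  simp only [mul_add, mul_one, mul_smul_comm, hM]
  match_scalars <;> grind

/-- The cyclic permutation matrix. -/
def X3 (F : Type*) [Field F] : GL (Fin 3) F :=
  ⟨!![0, 0, 1; 1, 0, 0; 0, 1, 0], !![0, 1, 0; 0, 0, 1; 1, 0, 0], by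
    ext i j; fin_cases i <;> fin_cases j <;> simp [mul_apply, Fin.sum_univ_three], by
    ext i j; fin_cases i <;> fin_cases j <;> simp [mul_apply, Fin.sum_univ_three]⟩

theorem X3_val : (X3 F : Matrix (Fin 3) (Fin 3) F) = !![0, 0, 1; 1, 0, 0; 0, 1, 0] := rfl

theorem ne_zero_of_cube {s : F} (hs : s ^ 3 = 1) : s ≠ 0 := by
  rintro rfl; simp at hs

/-- The diagonal elements. -/
def D3 (s t : F) (hs : s ^ 3 = 1) (ht : t ^ 3 = 1) : GL (Fin 3) F :=
  dg ![t, t * s, t * s ^ 2] (by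
    intro i; fin_cases i <;> simp [ne_zero_of_cube hs, ne_zero_of_cube ht])

theorem D3_val (s t : F) (hs : s ^ 3 = 1) (ht : t ^ 3 = 1) :
    (D3 s t hs ht : Matrix (Fin 3) (Fin 3) F) = !![t, 0, 0; 0, t * s, 0; 0, 0, t * s ^ 2] := by
  ext i j; fin_cases i <;> fin_cases j <;> simp [D3, dg_val]

/-- The standard extraspecial group. -/
def R0 (w : F) (hw : w ^ 3 = 1) : Subgroup (GL (Fin 3) F) :=
  Subgroup.closure {X3 F, D3 w 1 hw (one_pow 3)}

theorem X3_mem (w : F) (hw : w ^ 3 = 1) : X3 F ∈ R0 w hw := Subgroup.subset_closure (by simp)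

theorem D3_mem {w : F} (hw : w ^ 2 + w + 1 = 0) (hw' : w ^ 3 = 1) (s t : F) (hs : s ^ 3 = 1)
    (ht : t ^ 3 = 1) : D3 s t hs ht ∈ R0 w hw' := by
  have h1 : D3 w 1 hw' (one_pow 3) ∈ R0 w hw' := Subgroup.subset_closure (by simp)
  have h2 : D3 1 w (one_pow 3) hw' ∈ R0 w hw' := by
    have : D3 1 w (one_pow 3) hw' =
        D3 w 1 hw' (one_pow 3) * X3 F * (D3 w 1 hw' (one_pow 3))⁻¹ * (X3 F)⁻¹ := by
      rw [eq_mul_inv_iff_mul_eq, eq_mul_inv_iff_mul_eq]
      apply Units.ext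
      simp only [Units.val_mul, D3_val, X3_val]
      ext i j; fin_cases i <;> fin_cases j <;> simp [mul_apply, Fin.sum_univ_three] <;> grind
    rw [this]
    exact mul_mem (mul_mem (mul_mem h1 (X3_mem w hw')) (inv_mem h1)) (inv_mem (X3_mem w hw'))
  have h3 : ∀ s : F, s ^ 3 = 1 → ∃ k : ℕ, s = w ^ k := fun s hs => by
    rcases cube_cases hw hs with e | e | e
    exacts [⟨0, by simpa using e⟩, ⟨1, by simpa using e⟩, ⟨2, e⟩]
  obtain ⟨k, rfl⟩ := h3 s hs
  obtain ⟨l, rfl⟩ := h3 t ht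
  convert mul_mem (pow_mem h1 k) (pow_mem h2 l)
  apply Units.ext
  simp only [Units.val_mul, Units.val_pow_eq_pow_val, D3, dg_val, diagonal_pow,
    diagonal_mul_diagonal]
  congr 1
  funext i
  fin_cases i <;> simp <;> ring

theorem R0_irr (h3 : (3 : F) ≠ 0) {w : F} (hw : w ^ 2 + w + 1 = 0) (hw' : w ^ 3 = 1)
    {M : Matrix (Fin 3) (Fin 3) F}
    (h : ∀ a ∈ R0 w hw', M * (a : Matrix (Fin 3) (Fin 3) F) = a * M) : ∃ c : F, M = c • 1 := by
  have h1 := h _ (X3_mem w hw')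
  have h2 := h _ (D3_mem hw hw' w 1 hw' (one_pow 3))
  rw [X3_val] at h1
  rw [D3_val] at h2
  have a := fun i j => congrFun (congrFun h1 i) j
  have b := fun i j => congrFun (congrFun h2 i) j
  have a1 := a 0 2; have a2 := a 1 0
  have b1 := b 0 1; have b2 := b 0 2; have b3 := b 1 0; have b4 := b 1 2; have b5 := b 2 0
  have b6 := b 2 1
  simp [mul_apply, Fin.sum_univ_three] at a1 a2 b1 b2 b3 b4 b5 b6
  refine ⟨M 0 0, ?_⟩
  ext i j; fin_cases i <;> fin_cases j <;> simp <;> grind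

theorem R0_le_SL {w : F} (hw' : w ^ 3 = 1) : R0 w hw' ≤ Geo.specialLinear (Fin 3) F := by
  rw [R0, Subgroup.closure_le]
  rintro _ (rfl | rfl) <;> refine mem_SL.mpr ?_
  · rw [X3_val, det_fin_three]; simp
  · rw [D3_val, det_fin_three]; simp; grind

theorem R0_le_u {σ : F →+* F} {hσ : ∀ a, σ (σ a) = a} {w : F} (hw' : w ^ 3 = 1)
    (h : w * σ w = 1) : R0 w hw' ≤ (uAdj (Fin 3) σ hσ).Iso := by
  rw [R0, Subgroup.closure_le]
  rintro _ (rfl | rfl)
  · refine (Adj.mem_Iso _).mpr ?_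
    rw [uAdj_apply, X3_val]
    ext i j; fin_cases i <;> fin_cases j <;> simp [mul_apply, Fin.sum_univ_three]
  · refine dg_mem_u fun i => ?_
    fin_cases i <;> simp <;> grind

theorem mem_normalizer_R0 [Finite F] {w : F} {hw' : w ^ 3 = 1} {y : GL (Fin 3) F}
    (h1 : y * X3 F * y⁻¹ ∈ R0 w hw') (h2 : y * D3 w 1 hw' (one_pow 3) * y⁻¹ ∈ R0 w hw') :
    y ∈ Subgroup.normalizer (R0 w hw' : Set (GL (Fin 3) F)) := by
  refine mem_normalizer_of fun a ha => ?_
  have : R0 w hw' ≤ (R0 w hw').comap (MulAut.conj y).toMonoidHom := by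
    rw [R0, Subgroup.closure_le]
    rintro _ (rfl | rfl)
    exacts [h1, h2]
  exact this ha

theorem dg_mem_normalizer [Finite F] {w : F} (hw : w ^ 2 + w + 1 = 0) (hw' : w ^ 3 = 1)
    {e : Fin 3 → F} (h : ∀ i, e i ≠ 0) {z : F} (he : ∀ i, e i ^ 3 = z) :
    dg e h ∈ Subgroup.normalizer (R0 w hw' : Set (GL (Fin 3) F)) := by
  have h0 := h 0; have h1 := h 1; have h2 := h 2
  have e0 := he 0; have e1 := he 1; have e2 := he 2
  refine mem_normalizer_R0 ?_ ?_
  · convert mul_mem (X3_mem w hw') (D3_mem hw hw' (e 2 * e 0 / (e 1 * e 1)) (e 1 / e 0)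
      (by field_simp; grind) (by field_simp; grind)) using 1
    rw [mul_inv_eq_iff_eq_mul]
    apply Units.ext
    simp only [Units.val_mul, D3_val, X3_val, dg_val]
    ext i j; fin_cases i <;> fin_cases j <;> simp [mul_apply, Fin.sum_univ_three, diagonal] <;>
      field_simp
    grind
  · convert D3_mem hw hw' w 1 hw' (one_pow 3)
    rw [mul_inv_eq_iff_eq_mul]
    apply Units.ext
    simp only [Units.val_mul, D3, dg_val, diagonal_mul_diagonal, mul_comm]

/-- An involution in the normaliser. -/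
def Y3 (F : Type*) [Field F] : GL (Fin 3) F :=
  ⟨!![-1, 0, 0; 0, 0, -1; 0, -1, 0], !![-1, 0, 0; 0, 0, -1; 0, -1, 0], by
    ext i j; fin_cases i <;> fin_cases j <;> simp [mul_apply, Fin.sum_univ_three], by
    ext i j; fin_cases i <;> fin_cases j <;> simp [mul_apply, Fin.sum_univ_three]⟩

theorem Y3_val : (Y3 F : Matrix (Fin 3) (Fin 3) F) = !![-1, 0, 0; 0, 0, -1; 0, -1, 0] := rfl

theorem Y3_mem_normalizer [Finite F] {w : F} (hw : w ^ 2 + w + 1 = 0) (hw' : w ^ 3 = 1) :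
    Y3 F ∈ Subgroup.normalizer (R0 w hw' : Set (GL (Fin 3) F)) := by
  refine mem_normalizer_R0 ?_ ?_
  · convert mul_mem (X3_mem w hw') (X3_mem w hw') using 1
    rw [mul_inv_eq_iff_eq_mul]
    apply Units.ext
    simp only [Units.val_mul, X3_val, Y3_val]
    ext i j; fin_cases i <;> fin_cases j <;> simp [mul_apply, Fin.sum_univ_three]
  · convert D3_mem hw hw' (w ^ 2) 1 (by grind) (one_pow 3)
    rw [mul_inv_eq_iff_eq_mul]
    apply Units.ext
    simp only [Units.val_mul, D3_val, Y3_val]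
    ext i j; fin_cases i <;> fin_cases j <;> simp [mul_apply, Fin.sum_univ_three]
    grind

theorem Y3_mem_u {σ : F →+* F} {hσ : ∀ a, σ (σ a) = a} : Y3 F ∈ (uAdj (Fin 3) σ hσ).Iso := by
  refine (Adj.mem_Iso _).mpr ?_
  rw [uAdj_apply, Y3_val]
  ext i j; fin_cases i <;> fin_cases j <;> simp [mul_apply, Fin.sum_univ_three]

theorem exists_std (h3 : (3 : F) ≠ 0) {w₀ : F} (hw₀ : w₀ ^ 2 + w₀ + 1 = 0)
    {R : Subgroup (GL (Fin 3) F)} (hR : Nat.card R = 27) (he : Monoid.exponent R = 3)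
    (hn : ¬ IsMulCommutative R) : ∃ (w : F) (hw' : w ^ 3 = 1) (P : GL (Fin 3) F),
      w ^ 2 + w + 1 = 0 ∧ R = (R0 w hw').map (MulAut.conj P).toMonoidHom := by
  obtain ⟨a, b, h1, h2, h4⟩ := exists_heis hR hn
  have h5 : ∀ g : R, (g.1 : Matrix (Fin 3) (Fin 3) F) * (g.1 * g.1) = 1 := fun g => by
    have := Monoid.pow_exponent_eq_one g
    rw [he, pow_three] at this
    exact congrArg (fun g : R => (g.1 : Matrix (Fin 3) (Fin 3) F)) this
  set c := b * a * b⁻¹ * a⁻¹ with hc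
  have hba : (b.1 : Matrix (Fin 3) (Fin 3) F) * a.1 = c.1 * a.1 * b.1 :=
    congrArg (fun g : R => (g.1 : Matrix (Fin 3) (Fin 3) F)) (by rw [hc]; group : b * a = c * a * b)
  have hcm : ∀ g : R, (c.1 : Matrix (Fin 3) (Fin 3) F) * g.1 = g.1 * c.1 := fun g =>
    congrArg (fun g : R => (g.1 : Matrix (Fin 3) (Fin 3) F)) (Subgroup.mem_center_iff.mp h2 g).symm
  have hca := hcm a
  have hcb := hcm b
  have ha3 := h5 a
  have hb3 := h5 b
  have hc3 := h5 c
  have hc1 : (c.1 : Matrix (Fin 3) (Fin 3) F) ≠ 1 := fun e => h1 (Subtype.ext (Units.ext e))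
  generalize hA : (a.1 : Matrix (Fin 3) (Fin 3) F) = A at *
  generalize hB : (b.1 : Matrix (Fin 3) (Fin 3) F) = B at *
  generalize (c.1 : Matrix (Fin 3) (Fin 3) F) = C at *
  obtain ⟨u, hu⟩ : ∃ u, (C - 1) *ᵥ u ≠ 0 := by
    by_contra hn
    push Not at hn
    exact hc1 (sub_eq_zero.mp (Matrix.ext_iff_mulVec.mpr fun u => by rw [hn, zero_mulVec]))
  obtain ⟨w, hw', k1, k2⟩ := exists_eig h3 hw₀ hc3 hu
  have hw : w ^ 2 + w + 1 = 0 := by
    have : w ≠ 1 := by
      rintro rfl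
      apply k1
      rw [mulVec_mulVec]
      simp only [one_pow, one_smul, add_mul, mul_sub, one_mul, mul_one, mul_assoc, hc3]
      rw [show C + C * C + 1 - (1 + C + C * C) = (0 : Matrix (Fin 3) (Fin 3) F) by abel,
        zero_mulVec]
    grind
  generalize (1 + w ^ 2 • C + w • (C * C)) *ᵥ (C - 1) *ᵥ u = v at k1 k2
  obtain ⟨μ, hμ, k3, k4⟩ := exists_eig h3 hw₀ hb3 k1
  have k5 : C *ᵥ ((1 + μ ^ 2 • B + μ • (B * B)) *ᵥ v) = w • (1 + μ ^ 2 • B + μ • (B * B)) *ᵥ v := by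
    rw [← mulVec_smul, ← k2, mulVec_mulVec, mulVec_mulVec]
    congr 1
    exact (((Commute.one_right C).add_right ((show Commute C B from hcb).smul_right _)).add_right
      (((show Commute C B from hcb).mul_right hcb).smul_right _))
  generalize (1 + μ ^ 2 • B + μ • (B * B)) *ᵥ v = v at k3 k4 k5
  have step : ∀ (v : Fin 3 → F) (μ : F), v ≠ 0 ∧ C *ᵥ v = w • v ∧ B *ᵥ v = μ • v →
      A *ᵥ v ≠ 0 ∧ C *ᵥ (A *ᵥ v) = w • A *ᵥ v ∧ B *ᵥ (A *ᵥ v) = (μ * w) • A *ᵥ v := by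
    rintro v μ ⟨a1, a2, a3⟩
    have a4 : C *ᵥ (A *ᵥ v) = w • A *ᵥ v := by
      rw [mulVec_mulVec, hca, ← mulVec_mulVec, a2, mulVec_smul]
    refine ⟨fun e => a1 ?_, a4, ?_⟩
    · rw [← one_mulVec v, ← ha3, ← mul_assoc, ← mulVec_mulVec, e, mulVec_zero]
    · rw [mulVec_mulVec, hba, ← mulVec_mulVec, a3, mulVec_smul, ← mulVec_mulVec, a4, smul_smul]
  obtain ⟨v, k⟩ : ∃ v : Fin 3 → F, v ≠ 0 ∧ C *ᵥ v = w • v ∧ B *ᵥ v = (1 : F) • v := by
    rcases cube_cases hw hμ with rfl | rfl | rfl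
    · exact ⟨v, k3, k5, k4⟩
    · exact ⟨_, by simpa only [show μ * μ * μ = 1 by grind] using step _ _ (step _ _ ⟨k3, k5, k4⟩)⟩
    · exact ⟨_, by simpa only [show w ^ 2 * w = 1 by grind] using step _ _ ⟨k3, k5, k4⟩⟩
  have k' := step _ _ k
  have k'' := step _ _ k'
  let P : Matrix (Fin 3) (Fin 3) F := (of ![v, A *ᵥ v, A *ᵥ (A *ᵥ v)])ᵀ
  have hAP : A * P = P * X3 F := by
    ext i j
    change (A *ᵥ (![v, A *ᵥ v, A *ᵥ (A *ᵥ v)] j)) i = _
    fin_cases j <;> simp [P, X3_val, mul_apply, Fin.sum_univ_three, ha3]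
  have hBP : B * P = P * D3 w 1 hw' (one_pow 3) := by
    ext i j
    change (B *ᵥ (![v, A *ᵥ v, A *ᵥ (A *ᵥ v)] j)) i = _
    fin_cases j <;> simp only [Fin.zero_eta, Fin.mk_one, Fin.reduceFinMk, cons_val, k.2.2, k'.2.2,
      k''.2.2] <;> simp [P, D3_val, mul_apply, Fin.sum_univ_three] <;> ring
  have hP : P.det ≠ 0 := by
    rw [Ne, ← Matrix.exists_mulVec_eq_zero_iff]
    rintro ⟨t, ht, e⟩
    have l1 : ∀ t, P *ᵥ t = 0 → P *ᵥ (X3 F *ᵥ t) = 0 := fun t e => by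
      rw [mulVec_mulVec, ← hAP, ← mulVec_mulVec, e, mulVec_zero]
    have l2 : ∀ t, P *ᵥ t = 0 → P *ᵥ (D3 w 1 hw' (one_pow 3) *ᵥ t) = 0 := fun t e => by
      rw [mulVec_mulVec, ← hBP, ← mulVec_mulVec, e, mulVec_zero]
    have l3 : ∀ t, P *ᵥ t = 0 → t 0 = 0 := fun t e => by
      have := congrArg₂ (· + ·) (congrArg₂ (· + ·) e (l2 _ e)) (l2 _ (l2 _ e))
      simp only [← mulVec_add, add_zero] at this
      rw [show t + (D3 w 1 hw' (one_pow 3)).val *ᵥ t + (D3 w 1 hw' (one_pow 3)).val *ᵥ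
        (D3 w 1 hw' (one_pow 3)).val *ᵥ t = (3 * t 0) • Pi.single 0 1 by
          funext i; fin_cases i <;> simp [D3, dg_val, mulVec_diagonal] <;> grind,
        mulVec_smul, smul_eq_zero] at this
      rcases this with e | e
      · exact (mul_eq_zero.mp e).resolve_left h3
      · exact absurd (by rw [← e]; funext i; simp [P]) k.1
    have m0 := l3 _ e
    have m1 := l3 _ (l1 _ e)
    have m2 := l3 _ (l1 _ (l1 _ e))
    apply ht
    funext i
    fin_cases i <;> simp [X3_val, mulVec, dotProduct, Fin.sum_univ_three] at m1 m2 ⊢ <;> assumption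
  refine ⟨w, hw', GeneralLinearGroup.mkOfDetNeZero P hP, hw, ?_⟩
  have e1 : MulAut.conj (GeneralLinearGroup.mkOfDetNeZero P hP) (X3 F) = a := by
    rw [MulAut.conj_apply, mul_inv_eq_iff_eq_mul]
    exact Units.ext (by rw [Units.val_mul, Units.val_mul, hA]; exact hAP.symm)
  have e2 : MulAut.conj (GeneralLinearGroup.mkOfDetNeZero P hP) (D3 w 1 hw' (one_pow 3)) = b := by
    rw [MulAut.conj_apply, mul_inv_eq_iff_eq_mul]
    exact Units.ext (by rw [Units.val_mul, Units.val_mul, hB]; exact hBP.symm)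
  rw [R0, MonoidHom.map_closure, Set.image_pair, MulEquiv.coe_toMonoidHom, e1, e2]
  have := congrArg (Subgroup.map R.subtype) h4
  rw [MonoidHom.map_closure, Set.image_pair, ← MonoidHom.range_eq_map, Subgroup.range_subtype] at this
  exact this.symm

theorem exists_dg {r : ℕ} (hr : (r : F) ≠ 0) {x : GL (Fin 3) F} {z : F}
    (hx : (x : Matrix (Fin 3) (Fin 3) F) ^ r = z • 1)
    (h : ∀ d : K F, d ^ r = algebraMap F (K F) z → ∃ e, algebraMap F (K F) e = d) :
    ∃ (e : Fin 3 → F) (h0 : ∀ i, e i ≠ 0), (∀ i, e i ^ r = z) ∧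
      ∃ P : GL (Fin 3) F, P⁻¹ * x * P = dg e h0 := by
  have hz : z ≠ 0 := Sc.ne_zero (x := x ^ r) hx
  obtain ⟨d, hd, h1⟩ := exists_spec_pow hr hz hx (Fintype.card_fin 3)
  choose e he using fun i => h _ (h1 i)
  have h2 : ∀ i, e i ^ r = z := fun i => (algebraMap F (K F)).injective (by rw [map_pow, he, h1])
  have h0 : ∀ i, e i ≠ 0 := fun i e0 => hz (by
    rw [← h2 i, e0, zero_pow (by rintro rfl; simp at hr)])
  refine ⟨e, h0, h2, conj_pow_of hr hz hx ?_ ?_⟩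
  · rw [dg_val, diagonal_pow, smul_one_eq_diagonal]
    congr 1; funext i; exact h2 i
  · apply Polynomial.map_injective _ (algebraMap F (K F)).injective
    rw [hd.chi1, dg_val, charpoly_diagonal, Polynomial.map_prod]
    simp [he]

theorem charpoly_two3 (h2 : (2 : F) ≠ 0) {x : GL (Fin 3) F} (hx : x ^ 2 = 1) (h1 : x ≠ 1)
    (hd : (x : Matrix (Fin 3) (Fin 3) F).det = 1) :
    (x : Matrix (Fin 3) (Fin 3) F).charpoly = (X - 1) * (X + 1) ^ 2 := by
  obtain ⟨e, h0, h3, P, hP⟩ := exists_dg (r := 2) (by exact_mod_cast h2) (x := x) (z := 1)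
    (by rw [one_smul]; exact congrArg Units.val hx) fun d hd => by
      rw [map_one, sq_eq_one_iff] at hd
      rcases hd with rfl | rfl
      exacts [⟨1, map_one _⟩, ⟨-1, by simp⟩]
  have h4 := congrArg Units.val hP
  rw [Units.val_mul, Units.val_mul, dg_val] at h4
  have h5 := congrArg Matrix.det h4
  rw [det_units_conj', hd, det_diagonal, Fin.prod_univ_three] at h5
  have h6 : ¬ (e 0 = 1 ∧ e 1 = 1 ∧ e 2 = 1) := fun ⟨a, b, c⟩ => h1 (by
    have : dg e h0 = 1 := Units.ext (by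
      rw [dg_val, Units.val_one, ← diagonal_one]; congr 1; funext i; fin_cases i <;> assumption)
    rw [this, mul_assoc, inv_mul_eq_one] at hP
    exact mul_eq_right.mp hP.symm)
  rw [← Matrix.charpoly_units_conj' P, ← Matrix.coe_units_inv, h4, charpoly_diagonal,
    Fin.prod_univ_three]
  rcases sq_eq_one_iff.mp (h3 0) with a | a <;> rcases sq_eq_one_iff.mp (h3 1) with b | b <;>
    rcases sq_eq_one_iff.mp (h3 2) with c | c <;> rw [a, b, c] at h5 ⊢ <;>
    first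
    | exact (h6 (And.intro a (And.intro b c))).elim
    | exact absurd (by linear_combination h5) h2
    | (simp only [C_neg, C_1]; ring1)

theorem conj_two3 (h2 : (2 : F) ≠ 0) {x : GL (Fin 3) F} (hx : x ^ 2 = 1) (h1 : x ≠ 1)
    (hd : (x : Matrix (Fin 3) (Fin 3) F).det = 1) : ∃ P : GL (Fin 3) F, P⁻¹ * x * P = Y3 F := by
  have hy : Y3 F ^ 2 = 1 := by rw [pow_two]; exact Units.ext (Y3 F).val_inv
  refine conj_pow_of (r := 2) (by exact_mod_cast h2) one_ne_zero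
    (by rw [one_smul]; exact congrArg Units.val hx) (by rw [one_smul]; exact congrArg Units.val hy)
    ?_
  rw [charpoly_two3 h2 hx h1 hd, charpoly_two3 h2 hy (fun e => ?_) (by
    rw [Y3_val, det_fin_three]; simp)]
  have := congrArg (fun g : GL (Fin 3) F => g.val 1 1) e
  simp [Y3_val] at this

theorem Elus.transport {n : Type} [Fintype n] [DecidableEq n] {G R : Subgroup (GL n F)} {r : ℕ}
    (H : Elus G (Subgroup.normalizer (R : Set (GL n F))) r) {P : GL n F}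
    (hG : ∀ g, g ∈ G ↔ P * g * P⁻¹ ∈ G) :
    Elus G (Subgroup.normalizer (R.map (MulAut.conj P).toMonoidHom : Set (GL n F))) r := by
  intro x hx h1 h2
  obtain ⟨g, hg, e⟩ := H (P⁻¹ * x * P) ((hG _).mpr (by simpa [mul_assoc] using hx))
    (by rw [conj_pow']; exact h1.conj P) (by rwa [sc_conj_iff])
  refine ⟨_, (hG g).mp hg, Subgroup.le_normalizer_map _ ⟨_, e, ?_⟩⟩
  simp only [MulEquiv.coe_toMonoidHom, MulAut.conj_apply]
  group

theorem SL_conj {n : Type} [Fintype n] [DecidableEq n] (P g : GL n F) :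
    g ∈ Geo.specialLinear n F ↔ P * g * P⁻¹ ∈ Geo.specialLinear n F := by
  rw [mem_SL, mem_SL, Units.val_mul, Units.val_mul, det_units_conj]

theorem u_conj_std (h3 : (3 : F) ≠ 0) {σ : F →+* F} {hσ : ∀ a, σ (σ a) = a} {w : F}
    (hw : w ^ 2 + w + 1 = 0) (hw' : w ^ 3 = 1) (h : w * σ w = 1) {P : GL (Fin 3) F}
    (hP : (R0 w hw').map (MulAut.conj P).toMonoidHom ≤ (uAdj (Fin 3) σ hσ).Iso) (g : GL (Fin 3) F) :
    g ∈ (uAdj (Fin 3) σ hσ).Iso ↔ P * g * P⁻¹ ∈ (uAdj (Fin 3) σ hσ).Iso := by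
  set S := uAdj (Fin 3) σ hσ
  have key : ∀ g : GL (Fin 3) F, P * g * P⁻¹ ∈ S.Iso ↔
      S.stU g * (S.stU P * P) * g = S.stU P * P := fun g => by
    have e : S.stU (P * g * P⁻¹) = (S.stU P)⁻¹ * S.stU g * S.stU P := by
      rw [mul_assoc (S.stU P)⁻¹, eq_inv_mul_iff_mul_eq]
      apply Units.ext
      simp only [Units.val_mul, Adj.val_stU, ← S.st_mul, Units.inv_mul_cancel_right]
    rw [Adj.mem_Iso, ← Adj.val_stU, ← Units.val_mul, Units.val_eq_one, e]
    constructor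
    · intro e
      calc _ = S.stU P * ((S.stU P)⁻¹ * S.stU g * S.stU P * (P * g * P⁻¹)) * P := by group
        _ = _ := by rw [e, mul_one]
    · intro e
      calc _ = (S.stU P)⁻¹ * (S.stU g * (S.stU P * P) * g) * P⁻¹ := by group
        _ = _ := by rw [e]; group
  have hs : Sc (S.stU P * P) := R0_irr h3 hw hw' fun a ha => by
    have h1 := (key a).mp (hP ⟨a, ha, rfl⟩)
    have h2 : S.stU a = a⁻¹ := Units.ext (S.st_eq_inv (R0_le_u hw' h ha))
    rw [h2, mul_assoc, inv_mul_eq_iff_eq_mul] at h1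
    exact congrArg Units.val h1
  rw [key, ← hs.comm, mul_assoc, mul_eq_left, Adj.mem_Iso, Units.ext_iff]
  rfl

theorem not_elus_big [Finite F] (h3 : (3 : F) ≠ 0) {w : F} (hw : w ^ 2 + w + 1 = 0)
    (hw' : w ^ 3 = 1) (hc : Nat.card (R0 w hw') = 27) {r : ℕ} [hp : Fact r.Prime] (h2 : r ≠ 2)
    (h3' : r ≠ 3) {y : GL (Fin 3) F}
    (hy : y ∈ Subgroup.normalizer (R0 w hw' : Set (GL (Fin 3) F))) (h1 : y ^ r = 1) : Sc y := by
  have h4 := ncard_modEq (T := (R0 w hw' : Set (GL (Fin 3) F))) (Set.toFinite _) (y := y) (r := r)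
    (fun a ha => (Subgroup.mem_normalizer_iff.mp hy a).mp ha) (fun a _ => by simp [h1])
  let H : Subgroup (GL (Fin 3) F) := R0 w hw' ⊓ Subgroup.centralizer {y}
  have h5 : {a ∈ (R0 w hw' : Set (GL (Fin 3) F)) | y * a = a * y} = H := by
    ext a; simp [H, Subgroup.mem_centralizer_iff]
  rw [h5, ← Nat.card_coe_set_eq, ← Nat.card_coe_set_eq, SetLike.coe_sort_coe, SetLike.coe_sort_coe,
    hc] at h4
  have h6 := Subgroup.card_dvd_of_le (inf_le_left : H ≤ _)
  rw [hc] at h6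
  obtain ⟨k, hk, e⟩ := (Nat.dvd_prime_pow (m := 3) Nat.prime_three).mp h6
  have h7 : ∀ m : ℕ, r ∣ 2 ^ m * 3 ^ m → False := fun m h => by
    rcases (Nat.Prime.dvd_mul hp.out).mp h with h | h
    · exact h2 ((Nat.prime_dvd_prime_iff_eq hp.out Nat.prime_two).mp (hp.out.dvd_of_dvd_pow h))
    · exact h3' ((Nat.prime_dvd_prime_iff_eq hp.out Nat.prime_three).mp (hp.out.dvd_of_dvd_pow h))
  rw [e] at h4
  interval_cases k
  · exfalso
    have h8 : H = ⊥ := Subgroup.card_eq_one.mp e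
    have h9 : Sc (D3 1 w (one_pow 3) hw') := ⟨w, by
      rw [D3_val]; ext i j; fin_cases i <;> fin_cases j <;> simp⟩
    have : D3 1 w (one_pow 3) hw' ∈ H := ⟨D3_mem hw hw' _ _ _ _, by
      simp [Subgroup.mem_centralizer_iff, h9.comm]⟩
    rw [h8, Subgroup.mem_bot] at this
    have := congrArg (fun g : GL (Fin 3) F => g.val 0 0) this
    simp [D3_val] at this
    grind
  · exact (h7 3 (((Nat.modEq_iff_dvd' (by norm_num)).mp h4.symm).trans (by norm_num))).elim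
  · exact (h7 2 (((Nat.modEq_iff_dvd' (by norm_num)).mp h4.symm).trans (by norm_num))).elim
  · have h8 : H = R0 w hw' := Subgroup.eq_of_le_of_card_ge inf_le_left (by rw [e, hc]; norm_num)
    refine R0_irr h3 hw hw' fun a ha => ?_
    rw [← h8] at ha
    exact congrArg Units.val (ha.2 y rfl)

theorem not_three_dvd [Fintype F] (hq : Fintype.card F % 9 = 4 ∨ Fintype.card F % 9 = 7)
    {G N R : Subgroup (GL (Fin 3) F)} (hG : G ≤ Geo.specialLinear (Fin 3) F) (hR : Nat.card R = 27)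
    (h1 : R ≤ N) (h2 : R ≤ G) : ¬ 3 ∣ N.relIndex G := by
  intro h
  have h3 := (N.subgroupOf G).card_mul_index
  have h4 : 27 ∣ Nat.card (N.subgroupOf G) := by
    rw [← hR, ← Nat.card_congr (Subgroup.subgroupOfEquivOfLe h2).toEquiv]
    exact Subgroup.card_dvd_of_le (Subgroup.comap_mono h1)
  have h5 : 81 ∣ Nat.card (Geo.specialLinear (Fin 3) F) :=
    (h3 ▸ mul_dvd_mul h4 h : 27 * 3 ∣ Nat.card G).trans (Subgroup.card_dvd_of_le hG)
  have h6 : Nat.card (Geo.specialLinear (Fin 3) F) = Nat.card (SpecialLinearGroup (Fin 3) F) :=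
    Nat.card_congr ⟨fun g => ⟨g.1, mem_SL.mp g.2⟩, fun g => ⟨g.toGL, mem_SL.mpr g.2⟩,
      fun g => Subtype.ext (Units.ext rfl), fun g => rfl⟩
  rw [h6, H8.card_SL_eq 3 (by norm_num), ← ZMod.natCast_eq_zero_iff] at h5
  have h7 : 1 ≤ Fintype.card F := Fintype.card_pos
  simp only [Finset.sum_range_succ, Finset.prod_range_succ, Finset.range_zero, Finset.sum_empty,
    Finset.prod_empty, Nat.reduceSub, Nat.cast_mul, Nat.cast_pow, Nat.cast_one,
    Nat.cast_sub (Nat.one_le_pow _ _ h7)] at h5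
  have h8 : ∀ a : ZMod 81, a.val % 9 = 4 ∨ a.val % 9 = 7 →
      a ^ (0 + 0 + 1 + 2) * (1 * (a ^ (0 + 2) - 1) * (a ^ (1 + 2) - 1)) ≠ 0 := by decide +kernel
  refine h8 _ ?_ h5
  rw [ZMod.val_natCast]
  omega

theorem roots_three {w : F} (hw : w ^ 2 + w + 1 = 0) {ε z : F} (h : ε ^ 3 = z) (d : K F)
    (hd : d ^ 3 = algebraMap F (K F) z) : ∃ e, algebraMap F (K F) e = d := by
  have h1 := congrArg (algebraMap F (K F)) hw
  rw [← h, map_pow] at hd
  simp only [map_add, map_pow, map_one, map_zero] at h1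
  have : (d - algebraMap F (K F) ε) * ((d - algebraMap F (K F) (ε * w)) *
      (d - algebraMap F (K F) (ε * w ^ 2))) = 0 := by
    simp only [map_mul, map_pow]; grind
  simp only [mul_eq_zero, sub_eq_zero] at this
  rcases this with e | e | e <;> exact ⟨_, e.symm⟩

theorem exists_cube_root [Fintype F] (hq : Fintype.card F % 9 = 1) {z : F} (hz : z ^ 3 = 1) :
    ∃ ε : F, ε ^ 3 = z := by
  obtain ⟨ζ, h⟩ := H8.exists_isPrimitiveRoot (F := F) (d := 9) (by omega)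
  obtain ⟨i, -, rfl⟩ := (h.pow (by norm_num) (show 9 = 3 * 3 from rfl)).eq_pow_of_pow_eq_one hz
  exact ⟨ζ ^ i, by ring⟩

theorem nrm_dg {σ : F →+* F} {hσ : ∀ a, σ (σ a) = a} (e : Fin 3 → F) :
    Nrm σ hσ (diagonal e) := fun c _ =>
  ⟨diagonal ![c, 1, 1], by simp [Fin.prod_univ_three], by
    simp only [diagonal_mul_diagonal, mul_comm], by
    simp only [uAdj_apply, diagonal_map (map_zero _), diagonal_transpose, diagonal_mul_diagonal,
      mul_comm]⟩

end Cfsg.Agent.H2.SympType
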