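import Mathlib
import Cfsg.Agent.H2.FreeStruct

/-!
Linear groups over the prime field that are regular on the non-zero vectors.
-/

set_option autoImplicit false

namespace Cfsg.Agent.H2.RegLin

variable {p : ℕ} [Fact p.Prime] {V : Type*} [AddCommGroup V] [Module (ZMod p) V] [Finite V]
  {H : Subgroup (V ≃ₗ[ZMod p] V)}

theorem smul_def' (h : H) (v : V) : h • v = (h : V ≃ₗ[ZMod p] V) v := rfl

theorem free_of_reg
    (hreg : ∀ v w : V, v ≠ 0 → w ≠ 0 → ∃! h : H, (h : V ≃ₗ[ZMod p] V) v = w) :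
    ∀ g : H, g ≠ 1 → ∀ v : V, g • v = v → v = 0 := by
  intro g hg v hv
  by_contra hv0
  exact hg ((hreg v v hv0 hv0).unique hv rfl)

theorem finite_H : Finite H := by
  haveI : Finite (V ≃ₗ[ZMod p] V) :=
    Finite.of_injective (fun e : V ≃ₗ[ZMod p] V => (e : V → V)) DFunLike.coe_injective
  infer_instance

theorem card_H [Nontrivial V]
    (hreg : ∀ v w : V, v ≠ 0 → w ≠ 0 → ∃! h : H, (h : V ≃ₗ[ZMod p] V) v = w) :
    Nat.card H = Nat.card V - 1 := by
  classical
  obtain ⟨v, hv⟩ := exists_ne (0 : V)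
  let f : H → {w : V // w ≠ 0} := fun h => ⟨(h : V ≃ₗ[ZMod p] V) v, by simpa using hv⟩
  have hf : Function.Bijective f := by
    constructor
    · intro g h hgh
      exact (hreg v _ hv (f h).2).unique (congrArg Subtype.val hgh) rfl
    · rintro ⟨w, hw⟩
      obtain ⟨h, hh⟩ := (hreg v w hv hw).exists
      exact ⟨h, Subtype.ext hh⟩
  rw [Nat.card_eq_of_bijective f hf]
  haveI := Fintype.ofFinite V
  rw [Nat.card_eq_fintype_card, Fintype.card_subtype_compl, Nat.card_eq_fintype_card]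
  simp

theorem nontrivial_of_submodule {W : Submodule (ZMod p) V} (hW : W ≠ ⊥) : Nontrivial V := by
  obtain ⟨v, -, hv⟩ := Submodule.exists_mem_ne_zero_of_ne_bot hW
  exact ⟨⟨v, 0, hv⟩⟩

theorem card_dvd_of_invariant
    (hreg : ∀ v w : V, v ≠ 0 → w ≠ 0 → ∃! h : H, (h : V ≃ₗ[ZMod p] V) v = w) (A : Subgroup H)
    (W : Submodule (ZMod p) V) (hW : ∀ a ∈ A, ∀ v ∈ W, ((a : H) : V ≃ₗ[ZMod p] V) v ∈ W) :
    Nat.card A ∣ Nat.card W - 1 :=
  FreeStruct.card_dvd_sub_one (G := A) (V := V)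
    (fun g hg v hv => free_of_reg hreg g (fun e => hg (Subtype.ext e)) v hv) W.toAddSubgroup
    (fun g v hv => hW g g.2 v hv)

theorem isCyclic_of_comm [Nontrivial V]
    (hreg : ∀ v w : V, v ≠ 0 → w ≠ 0 → ∃! h : H, (h : V ≃ₗ[ZMod p] V) v = w) (A : Subgroup H)
    (hAc : IsMulCommutative A) : IsCyclic A := by
  haveI := finite_H (H := H)
  exact ((FreeStruct.sylStr_of_free (free_of_reg hreg)).subgroup A).isCyclic_of_comm hAc

theorem lt_centralizer
    (hreg : ∀ v w : V, v ≠ 0 → w ≠ 0 → ∃! h : H, (h : V ≃ₗ[ZMod p] V) v = w)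
    (hI : ∀ A : Subgroup H, A.Normal → IsCyclic A → ∃ W : Submodule (ZMod p) V, W ≠ ⊥ ∧ W ≠ ⊤ ∧
      ∀ a ∈ A, ∀ v ∈ W, ((a : H) : V ≃ₗ[ZMod p] V) v ∈ W)
    (A : Subgroup H) (hAn : A.Normal) (hAc : IsMulCommutative A) :
    A < Subgroup.centralizer (A : Set H) := by
  haveI := finite_H (H := H)
  obtain ⟨W₀, hW₀, -⟩ := hI ⊥ inferInstance inferInstance
  haveI := nontrivial_of_submodule hW₀
  haveI := isCyclic_of_comm hreg A hAc
  obtain ⟨W, hW0, hW1, hW⟩ := hI A hAn inferInstance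
  refine lt_of_le_of_ne (Subgroup.le_centralizer A) (fun heq => ?_)
  -- the index of the centraliser is at most the order of `A`
  have hker : (MulAut.conjNormal : H →* MulAut A).ker = Subgroup.centralizer (A : Set H) := by
    ext h
    rw [MonoidHom.mem_ker, Subgroup.mem_centralizer_iff]
    constructor
    · intro e a ha
      have := congrArg (fun φ : MulAut A => ((φ ⟨a, ha⟩ : A) : H)) e
      simp only [MulAut.conjNormal_apply, MulAut.one_apply] at this
      exact (mul_inv_eq_iff_eq_mul.mp this).symm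
    · intro e
      ext a
      simp only [MulAut.conjNormal_apply, MulAut.one_apply]
      rw [← e a a.2, mul_inv_cancel_right]
  have hidx : A.index ≤ Nat.card A := by
    have h1 : A.index ≤ Nat.card (MulAut A) := by
      have : A.index = (MulAut.conjNormal : H →* MulAut A).ker.index := by rw [hker, ← heq]
      rw [this, Subgroup.index_ker]
      exact Nat.card_le_card_of_injective _ Subtype.val_injective
    rw [IsCyclic.card_mulAut] at h1
    exact h1.trans (Nat.totient_le _)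
  have hH := card_H hreg
  have hmul := A.index_mul_card
  have hd1 := card_dvd_of_invariant hreg A W hW
  have hd2 : Nat.card A ∣ Nat.card V - 1 := hH ▸ Subgroup.card_subgroup_dvd_card A
  have hVW : Nat.card V = Nat.card (V ⧸ W) * Nat.card W :=
    AddSubgroup.card_eq_card_quotient_mul_card_addSubgroup W.toAddSubgroup
  haveI : Nontrivial W := Submodule.nontrivial_iff_ne_bot.mpr hW0
  haveI : Nontrivial (V ⧸ W) := Submodule.Quotient.nontrivial_iff.mpr hW1
  have hw : 1 < Nat.card W := Finite.one_lt_card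
  haveI : Finite (V ⧸ W) := Finite.of_surjective _ W.mkQ_surjective
  have hu : 1 < Nat.card (V ⧸ W) := Finite.one_lt_card
  generalize Nat.card W = w at *
  generalize Nat.card (V ⧸ W) = u at *
  generalize Nat.card A = a at *
  obtain ⟨w, rfl⟩ : ∃ w', w = w' + 1 := ⟨w - 1, by omega⟩
  obtain ⟨u, rfl⟩ : ∃ u', u = u' + 1 := ⟨u - 1, by omega⟩
  rw [hVW] at hd2 hH
  have e : (u + 1) * (w + 1) - 1 = u + (u + 1) * w := by
    rw [mul_add, mul_one]; omega
  rw [e] at hd2 hH
  rw [Nat.add_sub_cancel] at hd1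
  have hd3 : a ∣ u := (Nat.dvd_add_left (hd1.mul_left _)).mp hd2
  have h1 : a ≤ u := Nat.le_of_dvd (by omega) hd3
  have h2 : a ≤ w := Nat.le_of_dvd (by omega) hd1
  have h3 : A.index * a ≤ u * w := Nat.mul_le_mul (hidx.trans h1) h2
  rw [hmul, hH] at h3
  nlinarith

end Cfsg.Agent.H2.RegLin
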