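import Mathlib
import Cfsg.Agent.H2.Zass
import Cfsg.Agent.H2.RegLin

/-!
Quaternion subgroups of regular linear groups.
-/

set_option autoImplicit false

namespace Cfsg.Agent.H2.QuatDim

open FreeStruct
open scoped commutatorElement

section quaternion

variable {G : Type*} [Group G] {c b : G} (hc : orderOf c = 4) (hb : b * b = c * c)
  (hbc : b * c * b⁻¹ = c⁻¹)
include hc

theorem pw_add (i j : ZMod (2 * 2)) : c ^ (i + j).val = c ^ i.val * c ^ j.val := by
  rw [ZMod.val_add, ← pow_add]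
  have := pow_mod_orderOf c (i.val + j.val)
  rwa [hc] at this

theorem pw_sub (i j : ZMod (2 * 2)) : c ^ (j - i).val = (c ^ i.val)⁻¹ * c ^ j.val := by
  rw [eq_inv_mul_iff_mul_eq, ← pw_add hc]
  congr 2
  ring

include hb hbc

/-- The quaternion group generated by two elements of order four. -/
def quatHom : QuaternionGroup 2 →* G :=
  MonoidHom.mk' (fun q => match q with
    | QuaternionGroup.a i => c ^ i.val
    | QuaternionGroup.xa i => b * c ^ i.val) (by
      have h1 : ∀ n : ℕ, c ^ n * b = b * (c ^ n)⁻¹ := by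
        intro n
        have h2 : b * c ^ n * b⁻¹ = (c ^ n)⁻¹ := by rw [← conj_pow, hbc, inv_pow]
        have h3 : b * (c ^ n)⁻¹ * b⁻¹ = c ^ n := by
          calc _ = (b * c ^ n * b⁻¹)⁻¹ := by group
            _ = c ^ n := by rw [h2, inv_inv]
        calc c ^ n * b = (b * (c ^ n)⁻¹ * b⁻¹) * b := by rw [h3]
          _ = _ := by group
      rintro (i | i) (j | j)
      · exact pw_add hc i j
      · change b * c ^ (j - i).val = _
        rw [pw_sub hc, ← mul_assoc, ← mul_assoc, h1]
      · change b * c ^ (i + j).val = _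
        rw [pw_add hc, mul_assoc]
      · change c ^ (((2 : ℕ) : ZMod (2 * 2)) + j - i).val = _
        rw [add_sub_assoc, pw_add hc, pw_sub hc]
        have : (((2 : ℕ) : ZMod (2 * 2))).val = 2 := rfl
        rw [this, sq, ← hb]
        calc _ = b * (b * (c ^ i.val)⁻¹) * c ^ j.val := by group
          _ = _ := by rw [← h1]; group)

theorem quatHom_a (i : ZMod (2 * 2)) : quatHom hc hb hbc (QuaternionGroup.a i) = c ^ i.val := rfl

theorem quatHom_xa (i : ZMod (2 * 2)) :
    quatHom hc hb hbc (QuaternionGroup.xa i) = b * c ^ i.val := rfl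

theorem quatHom_injective : Function.Injective (quatHom hc hb hbc) := by
  rw [injective_iff_map_eq_one]
  rintro (i | i) h
  · rw [quatHom_a] at h
    have h1 := orderOf_dvd_of_pow_eq_one h
    rw [hc] at h1
    have h2 : i.val = 0 := Nat.eq_zero_of_dvd_of_lt h1 (ZMod.val_lt i)
    rw [ZMod.val_eq_zero] at h2
    rw [h2]; rfl
  · exfalso
    rw [quatHom_xa, mul_eq_one_iff_eq_inv] at h
    rw [h] at hbc
    have h1 : c = c⁻¹ := by rw [← hbc]; group
    have : c ^ 2 = 1 := by rw [sq]; nth_rewrite 2 [h1]; simp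
    exact pow_ne_one_of_lt_orderOf (by norm_num) (by omega) this

theorem range_quatHom_le (N : Subgroup G) (h1 : c ∈ N) (h2 : b ∈ N) :
    (quatHom hc hb hbc).range ≤ N := by
  rintro _ ⟨i | i, rfl⟩
  · exact N.pow_mem h1 _
  · exact N.mul_mem h2 (N.pow_mem h1 _)

theorem mem_range_c : c ∈ (quatHom hc hb hbc).range := ⟨QuaternionGroup.a 1, pow_one c⟩

theorem mem_range_b : b ∈ (quatHom hc hb hbc).range :=
  ⟨QuaternionGroup.xa 0, by rw [quatHom_xa]; simp⟩

end quaternion

/-- A normal quaternion subgroup. -/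
structure IsQ8 {G : Type*} [Group G] (N : Subgroup G) (i j : G) : Prop where
  oi : orderOf i = 4
  oj : orderOf j = 4
  conj : j * i * j⁻¹ = i⁻¹
  mi : i ∈ N
  mj : j ∈ N
  four : ∀ d ∈ N, orderOf d = 4 →
    d = i ∨ d = i⁻¹ ∨ d = j ∨ d = j⁻¹ ∨ d = i * j ∨ d = (i * j)⁻¹
  le : ∀ M : Subgroup G, i ∈ M → j ∈ M → N ≤ M
  iso : Nonempty (N ≃* QuaternionGroup 2)

theorem conj_eq_inv {G : Type*} [Group G] (hS : SylStr G) {i j : G} (hi : orderOf i = 4)
    (hj : orderOf j = 4) (hij : ¬ Commute i j) (hc : Commute j ⁅j, i⁆) : j * i * j⁻¹ = i⁻¹ := by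
  have hz : (j ^ 2) ^ 2 = 1 := by
    rw [← pow_mul]; exact orderOf_dvd_iff_pow_eq_one.mp (by rw [hj])
  have hz1 : j ^ 2 ≠ 1 := pow_ne_one_of_lt_orderOf (by norm_num) (by omega)
  have h1 : j * i * j⁻¹ = ⁅j, i⁆ * i := by rw [commutatorElement_def]; group
  have h2 : ⁅j, i⁆ ^ 2 = 1 := by
    have h3 : j ^ 2 * i * (j ^ 2)⁻¹ = i := by rw [← hS.invol_comm hz i]; group
    have h4 : j ^ 2 * i * (j ^ 2)⁻¹ = ⁅j, i⁆ ^ 2 * i := by
      calc _ = j * (j * i * j⁻¹) * j⁻¹ := by simp [sq, mul_assoc]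
        _ = (j * ⁅j, i⁆ * j⁻¹) * (j * i * j⁻¹) := by nth_rewrite 1 [h1]; group
        _ = _ := by rw [hc.eq, h1, mul_inv_cancel_right, sq, mul_assoc]
    rw [h3] at h4
    exact (mul_right_cancel (h4.symm.trans (one_mul i).symm))
  have h5 : ⁅j, i⁆ ≠ 1 := fun e => hij (commutatorElement_eq_one_iff_commute.mp e).symm
  have h6 := hS.invol _ _ h2 h5 hz hz1
  rw [h1, h6, ← Three.sq_eq_of_order_four hS hz hz1 hi, eq_inv_iff_mul_eq_one]
  have := pow_orderOf_eq_one i
  rw [hi] at this
  rw [← this]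
  simp [pow_succ]

/-- A minimal non-abelian normal subgroup centralising a maximal abelian normal subgroup is
perfect or quaternion of order eight. -/
theorem min_cases {G : Type*} [Group G] [Finite G] (hS : SylStr G) (A : Subgroup G)
    (hAn : A.Normal) (hAc : IsMulCommutative A)
    (hAmax : ∀ B : Subgroup G, B.Normal → IsMulCommutative B → A ≤ B → B = A) (N : Subgroup G)
    (hNn : N.Normal) (hNle : N ≤ Subgroup.centralizer (A : Set G)) (hNna : ¬ IsMulCommutative N)
    (hNmin : ∀ M : Subgroup G, M.Normal → M ≤ N → ¬ IsMulCommutative M → M = N) :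
    (∃ i j, IsQ8 N i j) ∨ commutator N = ⊤ := by
  by_cases hab : IsMulCommutative (⁅N, N⁆ : Subgroup G)
  swap
  · right
    have := hNmin ⁅N, N⁆ inferInstance (Subgroup.commutator_le_left N N) hab
    apply Subgroup.map_injective N.subtype_injective
    rw [Subgroup.map_subtype_commutator, this, ← MonoidHom.range_eq_map, Subgroup.range_subtype]
  left
  have hle : ⁅N, N⁆ ≤ A := by
    have h1 : A ⊔ ⁅N, N⁆ = A := by
      refine hAmax _ inferInstance ?_ le_sup_left
      have h2 : ⁅N, N⁆ ≤ Subgroup.centralizer (A : Set G) :=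
        (Subgroup.commutator_le_left N N).trans hNle
      rw [← Subgroup.le_centralizer_iff_isMulCommutative, sup_le_iff]
      constructor
      · rw [Subgroup.le_centralizer_iff, sup_le_iff]
        exact ⟨Subgroup.le_centralizer_iff_isMulCommutative.mpr hAc, h2⟩
      · rw [Subgroup.le_centralizer_iff, sup_le_iff]
        exact ⟨Subgroup.le_centralizer_iff.mp h2,
          Subgroup.le_centralizer_iff_isMulCommutative.mpr hab⟩
    rw [← h1]; exact le_sup_right
  have hcen : ∀ x ∈ N, ∀ y ∈ N, ∀ w ∈ N, Commute w ⁅x, y⁆ := fun x hx y hy w hw =>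
    (hNle hw _ (hle (Subgroup.commutator_mem_commutator hx hy))).symm
  haveI : Group.IsNilpotent N := by
    haveI : Group.IsNilpotent (N ⧸ Subgroup.center N) := by
      letI : CommGroup (N ⧸ Subgroup.center N) :=
        { (inferInstance : Group (N ⧸ Subgroup.center N)) with
          mul_comm := fun a b => by
            induction a using QuotientGroup.induction_on with | H a => ?_
            induction b using QuotientGroup.induction_on with | H b => ?_
            rw [← QuotientGroup.mk_mul, ← QuotientGroup.mk_mul, QuotientGroup.eq,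
              Subgroup.mem_center_iff]
            intro w
            apply Subtype.ext
            have := (hcen _ (N.inv_mem b.2) _ (N.inv_mem a.2) w w.2).eq
            simpa [commutatorElement_def, mul_assoc] using this }
      infer_instance
    exact Group.of_quotient_center_nilpotent inferInstance
  obtain ⟨i, j, hi, hj, hij⟩ : ∃ i j : N, orderOf i = 4 ∧ orderOf j = 4 ∧ ¬ Commute i j := by
    by_contra hn
    push Not at hn
    haveI := (hS.subgroup N).isZGroup hn
    exact hNna inferInstance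
  have oi : orderOf (i : G) = 4 := by simpa using hi
  have oj : orderOf (j : G) = 4 := by simpa using hj
  have hij' : ¬ Commute (i : G) j := fun e => hij (Subtype.ext e)
  have key : ∀ x ∈ N, ∀ y ∈ N, orderOf x = 4 → orderOf y = 4 →
      (x = y ∨ x = y⁻¹) ∨ y * x * y⁻¹ = x⁻¹ := by
    intro x hx y hy ox oy
    by_cases e : Commute x y
    · exact Or.inl (hS.eq_or_eq_inv oy ox e.symm)
    · exact Or.inr (conj_eq_inv hS ox oy e (hcen y hy x hx y hy))
  have hconj : (j : G) * i * (j : G)⁻¹ = (i : G)⁻¹ :=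
    conj_eq_inv hS oi oj hij' (hcen _ j.2 _ i.2 _ j.2)
  have hz : ((j : G) ^ 2) ^ 2 = 1 := by
    rw [← pow_mul]; exact orderOf_dvd_iff_pow_eq_one.mp (by rw [oj])
  have hz1 : (j : G) ^ 2 ≠ 1 := pow_ne_one_of_lt_orderOf (by norm_num) (by omega)
  have hsq : (j : G) * j = i * i := by rw [Three.sq_eq_of_order_four hS hz hz1 oi, sq]
  have ok : orderOf ((i : G) * j) = 4 := by
    haveI : Fact (Nat.Prime 2) := ⟨Nat.prime_two⟩
    have : ((i : G) * j) ^ 2 = j ^ 2 := by
      calc ((i : G) * j) ^ 2 = i * (j * i * (j : G)⁻¹) * (j * j) := by simp [sq, mul_assoc]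
        _ = j ^ 2 := by rw [hconj, sq]; group
    apply orderOf_eq_prime_pow (p := 2) (n := 1)
    · rw [pow_one, this]; exact hz1
    · rw [pow_succ, pow_mul, pow_one, this]; exact hz
  have hfour : ∀ d ∈ N, orderOf d = 4 → d = i ∨ d = (i : G)⁻¹ ∨ d = j ∨ d = (j : G)⁻¹ ∨
      d = i * j ∨ d = ((i : G) * j)⁻¹ := by
    intro d hd od
    rcases key i i.2 d hd oi od with (e | e) | e1
    · exact Or.inl e.symm
    · exact Or.inr (Or.inl (by rw [e, inv_inv]))
    rcases key j j.2 d hd oj od with (e | e) | e2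
    · exact Or.inr (Or.inr (Or.inl e.symm))
    · exact Or.inr (Or.inr (Or.inr (Or.inl (by rw [e, inv_inv]))))
    right; right; right; right
    apply hS.eq_or_eq_inv ok od
    apply Commute.symm
    apply mul_inv_eq_iff_eq_mul.mp
    calc d * (i * j) * d⁻¹ = (d * i * d⁻¹) * (d * j * d⁻¹) := by group
      _ = (j * i * (j : G)⁻¹) * ((j : G) * j)⁻¹ * j := by rw [e1, e2, hconj]; group
      _ = (i : G)⁻¹ * ((i : G) * i)⁻¹ * j := by rw [hconj, hsq]
      _ = ((i : G) ^ 4)⁻¹ * (i * j) := by simp [pow_succ, mul_assoc]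
      _ = i * j := by rw [← oi, pow_orderOf_eq_one]; simp
  set φ := quatHom oi hsq hconj with hφ
  have mi := mem_range_c oi hsq hconj
  have mj := mem_range_b oi hsq hconj
  have hQ : φ.range = N := by
    have h4 : ∀ d ∈ N, orderOf d = 4 → d ∈ φ.range := by
      intro d hd od
      rcases hfour d hd od with e | e | e | e | e | e <;> rw [e] <;>
        repeat first | assumption | apply Subgroup.mul_mem | apply Subgroup.inv_mem
    refine hNmin _ ⟨fun n hn g => ?_⟩ (range_quatHom_le oi hsq hconj N i.2 j.2) ?_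
    · exact range_quatHom_le oi hsq hconj (φ.range.comap (MulAut.conj g).toMonoidHom)
        (h4 (g * i * g⁻¹) (hNn.conj_mem _ i.2 g) (by rw [Zass.orderOf_conj, oi]))
        (h4 (g * j * g⁻¹) (hNn.conj_mem _ j.2 g) (by rw [Zass.orderOf_conj, oj])) hn
    · intro hc
      exact hij' (congrArg Subtype.val (hc.is_comm.comm ⟨_, mi⟩ ⟨_, mj⟩))
  refine ⟨i, j, oi, oj, hconj, i.2, j.2, hfour, fun M h1 h2 => ?_, ⟨?_⟩⟩
  · rw [← hQ]; exact range_quatHom_le oi hsq hconj M h1 h2
  · exact (MulEquiv.subgroupCongr hQ.symm).trans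
      (MonoidHom.ofInjective (quatHom_injective oi hsq hconj)).symm

section linear

variable {p : ℕ} [hp : Fact p.Prime] {V : Type*} [AddCommGroup V] [Module (ZMod p) V] [Finite V]
  {H : Subgroup (V ≃ₗ[ZMod p] V)}

theorem quat_dim [Nontrivial V]
    (hfree : ∀ g : H, g ≠ 1 → ∀ v : V, g • v = v → v = 0) {i j : H} (hi : orderOf i = 4)
    (hj : orderOf j = 4) (hij : j * i * j⁻¹ = i⁻¹) :
    ∃ q k : ℕ, q = p ^ k ∧ 0 < k ∧ p ≠ 2 ∧ Nat.card V = q ^ 2 ∧
      ∀ C : Subgroup H, (∀ c ∈ C, Commute c i ∧ Commute c j) →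
        Nat.card C ∣ q - 1 ∧ (q.Prime → IsMulCommutative C) := by
  have sq4 : ∀ x : H, orderOf x = 4 → ∀ v : V, x • x • v = -v := by
    intro x hx v
    rw [← mul_smul, ← sq]
    exact FreeAct.smul_eq_neg_of_sq hfree
      (by rw [← pow_mul]; exact orderOf_dvd_iff_pow_eq_one.mp (by rw [hx]))
      (pow_ne_one_of_lt_orderOf (by norm_num) (by omega)) v
  have two : ∀ v : V, v + v = 0 → v = 0 := by
    intro v hv
    apply hfree (i ^ 2) (pow_ne_one_of_lt_orderOf (by norm_num) (by omega))
    rw [sq, mul_smul, sq4 i hi, neg_eq_iff_add_eq_zero, hv]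
  have hp2 : p ≠ 2 := by
    rintro rfl
    obtain ⟨v, hv⟩ := exists_ne (0 : V)
    apply hv
    apply two
    rw [← two_smul (ZMod 2) v]
    have : (2 : ZMod 2) = 0 := rfl
    rw [this, zero_smul]
  have lin : ∀ (g : H) (a : ZMod p) (v : V), g • a • v = a • g • v := fun g a v =>
    map_smul (g : V ≃ₗ[ZMod p] V) a v
  have hji : ∀ v : V, j • i • v = -(i • j • v) := by
    intro v
    have h1 : j * i = i⁻¹ * j := by rw [← hij]; group
    rw [← mul_smul, h1, mul_smul, inv_smul_eq_iff, smul_neg, sq4 i hi, neg_neg]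
  obtain ⟨a, b, hab⟩ := ZMod.sq_add_sq p (-1)
  let ι : V →ₗ[ZMod p] V := a • (i : V ≃ₗ[ZMod p] V).toLinearMap + b • (j : V ≃ₗ[ZMod p] V).toLinearMap
  have hι : ∀ v, ι v = a • i • v + b • j • v := fun v => rfl
  have hιι : ∀ v, ι (ι v) = v := by
    intro v
    rw [hι, hι]
    simp only [smul_add, lin, sq4 i hi, sq4 j hj, hji]
    simp only [RegLin.smul_def']
    linear_combination (norm := module) (-hab) • v
  have hk : ∀ v, ι ((i * j) • v) = -((i * j) • ι v) := by
    intro v
    rw [hι, hι]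
    simp only [mul_smul, smul_add, lin, sq4 i hi, sq4 j hj, hji, smul_neg, neg_neg]
    simp only [RegLin.smul_def']
    module
  let W : Submodule (ZMod p) V := LinearMap.ker (ι - LinearMap.id)
  have hW : ∀ v, v ∈ W ↔ ι v = v := fun v => by
    simp only [W, LinearMap.mem_ker, LinearMap.sub_apply, LinearMap.id_apply, sub_eq_zero]
  have h2 : (2 : ZMod p) ≠ 0 := by
    intro e
    have : ((2 : ℕ) : ZMod p) = 0 := by exact_mod_cast e
    rw [ZMod.natCast_eq_zero_iff] at this
    exact hp2 ((Nat.prime_dvd_prime_iff_eq hp.out Nat.prime_two).mp this)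
  have hcard : Nat.card V = Nat.card W ^ 2 := by
    rw [sq, ← Nat.card_prod]
    symm
    refine Nat.card_congr (Equiv.ofBijective (fun x : W × W => (x.1 : V) + (i * j) • (x.2 : V))
      ⟨?_, ?_⟩)
    · rintro ⟨u, w⟩ ⟨u', w'⟩ h
      have h1 := congrArg ι h
      simp only [map_add, hk, (hW _).mp u.2, (hW _).mp w.2, (hW _).mp u'.2, (hW _).mp w'.2] at h h1
      have h3 : (u : V) = u' := by
        rw [← sub_eq_zero]
        apply two
        simp only [RegLin.smul_def'] at h h1
        linear_combination (norm := module) h + h1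
      rw [h3, add_right_inj, smul_left_cancel_iff] at h
      exact Prod.ext (Subtype.ext h3) (Subtype.ext h)
    · intro v
      refine ⟨(⟨(2 : ZMod p)⁻¹ • (v + ι v), ?_⟩, ⟨(i * j)⁻¹ • (2 : ZMod p)⁻¹ • (v - ι v), ?_⟩), ?_⟩
      · rw [hW, map_smul, map_add, hιι, add_comm]
      · rw [hW, eq_inv_smul_iff, ← neg_inj, ← hk, smul_inv_smul, map_smul, map_sub, hιι]
        module
      · simp only [smul_inv_smul]
        rw [← smul_add, add_add_sub_cancel, ← two_smul (ZMod p) v, smul_smul,
          inv_mul_cancel₀ h2, one_smul]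
  have hk' : Nat.card W = p ^ Module.finrank (ZMod p) W := by
    rw [Module.natCard_eq_pow_finrank (K := ZMod p), Nat.card_zmod]
  have hW1 : 1 < Nat.card W := by
    have := Finite.one_lt_card (α := V)
    rw [hcard] at this
    by_contra hn
    have : Nat.card W ^ 2 ≤ 1 := pow_le_one₀ (Nat.zero_le _) (by omega)
    omega
  refine ⟨Nat.card W, _, hk', ?_, hp2, hcard, fun C hC => ?_⟩
  · by_contra hn
    rw [Nat.eq_zero_of_not_pos hn, pow_zero] at hk'
    omega
  have hCW : ∀ c ∈ C, ∀ v ∈ W, c • v ∈ W := by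
    intro c hc v hv
    rw [hW] at hv ⊢
    rw [hι, ← mul_smul i, ← mul_smul j, ← (hC c hc).1.eq, ← (hC c hc).2.eq, mul_smul, mul_smul,
      ← lin c a, ← lin c b, ← smul_add, ← hι, hv]
  constructor
  · exact card_dvd_sub_one (G := C) (V := V)
      (fun g hg v hv => hfree g (fun e => hg (Subtype.ext e)) v hv) W.toAddSubgroup
      (fun g v hv => hCW g g.2 v hv)
  · intro hq
    haveI : Nontrivial W := Finite.one_lt_card_iff_nontrivial.mp hW1
    obtain ⟨w, hw⟩ := exists_ne (0 : W)
    have hw0 : (w : V) ≠ 0 := fun e => hw (Subtype.ext e)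
    haveI : Fact (Nat.card W).Prime := ⟨hq⟩
    have hgen : ∀ u : W, u ∈ AddSubgroup.zmultiples w := fun u =>
      mem_zmultiples_of_prime_card rfl hw
    refine ⟨⟨fun c d => Subtype.ext ?_⟩⟩
    obtain ⟨m, hm⟩ := hgen ⟨_, hCW c c.2 w w.2⟩
    obtain ⟨n, hn⟩ := hgen ⟨_, hCW d d.2 w w.2⟩
    have hm' : m • (w : V) = (c : H) • (w : V) := congrArg Subtype.val hm
    have hn' : n • (w : V) = (d : H) • (w : V) := congrArg Subtype.val hn
    have e : ((c : H) * d) • (w : V) = ((d : H) * c) • (w : V) := by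
      rw [mul_smul, mul_smul, ← hm', ← hn', smul_comm, smul_comm (d : H), ← hm', ← hn', smul_comm]
    change (c : H) * d = d * c
    by_contra hne
    exact hw0 (hfree (((d : H) * c)⁻¹ * (c * d)) (fun h => hne (inv_mul_eq_one.mp h).symm) _
      (by rw [mul_smul, e, inv_smul_smul]))

end linear

end Cfsg.Agent.H2.QuatDim
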