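import Mathlib
import Cfsg.Agent.H2.QuatDim

/-!
The exceptional regular linear groups: numerical restrictions.
-/

set_option autoImplicit false

namespace Cfsg.Agent.H2.QuatNum

open FreeStruct Quat Tetra Ico QuatDim

theorem relIndex_centralizer_le {G : Type*} [Group G] (K : Subgroup G) (x : G) (s : Finset G)
    (h : ∀ k ∈ K, k * x * k⁻¹ ∈ s) : (Subgroup.centralizer {x}).relIndex K ≤ s.card := by
  letI : MulAction K G := MulAction.compHom G ((MulAut.conj : G →* MulAut G).comp K.subtype)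
  have h1 : (Subgroup.centralizer {x}).subgroupOf K = MulAction.stabilizer K x := by
    ext k
    rw [Subgroup.mem_subgroupOf, Subgroup.mem_centralizer_singleton_iff,
      MulAction.mem_stabilizer_iff, ← mul_inv_eq_iff_eq_mul]
    rfl
  rw [Subgroup.relIndex, h1, MulAction.index_stabilizer, ← Set.ncard_coe_finset]
  exact Set.ncard_le_ncard (by rintro _ ⟨k, rfl⟩; exact h k k.2) (Set.toFinite _)

theorem two_dvd_relIndex {G : Type*} [Group G] (K : Subgroup G) {x s : G} (hs : s ∈ K)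
    (h : s * x * s⁻¹ = x⁻¹) (hx : x ≠ x⁻¹) : 2 ∣ (Subgroup.centralizer {x}).relIndex K := by
  let M : Subgroup G :=
    { carrier := {g | g * x * g⁻¹ = x ∨ g * x * g⁻¹ = x⁻¹}
      one_mem' := by simp
      mul_mem' := by
        intro a b ha hb
        have e : a * b * x * (a * b)⁻¹ = a * (b * x * b⁻¹) * a⁻¹ := by group
        have e' : a * x⁻¹ * a⁻¹ = (a * x * a⁻¹)⁻¹ := by group
        simp only [Set.mem_ofPred_eq] at ha hb ⊢
        rw [e]
        rcases hb with hb | hb <;> rw [hb]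
        · exact ha
        · rw [e']
          rcases ha with ha | ha <;> rw [ha] <;> simp
      inv_mem' := by
        intro a ha
        simp only [Set.mem_ofPred_eq] at ha ⊢
        rcases ha with ha | ha
        · left; nth_rewrite 1 [← ha]; group
        · right
          calc a⁻¹ * x * a⁻¹⁻¹ = a⁻¹ * (a * x * a⁻¹)⁻¹ * a := by rw [ha]; group
            _ = x⁻¹ := by group }
  have h1 : (Subgroup.centralizer {x} ⊓ K).relIndex (M ⊓ K) = 2 := by
    rw [Subgroup.relIndex_eq_two_iff]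
    refine ⟨s, ⟨Or.inr h, hs⟩, fun g hg => ?_⟩
    have e : g * s * x * (g * s)⁻¹ = (g * x * g⁻¹)⁻¹ := by
      calc _ = g * (s * x * s⁻¹) * g⁻¹ := by group
        _ = _ := by rw [h]; group
    simp only [Subgroup.mem_inf, Subgroup.mem_centralizer_singleton_iff, ← mul_inv_eq_iff_eq_mul,
      e, (show g ∈ K from hg.2), K.mul_mem hg.2 hs, and_true]
    rcases hg.1 with e' | e' <;> rw [e']
    · exact Or.inr ⟨rfl, hx.symm⟩
    · exact Or.inl ⟨inv_inv x, hx.symm⟩
  have h2 : Subgroup.centralizer {x} ⊓ K ≤ M ⊓ K := fun g hg =>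
    ⟨Or.inl (mul_inv_eq_iff_eq_mul.mpr (Subgroup.mem_centralizer_singleton_iff.mp hg.1)), hg.2⟩
  rw [← Subgroup.inf_relIndex_right, ← Subgroup.relIndex_mul_relIndex _ _ _ h2 inf_le_right, h1]
  exact Dvd.intro _ rfl

theorem ne_inv_of_order_four {G : Type*} [Group G] {c : G} (hc : orderOf c = 4) : c ≠ c⁻¹ := by
  intro e
  have : c ^ 2 = 1 := by rw [sq]; nth_rewrite 2 [e]; simp
  exact pow_ne_one_of_lt_orderOf (by norm_num) (by omega) this

theorem succ_dvd_index {G : Type*} [Group G] [Finite G] (C : Subgroup G) {q : ℕ} (hq : 1 < q)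
    (hG : Nat.card G = q ^ 2 - 1) (hC : Nat.card C ∣ q - 1) : q + 1 ∣ C.index := by
  obtain ⟨m, hm⟩ := hC
  have h1 := C.card_mul_index
  have h2 : q ^ 2 - 1 = (q + 1) * (q - 1) := by
    simpa using Nat.sq_sub_sq q 1
  rw [hG, h2, hm] at h1
  refine ⟨m, Nat.eq_of_mul_eq_mul_left (Nat.card_pos (α := C)) ?_⟩
  rw [h1]; ring

theorem eq_of_pow_prime {p q k : ℕ} (hq : q = p ^ k) (h : q.Prime) : p = q := by
  subst hq
  rw [(Nat.Prime.eq_one_of_pow h), pow_one]

theorem not_pow {p k a b : ℕ} (hp : p.Prime) (ha : a.Prime) (hb : b.Prime) (hab : a ≠ b)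
    (h : a * b = p ^ k) : False := by
  have h1 := (Nat.prime_dvd_prime_iff_eq ha hp).mp (ha.dvd_of_dvd_pow (Dvd.intro b h))
  have h2 := (Nat.prime_dvd_prime_iff_eq hb hp).mp (hb.dvd_of_dvd_pow (Dvd.intro_left a h))
  exact hab (h1.trans h2.symm)

variable {p : ℕ} [hp : Fact p.Prime] {V : Type*} [AddCommGroup V] [Module (ZMod p) V] [Finite V]
  {H : Subgroup (V ≃ₗ[ZMod p] V)}

theorem card_eq_of_invariant (hV : Nat.card V = p ^ 2) {W : Submodule (ZMod p) V} (h1 : W ≠ ⊥)
    (h2 : W ≠ ⊤) : Nat.card W = p := by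
  have h3 : Nat.card W ∣ p ^ 2 := hV ▸ AddSubgroup.card_addSubgroup_dvd_card W.toAddSubgroup
  obtain ⟨k, hk, e⟩ := (Nat.dvd_prime_pow hp.out).mp h3
  interval_cases k
  · exfalso
    apply h1
    have := AddSubgroup.eq_bot_of_card_eq W.toAddSubgroup (by simpa using e)
    exact Submodule.toAddSubgroup_injective this
  · simpa using e
  · exfalso
    apply h2
    have := AddSubgroup.eq_top_of_card_eq W.toAddSubgroup (by rw [hV]; exact e)
    simpa using this

theorem q8_case
    (hreg : ∀ v w : V, v ≠ 0 → w ≠ 0 → ∃! h : H, (h : V ≃ₗ[ZMod p] V) v = w)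
    (hI : ∀ A : Subgroup H, A.Normal → IsCyclic A → ∃ W : Submodule (ZMod p) V, W ≠ ⊥ ∧ W ≠ ⊤ ∧
      ∀ a ∈ A, ∀ v ∈ W, ((a : H) : V ≃ₗ[ZMod p] V) v ∈ W)
    {N : Subgroup H} (hN : N.Normal) {i j : H} (h : IsQ8 N i j) :
    (p = 5 ∨ p = 7 ∨ p = 11 ∨ p = 23) ∧ Nat.card V = p ^ 2 ∧
      IsMulCommutative (Subgroup.centralizer (N : Set H)) := by
  classical
  haveI := RegLin.finite_H (H := H)
  obtain ⟨W₀, hW₀, -⟩ := hI ⊥ inferInstance inferInstance
  haveI := RegLin.nontrivial_of_submodule hW₀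
  obtain ⟨q, k, hq, hk, hp2, hV, hC⟩ := quat_dim (RegLin.free_of_reg hreg) h.oi h.oj h.conj
  have hq1 : 1 < q := hq ▸ Nat.one_lt_pow hk.ne' hp.out.one_lt
  have hqo : Odd q := hq ▸ (hp.out.odd_of_ne_two hp2).pow
  have hH : Nat.card H = q ^ 2 - 1 := by rw [RegLin.card_H hreg, hV]
  let C : Subgroup H := Subgroup.centralizer {j} ⊓ Subgroup.centralizer {i}
  have h1 := succ_dvd_index C hq1 hH (hC C (fun c hc =>
    ⟨Subgroup.mem_centralizer_singleton_iff.mp hc.2,
      Subgroup.mem_centralizer_singleton_iff.mp hc.1⟩)).1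
  rw [← Subgroup.relIndex_mul_index (inf_le_right : C ≤ _), Subgroup.inf_relIndex_right,
    ← Subgroup.relIndex_top_right] at h1
  have nc : ¬ Commute j i := fun e => ne_inv_of_order_four h.oi (by rw [← h.conj, e.eq]; group)
  have a1 := relIndex_centralizer_le ⊤ i {i, i⁻¹, j, j⁻¹, i * j, (i * j)⁻¹} (fun g _ => by
    simpa using h.four _ (hN.conj_mem _ h.mi g) (by rw [Zass.orderOf_conj, h.oi]))
  have a2 := two_dvd_relIndex ⊤ (Subgroup.mem_top j) h.conj (ne_inv_of_order_four h.oi)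
  have a3 : (Subgroup.centralizer {i}).relIndex (⊤ : Subgroup H) ≠ 0 :=
    Subgroup.index_ne_zero_of_finite
  have b1 := relIndex_centralizer_le (Subgroup.centralizer {i}) j {j, j⁻¹, i * j, (i * j)⁻¹}
    (fun g hg => by
      have hg' : Commute g i := Subgroup.mem_centralizer_singleton_iff.mp hg
      have e0 : j = g⁻¹ * (g * j * g⁻¹) * g := by group
      rcases h.four _ (hN.conj_mem _ h.mj g) (by rw [Zass.orderOf_conj, h.oj]) with e | e | e
      · exact absurd (by rw [e0, e]; exact (hg'.inv_left.mul_left (Commute.refl i)).mul_left hg') nc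
      · exact absurd (by
          rw [e0, e]; exact (hg'.inv_left.mul_left (Commute.refl i).inv_left).mul_left hg') nc
      · simpa using e)
  have hij : i * j * i⁻¹ = j⁻¹ := by
    have hS := sylStr_of_free (RegLin.free_of_reg hreg)
    have hz : (j ^ 2) ^ 2 = 1 := by
      rw [← pow_mul]; exact orderOf_dvd_iff_pow_eq_one.mp (by rw [h.oj])
    have hz1 : j ^ 2 ≠ 1 := pow_ne_one_of_lt_orderOf (by norm_num) (by rw [h.oj]; norm_num)
    have hsq := Three.sq_eq_of_order_four hS hz hz1 h.oi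
    calc i * j * i⁻¹ = i * (j * i * j⁻¹)⁻¹ * j := by group
      _ = j ^ 4 * j⁻¹ := by rw [h.conj, inv_inv, hsq]; simp [pow_succ]
      _ = j⁻¹ := by rw [← h.oj, pow_orderOf_eq_one, one_mul]
  have b2 := two_dvd_relIndex (Subgroup.centralizer {i})
    (Subgroup.mem_centralizer_singleton_iff.mpr rfl) hij (ne_inv_of_order_four h.oj)
  have b3 : (Subgroup.centralizer {j}).relIndex (Subgroup.centralizer {i} : Subgroup H) ≠ 0 :=
    Subgroup.index_ne_zero_of_finite
  have a1' := a1.trans Finset.card_le_six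
  have b1' := b1.trans Finset.card_le_four
  generalize (Subgroup.centralizer {i}).relIndex (⊤ : Subgroup H) = a at *
  generalize (Subgroup.centralizer {j}).relIndex (Subgroup.centralizer {i} : Subgroup H) = b at *
  have hq2 : q = 3 ∨ q = 15 ∨ q = 5 ∨ q = 7 ∨ q = 11 ∨ q = 23 := by
    have : q + 1 ≤ b * a := Nat.le_of_dvd (by positivity) h1
    have : b * a ≤ 4 * 6 := Nat.mul_le_mul b1' a1'
    obtain ⟨r, rfl⟩ := hqo
    have : r ≤ 11 := by omega
    interval_cases a <;> interval_cases b <;> interval_cases r <;> omega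
  have hq3 : q = 5 ∨ q = 7 ∨ q = 11 ∨ q = 23 := by
    rcases hq2 with rfl | rfl | h2
    · exfalso
      have hpq := eq_of_pow_prime hq (by norm_num)
      have c4 : Nat.card (Subgroup.zpowers i) = 4 := by rw [Nat.card_zpowers, h.oi]
      have hidx : (Subgroup.zpowers i).index = 2 := by
        have := (Subgroup.zpowers i).card_mul_index
        rw [c4, hH] at this
        omega
      obtain ⟨W, w1, w2, w3⟩ := hI _ (Subgroup.normal_of_index_eq_two hidx) inferInstance
      have := RegLin.card_dvd_of_invariant hreg _ W w3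
      rw [c4, card_eq_of_invariant (by rw [hV, hpq]) w1 w2, hpq] at this
      norm_num at this
    · exact (not_pow hp.out Nat.prime_three Nat.prime_five (by norm_num) hq).elim
    · exact h2
  have hqp : q.Prime := by rcases hq3 with rfl | rfl | rfl | rfl <;> norm_num
  have hpq := eq_of_pow_prime hq hqp
  refine ⟨hpq ▸ hq3, hpq ▸ hV, (hC _ (fun c hc => ?_)).2 hqp⟩
  exact ⟨(hc i h.mi).symm, (hc j h.mj).symm⟩

theorem sl_case [Nontrivial V]
    (hreg : ∀ v w : V, v ≠ 0 → w ≠ 0 → ∃! h : H, (h : V ≃ₗ[ZMod p] V) v = w)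
    (N : Subgroup H) (hN : N ≠ ⊥) (hperf : commutator N = ⊤) :
    ∃ ψ : SL25 →* H, Function.Injective ψ ∧ ψ.range ≤ N ∧ ψ.range.Normal ∧
      (p = 11 ∨ p = 29 ∨ p = 59) ∧ Nat.card V = p ^ 2 ∧
      IsMulCommutative (Subgroup.centralizer (ψ.range : Set H)) ∧
      (Subgroup.centralizer (ψ.range : Set H)).index ∣ 120 := by
  haveI := RegLin.finite_H (H := H)
  haveI : Fact (Nat.Prime 3) := ⟨Nat.prime_three⟩
  haveI : Nontrivial N := (Subgroup.nontrivial_iff_ne_bot N).mpr hN
  have hfree := RegLin.free_of_reg hreg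
  have hS := sylStr_of_free hfree
  obtain ⟨n, ρ, h⟩ := exists_fc hfree
  obtain ⟨x, hx⟩ := exists_prime_orderOf_dvd_card' 3 (Three.three_dvd (hS.subgroup N) hperf)
  obtain ⟨i, b, hi, hb, e⟩ := Zass.exists_pair (h.subgroup N) (hS.subgroup N) hperf hx
  have hx' : orderOf (x : H) = 3 := by simpa using hx
  replace hi : Tet (ρ x) (ρ i) := hi
  obtain ⟨ψ, hinj, hψx, hψi, hψb, hL, h3, hidx⟩ := Zass.structure_two h hx' hi hb e
  have hle : ψ.range ≤ N := by
    rw [MonoidHom.range_eq_map, ← closure_eq_top, MonoidHom.map_closure, Subgroup.closure_le]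
    rintro _ ⟨M, rfl | rfl | rfl, rfl⟩
    · rw [hψx]; exact x.2
    · rw [hψi]; exact i.2
    · rw [hψb]; exact b.2
  set C := Subgroup.centralizer (ψ.range : Set H) with hCdef
  have mx : (x : H) ∈ ψ.range := ⟨_, hψx⟩
  have mi : (i : H) ∈ ψ.range := ⟨_, hψi⟩
  have mj : (x : H)⁻¹ * i * x ∈ ψ.range :=
    Subgroup.mul_mem _ (Subgroup.mul_mem _ (Subgroup.inv_mem _ mx) mi) mx
  have oi := h.order4 hi.1
  have oj := h.order4 (h.tet_j hx' hi).1
  have hconj : ((x : H)⁻¹ * i * x) * i * ((x : H)⁻¹ * i * x)⁻¹ = (i : H)⁻¹ := by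
    rw [mul_inv_eq_iff_eq_mul]
    apply h.inj
    rw [map_mul ρ _ (i : H), h.j_mul hx' hi, map_mul ρ (i : H)⁻¹, inv_of_sq hi.1, neg_mul]
  obtain ⟨q, k, hq, hk, hp2, hV, hC⟩ := quat_dim hfree oi oj hconj
  have hC' := hC C (fun c hc => ⟨(hc _ mi).symm, (hc _ mj).symm⟩)
  have hq1 : 1 < q := hq ▸ Nat.one_lt_pow hk.ne' hp.out.one_lt
  have hH : Nat.card H = q ^ 2 - 1 := by rw [RegLin.card_H hreg, hV]
  have h1 := succ_dvd_index C hq1 hH hC'.1
  have hz : ((i : H) ^ 2) ^ 2 = 1 := by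
    rw [← pow_mul]; exact orderOf_dvd_iff_pow_eq_one.mp (by rw [oi])
  have cL : Nat.card ψ.range = 120 := by
    rw [← card_SL25]; exact Nat.card_congr (MonoidHom.ofInjective hinj).symm.toEquiv
  have h2 : C.index ∣ 120 := by
    rw [← Subgroup.relIndex_mul_index (le_sup_right : C ≤ ψ.range ⊔ C),
      Subgroup.relIndex_sup_right]
    have h4 := (C.subgroupOf ψ.range).card_mul_index
    have h5 : 2 ∣ Nat.card (C.subgroupOf ψ.range) := by
      have := orderOf_dvd_natCard (⟨⟨(i : H) ^ 2, ψ.range.pow_mem mi 2⟩,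
        fun g _ => hS.invol_comm hz g⟩ : C.subgroupOf ψ.range)
      rwa [← Subgroup.orderOf_coe, ← Subgroup.orderOf_coe, orderOf_pow' _ (by norm_num), oi] at this
    obtain ⟨r, hr⟩ := h5
    rw [hr, cL] at h4
    have h6 : C.relIndex ψ.range ∣ 60 := ⟨r, by rw [Subgroup.relIndex]; linarith⟩
    exact Nat.mul_dvd_mul h6 hidx
  have h4 : 120 ∣ q ^ 2 - 1 := by rw [← hH, ← cL]; exact Subgroup.card_subgroup_dvd_card _
  have h5 : q = 19 ∨ q = 119 ∨ q = 11 ∨ q = 29 ∨ q = 59 := by
    have h6 := h1.trans h2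
    have : q + 1 ≤ 120 := Nat.le_of_dvd (by norm_num) h6
    have : q ≤ 119 := by omega
    interval_cases q <;> omega
  have hq3 : q = 11 ∨ q = 29 ∨ q = 59 := by
    rcases h5 with rfl | rfl | h5
    · exfalso
      have h6 : 3 ∣ Nat.card C := by
        have h7 := C.card_mul_index
        obtain ⟨r, hr⟩ := h2
        refine ⟨r, Nat.eq_of_mul_eq_mul_right (Nat.pos_of_ne_zero
          (Subgroup.index_ne_zero_of_finite (H := C))) ?_⟩
        rw [h7, hH, mul_assoc, mul_comm r, ← hr]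
        norm_num
      obtain ⟨y, hy⟩ := exists_prime_orderOf_dvd_card' 3 h6
      have hy' : orderOf (y : H) = 3 := by simpa using hy
      obtain ⟨M, hM⟩ := h3 _ hy'
      have h7 : (y : H) ^ 2 = 1 := by
        rcases eq_of_commute M (hinj (by simpa [hM] using (y.2 _ ⟨Mi, rfl⟩).symm))
          (hinj (by simpa [hM] using (y.2 _ ⟨Mb, rfl⟩).symm)) with e | e
        · rw [← hM, e]; simp
        · rw [← hM, e, map_mul, hψi, ← sq]; exact hz
      have := orderOf_dvd_of_pow_eq_one h7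
      rw [hy'] at this
      norm_num at this
    · exact (not_pow (a := 7) (b := 17) hp.out (by norm_num) (by norm_num) (by norm_num) hq).elim
    · exact h5
  have hqp : q.Prime := by rcases hq3 with rfl | rfl | rfl <;> norm_num
  have hpq := eq_of_pow_prime hq hqp
  exact ⟨ψ, hinj, hle, hL, hpq ▸ hq3, hpq ▸ hV, hC'.2 hqp, h2⟩

theorem equiv_prod {G L : Type*} [Group G] [Finite G] [Group L] [Finite L] (ψ : L →* G)
    (hinj : Function.Injective ψ) {m : ℕ} [hm : Fact m.Prime] (hc : (Nat.card L).Coprime m)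
    (hG : Nat.card G = Nat.card L * m)
    (hidx : (Subgroup.centralizer (ψ.range : Set G)).index ∣ Nat.card L) :
    Nonempty (G ≃* L × Multiplicative (ZMod m)) := by
  set C := Subgroup.centralizer (ψ.range : Set G) with hC
  have h1 : m ∣ Nat.card C := by
    have h2 : m ∣ Nat.card C * C.index := by rw [C.card_mul_index, hG]; exact Dvd.intro_left _ rfl
    exact (Nat.Coprime.coprime_dvd_left hidx hc).symm.dvd_of_dvd_mul_right h2
  obtain ⟨d, hd⟩ := exists_prime_orderOf_dvd_card' m h1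
  have hd' : orderOf (d : G) = m := by simpa using hd
  have hcard : Nat.card (Subgroup.zpowers (d : G)) = m := by rw [Nat.card_zpowers, hd']
  let e : Multiplicative (ZMod m) ≃* Subgroup.zpowers (d : G) :=
    mulEquivOfCyclicCardEq (by rw [hcard]; simp)
  let φ : Multiplicative (ZMod m) →* G := (Subgroup.zpowers (d : G)).subtype.comp e.toMonoidHom
  have hφ : Function.Injective φ := Subtype.val_injective.comp e.injective
  have hmem : ∀ t, φ t ∈ Subgroup.zpowers (d : G) := fun t => (e t).2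
  have hle : Subgroup.zpowers (d : G) ≤ C := by rw [Subgroup.zpowers_le]; exact d.2
  let f := ψ.noncommCoprod φ (fun l t => hle (hmem t) _ ⟨l, rfl⟩)
  have hf : Function.Injective f := by
    refine (MonoidHom.noncommCoprod_injective _ _ _).mpr ⟨hinj, hφ, ?_⟩
    apply Subgroup.disjoint_of_coprime_natCard
    rw [← Nat.card_congr (MonoidHom.ofInjective hinj).toEquiv,
      ← Nat.card_congr (MonoidHom.ofInjective hφ).toEquiv]
    simpa using hc
  exact ⟨(MulEquiv.ofBijective f ((Nat.bijective_iff_injective_and_card f).mpr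
    ⟨hf, by rw [hG]; simp⟩)).symm⟩

end Cfsg.Agent.H2.QuatNum
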