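import Mathlib

/-!
Finite sharply 2-transitive groups: the derangements together with the identity form an
elementary abelian regular normal subgroup.
-/

set_option autoImplicit false

namespace Cfsg.Agent.H2.Sharp2

open MulAction

variable {G Ω : Type*} [Group G] [MulAction G Ω]

/-- From the `Fin 2 ↪ Ω` form of sharpness to the pointwise form. -/
theorem sharp_of_stabilizer (hsharp : ∀ x : Fin 2 ↪ Ω, MulAction.stabilizer G x = ⊥)
    (g : G) (a b : Ω) (hab : a ≠ b) (ha : g • a = a) (hb : g • b = b) : g = 1 := by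
  have h := hsharp (Function.Embedding.embFinTwo hab)
  rw [Subgroup.eq_bot_iff_forall] at h
  apply h
  rw [MulAction.mem_stabilizer_iff]
  ext i
  fin_cases i
  · exact ha
  · exact hb

theorem stabilizer_of_sharp
    (hs : ∀ (g : G) (a b : Ω), a ≠ b → g • a = a → g • b = b → g = 1) (x : Fin 2 ↪ Ω) :
    MulAction.stabilizer G x = ⊥ := by
  rw [Subgroup.eq_bot_iff_forall]
  intro g hg
  rw [MulAction.mem_stabilizer_iff] at hg
  refine hs g (x 0) (x 1) (fun h => ?_) ?_ ?_
  · have := x.injective h
    simp at this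
  · have := congrArg (fun y : Fin 2 ↪ Ω => y 0) hg
    simpa using this
  · have := congrArg (fun y : Fin 2 ↪ Ω => y 1) hg
    simpa using this

/-- The order of a sharply 2-transitive group. -/
theorem card_eq [Finite Ω] [Nontrivial Ω]
    (h2 : ∀ a b c d : Ω, a ≠ b → c ≠ d → ∃ g : G, g • a = c ∧ g • b = d)
    (hs : ∀ (g : G) (a b : Ω), a ≠ b → g • a = a → g • b = b → g = 1) :
    Nat.card G = Nat.card Ω * (Nat.card Ω - 1) := by
  classical
  obtain ⟨a, b, hab⟩ := exists_pair_ne Ω
  haveI := Fintype.ofFinite Ω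
  let f : G → (Finset.univ : Finset Ω).offDiag := fun g => ⟨(g • a, g • b), by
    simp [hab]⟩
  have hf : Function.Bijective f := by
    constructor
    · intro g h hgh
      have h1 : g • a = h • a := congrArg (fun y => y.1.1) hgh
      have h2' : g • b = h • b := congrArg (fun y => y.1.2) hgh
      have : h⁻¹ * g = 1 := hs _ a b hab (by rw [mul_smul, h1, inv_smul_smul])
        (by rw [mul_smul, h2', inv_smul_smul])
      exact (inv_mul_eq_one.mp this).symm
    · rintro ⟨⟨c, d⟩, hcd⟩
      have hcd' : c ≠ d := by simpa using hcd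
      obtain ⟨g, hg1, hg2⟩ := h2 a b c d hab hcd'
      exact ⟨g, Subtype.ext (Prod.ext hg1 hg2)⟩
  rw [Nat.card_eq_of_bijective f hf]
  rw [Nat.card_eq_fintype_card, Fintype.card_coe, Finset.offDiag_card, Nat.card_eq_fintype_card,
    Finset.card_univ, Nat.mul_sub, mul_one]

/-- The number of derangements in a sharply 2-transitive group is `n - 1`. -/
theorem card_derangements [Finite G] [Finite Ω] [Nontrivial Ω]
    (h2 : ∀ a b c d : Ω, a ≠ b → c ≠ d → ∃ g : G, g • a = c ∧ g • b = d)
    (hs : ∀ (g : G) (a b : Ω), a ≠ b → g • a = a → g • b = b → g = 1) :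
    {g : G | ∀ a : Ω, g • a ≠ a}.ncard + 1 = Nat.card Ω := by
  classical
  haveI := Fintype.ofFinite Ω
  haveI := Fintype.ofFinite G
  haveI : IsPretransitive G Ω := ⟨fun x y => by
    obtain ⟨x', hx'⟩ := exists_ne x
    obtain ⟨y', hy'⟩ := exists_ne y
    obtain ⟨g, hg, -⟩ := h2 x x' y y' hx'.symm hy'.symm
    exact ⟨g, hg⟩⟩
  have hB := MulAction.sum_card_fixedBy_eq_card_orbits_mul_card_group G Ω
  have h1 : Fintype.card (Quotient (orbitRel G Ω)) = 1 := by
    rw [Fintype.card_eq_one_iff_nonempty_unique]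
    haveI : Subsingleton (Quotient (orbitRel G Ω)) :=
      (MulAction.pretransitive_iff_subsingleton_quotient G Ω).mp inferInstance
    exact ⟨uniqueOfSubsingleton (Quotient.mk _ (Classical.arbitrary Ω))⟩
  rw [h1, one_mul] at hB
  -- the value of the fixed point count
  have key : ∀ g : G, Fintype.card (fixedBy Ω g) + (if (∀ a : Ω, g • a ≠ a) then 1 else 0)
      = 1 + (if g = 1 then Fintype.card Ω - 1 else 0) := by
    intro g
    by_cases hg : g = 1
    · subst hg
      have : ¬ (∀ a : Ω, (1 : G) • a ≠ a) := by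
        intro h; exact h (Classical.arbitrary Ω) (one_smul _ _)
      rw [if_neg this, if_pos rfl]
      have : Fintype.card (fixedBy Ω (1 : G)) = Fintype.card Ω := by simp
      rw [this]
      have := Fintype.card_pos (α := Ω)
      omega
    · rw [if_neg hg]
      by_cases hd : ∀ a : Ω, g • a ≠ a
      · rw [if_pos hd]
        have : Fintype.card (fixedBy Ω g) = 0 := by
          rw [Fintype.card_eq_zero_iff]
          exact ⟨fun x => hd x.1 x.2⟩
        omega
      · rw [if_neg hd]
        push Not at hd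
        obtain ⟨a, ha⟩ := hd
        have : Fintype.card (fixedBy Ω g) = 1 := by
          rw [Fintype.card_eq_one_iff]
          refine ⟨⟨a, ha⟩, fun y => Subtype.ext ?_⟩
          by_contra hne
          exact hg (hs g y.1 a hne y.2 ha)
        omega
  have hsum := Finset.sum_congr rfl (fun g (_ : g ∈ (Finset.univ : Finset G)) => key g)
  rw [Finset.sum_add_distrib, Finset.sum_add_distrib, hB] at hsum
  simp only [Finset.sum_const, Finset.card_univ, smul_eq_mul, mul_one, Finset.sum_ite_eq',
    Finset.mem_univ, if_true, Finset.sum_boole, Nat.cast_id] at hsum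
  have h3 : {g : G | ∀ a : Ω, g • a ≠ a}.ncard =
      (Finset.univ.filter (fun g : G => ∀ a : Ω, g • a ≠ a)).card := by
    rw [Set.ncard_eq_toFinset_card']
    congr 1
    ext g; simp
  rw [h3, Nat.card_eq_fintype_card]
  have := Fintype.card_pos (α := Ω)
  omega

/-- The main structure theorem: identity and derangements form a normal subgroup that is
elementary abelian and regular. -/
theorem exists_kernel [Finite G] [Finite Ω] [Nontrivial Ω]
    (h2 : ∀ a b c d : Ω, a ≠ b → c ≠ d → ∃ g : G, g • a = c ∧ g • b = d)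
    (hs : ∀ (g : G) (a b : Ω), a ≠ b → g • a = a → g • b = b → g = 1) :
    ∃ N : Subgroup G, N.Normal ∧ (∀ g : G, g ∈ N ↔ g = 1 ∨ ∀ a : Ω, g • a ≠ a) ∧
      (∀ x ∈ N, ∀ y ∈ N, x * y = y * x) ∧ Nat.card N = Nat.card Ω ∧
      (∀ a b : Ω, ∃ g ∈ N, g • a = b) ∧
      ∃ p : ℕ, p.Prime ∧ ∀ x ∈ N, x ^ p = 1 := by
  classical
  set D : Set G := {g : G | ∀ a : Ω, g • a ≠ a} with hD
  have hcard := card_eq h2 hs
  have hDc : D.ncard + 1 = Nat.card Ω := card_derangements h2 hs
  have hn : 1 < Nat.card Ω := Finite.one_lt_card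
  have h1D : (1 : G) ∉ D := fun h => h (Classical.arbitrary Ω) (one_smul _ _)
  have hconj : ∀ d ∈ D, ∀ g : G, g * d * g⁻¹ ∈ D := by
    intro d hd g a ha
    apply hd (g⁻¹ • a)
    rw [mul_smul, mul_smul] at ha
    exact eq_inv_smul_iff.mpr ha
  have hins : (insert (1 : G) D).ncard = Nat.card Ω := by
    rw [Set.ncard_insert_of_notMem h1D, hDc]
  -- centralisers of derangements
  have hcent : ∀ d ∈ D, (Subgroup.centralizer {d} : Set G) ⊆ insert 1 D := by
    intro d hd h hh
    by_contra hne
    simp only [Set.mem_insert_iff, not_or] at hne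
    obtain ⟨hne1, hne2⟩ := hne
    have : ∃ a : Ω, h • a = a := by
      by_contra hcon
      push Not at hcon
      exact hne2 hcon
    obtain ⟨a, ha⟩ := this
    have hc : d * h = h * d := by
      have := Subgroup.mem_centralizer_iff.mp hh d rfl
      exact this
    apply hne1
    refine hs h a (d • a) (hd a).symm ha ?_
    rw [← mul_smul, ← hc, mul_smul, ha]
  have hboth : ∀ d ∈ D, (Subgroup.centralizer {d} : Set G) = insert 1 D ∧
      ∀ e ∈ D, ∃ g : G, g * d * g⁻¹ = e := by
    intro d hd
    have hle : Nat.card (Subgroup.centralizer ({d} : Set G)) ≤ Nat.card Ω := by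
      rw [← hins]
      exact Set.ncard_le_ncard (hcent d hd)
    have horb : (orbit (ConjAct G) d) ⊆ D := by
      rintro _ ⟨g, rfl⟩
      exact hconj d hd (ConjAct.ofConjAct g)
    have hle2 : (orbit (ConjAct G) d).ncard ≤ D.ncard := Set.ncard_le_ncard horb
    have hprod : (orbit (ConjAct G) d).ncard * Nat.card (Subgroup.centralizer ({d} : Set G))
        = Nat.card G := by
      rw [← MulAction.index_stabilizer, Subgroup.nat_card_centralizer_nat_card_stabilizer,
        Subgroup.index_mul_card]
      rfl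
    have hDn : D.ncard = Nat.card Ω - 1 := by omega
    have e1 : (orbit (ConjAct G) d).ncard = D.ncard := by
      by_contra hne
      have hlt : (orbit (ConjAct G) d).ncard < D.ncard := lt_of_le_of_ne hle2 hne
      have : (orbit (ConjAct G) d).ncard * Nat.card (Subgroup.centralizer ({d} : Set G))
          < D.ncard * Nat.card Ω :=
        Nat.mul_lt_mul_of_lt_of_le hlt hle (by omega)
      rw [hprod, hcard, hDn, mul_comm] at this
      exact lt_irrefl _ this
    have e2 : Nat.card (Subgroup.centralizer ({d} : Set G)) = Nat.card Ω := by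
      rw [e1, hcard, hDn, mul_comm] at hprod
      exact Nat.eq_of_mul_eq_mul_right (by omega) hprod
    refine ⟨Set.eq_of_subset_of_ncard_le (hcent d hd) ?_, fun e he => ?_⟩
    · rw [hins, ← e2]; rfl
    · have := Set.eq_of_subset_of_ncard_le horb e1.ge
      rw [← this] at he
      obtain ⟨g, hg⟩ := he
      exact ⟨ConjAct.ofConjAct g, hg⟩
  have hDne : D.Nonempty := by
    rw [← Set.ncard_pos]; omega
  obtain ⟨d, hd⟩ := hDne
  have hmem : ∀ g : G, g ∈ Subgroup.centralizer ({d} : Set G) ↔ g = 1 ∨ g ∈ D := by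
    intro g
    rw [← SetLike.mem_coe, (hboth d hd).1, Set.mem_insert_iff]
  have hcardN : Nat.card (Subgroup.centralizer ({d} : Set G)) = Nat.card Ω := by
    rw [← hins, ← (hboth d hd).1]; rfl
  refine ⟨Subgroup.centralizer {d}, ⟨fun x hx g => ?_⟩, hmem, ?_, hcardN, ?_, ?_⟩
  · rw [hmem] at hx ⊢
    rcases hx with rfl | hx
    · left; simp
    · right; exact hconj x hx g
  · intro x hx y hy
    rw [hmem] at hx hy
    rcases hx with rfl | hx
    · simp
    have : y ∈ (Subgroup.centralizer {x} : Set G) := by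
      rw [(hboth x hx).1]; exact hy
    exact Subgroup.mem_centralizer_iff.mp this x rfl
  · intro a b
    let f : Subgroup.centralizer ({d} : Set G) → Ω := fun g => (g : G) • a
    have hinj : Function.Injective f := by
      intro g h hgh
      have hm : (h : G)⁻¹ * g ∈ Subgroup.centralizer ({d} : Set G) :=
        Subgroup.mul_mem _ (Subgroup.inv_mem _ h.2) g.2
      rw [hmem] at hm
      rcases hm with hm | hm
      · exact Subtype.ext (inv_mul_eq_one.mp hm).symm
      · exfalso
        apply hm a
        have : (g : G) • a = (h : G) • a := hgh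
        rw [mul_smul, this, inv_smul_smul]
    have hbij : Function.Bijective f := (Nat.bijective_iff_injective_and_card f).mpr ⟨hinj, hcardN⟩
    obtain ⟨g, hg⟩ := hbij.2 b
    exact ⟨g, g.2, hg⟩
  · have hd1 : d ≠ 1 := fun h => h1D (h ▸ hd)
    have ho : orderOf d ≠ 1 := fun h => hd1 (orderOf_eq_one_iff.mp h)
    obtain ⟨p, hp, hpd⟩ := Nat.exists_prime_and_dvd ho
    have ho0 : orderOf d ≠ 0 := (orderOf_pos d).ne'
    have hop : orderOf (d ^ (orderOf d / p)) = p := orderOf_pow_orderOf_div ho0 hpd
    have hm : d ^ (orderOf d / p) ∈ Subgroup.centralizer ({d} : Set G) :=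
      Subgroup.pow_mem _ ((hmem d).mpr (Or.inr hd)) _
    rw [hmem] at hm
    rcases hm with hm | hm
    · rw [hm, orderOf_one] at hop
      exact absurd hop.symm hp.one_lt.ne'
    refine ⟨p, hp, fun x hx => ?_⟩
    rw [hmem] at hx
    rcases hx with rfl | hx
    · simp
    obtain ⟨g, rfl⟩ := (hboth _ hm).2 x hx
    have := pow_orderOf_eq_one (d ^ (orderOf d / p))
    rw [hop] at this
    rw [conj_pow, this]
    simp

end Cfsg.Agent.H2.Sharp2
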